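import Cfsg.Agent.H18.Amalgam3
import Cfsg.Agent.H10.AxB

set_option autoImplicit false
open Cfsg
open scoped commutatorElement

namespace Cfsg.Agent.H18

variable {X : Type*} [Group X] {M₁ M₂ : Subgroup X} {p : ℕ}

theorem sylow_map_conj (H : Subgroup X) (g : X) (S : Sylow p ↥(H.map (MulAut.conj g).toMonoidHom)) :
    ∃ S' : Sylow p H, ((S' : Subgroup H).map H.subtype).map (MulAut.conj g).toMonoidHom =
      (S : Subgroup ↥(H.map (MulAut.conj g).toMonoidHom)).map
        (H.map (MulAut.conj g).toMonoidHom).subtype := by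
  let e : ↥H ≃* ↥(H.map (MulAut.conj g).toMonoidHom) :=
    H.equivMapOfInjective _ (MulAut.conj g).injective
  let S₀ : Sylow p ↥H := S.comapOfInjective e.toMonoidHom e.injective (by
    intro y _
    exact e.surjective y)
  refine ⟨S₀, ?_⟩
  ext y
  constructor
  · rintro ⟨_, ⟨z, hz, rfl⟩, rfl⟩
    exact ⟨e z, hz, rfl⟩
  · rintro ⟨z, hz, rfl⟩
    refine ⟨_, ⟨e.symm z, ?_, rfl⟩, ?_⟩
    · change e (e.symm z) ∈ (S : Subgroup _)
      rw [e.apply_symm_apply]; exact hz
    · change ((e (e.symm z) : ↥(H.map (MulAut.conj g).toMonoidHom)) : X) = _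
      rw [e.apply_symm_apply]; rfl

theorem sylowCenterClosure_map_conj_le (H : Subgroup X) (g : X) :
    sylowCenterClosure p (H.map (MulAut.conj g).toMonoidHom) ≤
      (sylowCenterClosure p H).map (MulAut.conj g).toMonoidHom := by
  rw [sylowCenterClosure_le_iff]
  intro S
  obtain ⟨S', hS'⟩ := sylow_map_conj H g S
  rw [← hS', ← omegaZ_map_conj]
  exact Subgroup.map_mono (omegaZ_le_sylowCenterClosure S')

theorem map_conj_inv (H : Subgroup X) (g : X) :
    (H.map (MulAut.conj g).toMonoidHom).map (MulAut.conj g⁻¹).toMonoidHom = H := by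
  rw [Subgroup.map_map]
  have : (MulAut.conj g⁻¹).toMonoidHom.comp (MulAut.conj g).toMonoidHom = MonoidHom.id X := by
    ext x; simp [mul_assoc]
  rw [this, Subgroup.map_id]

theorem sylowCenterClosure_map_conj (H : Subgroup X) (g : X) :
    sylowCenterClosure p (H.map (MulAut.conj g).toMonoidHom) =
      (sylowCenterClosure p H).map (MulAut.conj g).toMonoidHom := by
  refine le_antisymm (sylowCenterClosure_map_conj_le H g) ?_
  have h1 := sylowCenterClosure_map_conj_le (p := p) (H.map (MulAut.conj g).toMonoidHom) g⁻¹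
  rw [map_conj_inv] at h1
  have h2 := Subgroup.map_mono (f := (MulAut.conj g).toMonoidHom) h1
  have h3 := map_conj_inv (sylowCenterClosure p (H.map (MulAut.conj g).toMonoidHom)) g⁻¹
  rw [inv_inv] at h3
  rw [h3] at h2
  exact h2

theorem vertexZ_smul (g : X) (δ : CosetVertex M₁ M₂) :
    vertexZ p (g • δ) = (vertexZ p δ).map (MulAut.conj g).toMonoidHom := by
  rw [vertexZ, MulAction.stabilizer_smul_eq_stabilizer_map_conj, sylowCenterClosure_map_conj]

theorem dist_smul_le (hc : (cosetGraph M₁ M₂).Connected) (g : X) (a b : CosetVertex M₁ M₂) :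
    (cosetGraph M₁ M₂).dist (g • a) (g • b) ≤ (cosetGraph M₁ M₂).dist a b := by
  obtain ⟨w, hw⟩ := hc.exists_walk_length_eq_dist a b
  let f : cosetGraph M₁ M₂ →g cosetGraph M₁ M₂ := ⟨fun x => g • x, cosetGraph_adj_smul g⟩
  have := SimpleGraph.dist_le (w.map f)
  rw [SimpleGraph.Walk.length_map, hw] at this
  exact this

theorem dist_smul (hc : (cosetGraph M₁ M₂).Connected) (g : X) (a b : CosetVertex M₁ M₂) :
    (cosetGraph M₁ M₂).dist (g • a) (g • b) = (cosetGraph M₁ M₂).dist a b := by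
  refine le_antisymm (dist_smul_le hc g a b) ?_
  have := dist_smul_le hc g⁻¹ (g • a) (g • b)
  rwa [inv_smul_smul, inv_smul_smul] at this

theorem vertexZ_le_vertexVIter {n : ℕ} {δ μ : CosetVertex M₁ M₂}
    (h : (cosetGraph M₁ M₂).dist δ μ ≤ n) : vertexZ p μ ≤ vertexVIter p M₁ M₂ n δ :=
  le_iSup (fun μ : {μ : CosetVertex M₁ M₂ // (cosetGraph M₁ M₂).dist δ μ ≤ n} =>
    vertexZ p (μ : CosetVertex M₁ M₂)) ⟨μ, h⟩

theorem vertexVIter_le_iff {n : ℕ} {δ : CosetVertex M₁ M₂} {K : Subgroup X} :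
    vertexVIter p M₁ M₂ n δ ≤ K ↔
      ∀ μ : CosetVertex M₁ M₂, (cosetGraph M₁ M₂).dist δ μ ≤ n → vertexZ p μ ≤ K := by
  rw [vertexVIter, iSup_le_iff]
  exact ⟨fun h μ hμ => h ⟨μ, hμ⟩, fun h μ => h μ μ.2⟩

theorem vertexVIter_smul (hc : (cosetGraph M₁ M₂).Connected) (n : ℕ) (g : X)
    (δ : CosetVertex M₁ M₂) : vertexVIter p M₁ M₂ n (g • δ) =
      (vertexVIter p M₁ M₂ n δ).map (MulAut.conj g).toMonoidHom := by
  have key : ∀ (g : X) (δ : CosetVertex M₁ M₂), vertexVIter p M₁ M₂ n (g • δ) ≤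
      (vertexVIter p M₁ M₂ n δ).map (MulAut.conj g).toMonoidHom := by
    intro g δ
    rw [vertexVIter_le_iff]
    intro μ hμ
    have h1 : (cosetGraph M₁ M₂).dist δ (g⁻¹ • μ) ≤ n := by
      rw [← dist_smul hc g, smul_inv_smul]; exact hμ
    have h2 := Subgroup.map_mono (f := (MulAut.conj g).toMonoidHom)
      (vertexZ_le_vertexVIter (p := p) h1)
    rw [← vertexZ_smul, smul_inv_smul] at h2
    exact h2
  refine le_antisymm (key g δ) ?_
  have h1 := key g⁻¹ (g • δ)
  rw [inv_smul_smul] at h1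
  have h2 := Subgroup.map_mono (f := (MulAut.conj g).toMonoidHom) h1
  have h3 := map_conj_inv (vertexVIter p M₁ M₂ n (g • δ)) g⁻¹
  rw [inv_inv] at h3
  rw [h3] at h2
  exact h2

theorem stabilizer_le_normalizer_vertexVIter (hc : (cosetGraph M₁ M₂).Connected) (n : ℕ)
    (δ : CosetVertex M₁ M₂) : MulAction.stabilizer X δ ≤
      Subgroup.normalizer ((vertexVIter p M₁ M₂ n δ : Subgroup X) : Set X) := by
  intro g hg
  rw [mem_normalizer_iff_map]
  have := vertexVIter_smul (p := p) hc n g δ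
  rw [MulAction.mem_stabilizer_iff.1 hg] at this
  exact this.symm

/-- generation by the neighbours -/
theorem vertexVIter_le_of_neighbours [Fact p.Prime] (h : IsCharPAmalgamPair p M₁ M₂) {n : ℕ}
    (hn : 1 ≤ n) {δ : CosetVertex M₁ M₂} {K : Subgroup X}
    (hK : ∀ μ, (cosetGraph M₁ M₂).Adj δ μ → vertexVIter p M₁ M₂ (n - 1) μ ≤ K)
    {μ₀ : CosetVertex M₁ M₂} (hμ₀ : (cosetGraph M₁ M₂).Adj δ μ₀) :
    vertexVIter p M₁ M₂ n δ ≤ K := by
  have hconn := cosetGraph_connected h.1.1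
  rw [vertexVIter_le_iff]
  intro ν hν
  by_cases hne : δ = ν
  · subst hne
    -- Z_δ is generated by the Ω₁Z(S) and each S is a Sylow subgroup of some neighbour
    have hfin : Finite (MulAction.stabilizer X δ) := finite_stabilizer h.2.1 h.2.2.1 δ
    have hfin2 : Finite (edgeStabilizer δ μ₀) := Finite.of_injective _
      (Subgroup.inclusion_injective
        (inf_le_left : edgeStabilizer δ μ₀ ≤ MulAction.stabilizer X δ))
    rw [vertexZ, sylowCenterClosure_le_iff]
    intro S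
    obtain ⟨T⟩ : Nonempty (Sylow p ↥(edgeStabilizer δ μ₀)) := inferInstance
    obtain ⟨P, hP⟩ := exists_sylow_of_edge h hμ₀ T
    obtain ⟨T', hT'⟩ : ∃ T' : Sylow p ↥(edgeStabilizer μ₀ δ),
        (T' : Subgroup ↥(edgeStabilizer μ₀ δ)).map (edgeStabilizer μ₀ δ).subtype =
          (T : Subgroup ↥(edgeStabilizer δ μ₀)).map (edgeStabilizer δ μ₀).subtype := by
      have e : edgeStabilizer μ₀ δ = edgeStabilizer δ μ₀ := inf_comm _ _
      rw [e]
      exact ⟨T, rfl⟩
    obtain ⟨P', hP'⟩ := exists_sylow_of_edge h hμ₀.symm T'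
    obtain ⟨g, hg, e⟩ := sylow_conj_map P S
    have h1 : vertexZ p μ₀ ≤ vertexVIter p M₁ M₂ (n - 1) μ₀ :=
      vertexZ_le_vertexVIter (by rw [SimpleGraph.dist_self]; omega)
    have h2 : vertexZ p (g • μ₀) ≤ K := by
      refine le_trans ?_ (hK (g • μ₀) ?_)
      · exact vertexZ_le_vertexVIter (by rw [SimpleGraph.dist_self]; omega)
      · have := cosetGraph_adj_smul g hμ₀
        rwa [MulAction.mem_stabilizer_iff.1 hg] at this
    refine le_trans ?_ h2
    rw [← e, ← omegaZ_map_conj, vertexZ_smul, hP, ← hT', ← hP']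
    exact Subgroup.map_mono (omegaZ_le_sylowCenterClosure P')
  · obtain ⟨μ, hμ, hd⟩ := exists_adj_dist hconn hne
    exact (vertexZ_le_vertexVIter (by omega)).trans (hK μ hμ)

theorem vertexVIter_neighbour_le (h : IsAmalgamPair M₁ M₂) {n m : ℕ}
    (hn : m + 1 ≤ n) {δ μ : CosetVertex M₁ M₂} (hμ : (cosetGraph M₁ M₂).Adj δ μ) :
    vertexVIter p M₁ M₂ m μ ≤ vertexVIter p M₁ M₂ n δ := by
  have hconn := cosetGraph_connected h.1
  rw [vertexVIter_le_iff]
  intro ν hν
  refine vertexZ_le_vertexVIter ?_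
  have := hconn.dist_triangle (u := δ) (v := μ) (w := ν)
  rw [SimpleGraph.dist_eq_one_iff_adj.2 hμ] at this
  omega

/-- `O^p(L_δ)` is transitive on the neighbours of `δ` -/
theorem pResidual_transitive [Fact p.Prime] (h : IsSpeAmalgamPair p M₁ M₂)
    {δ μ : CosetVertex M₁ M₂} (hμ : (cosetGraph M₁ M₂).Adj δ μ)
    (ν : CosetVertex M₁ M₂) (hν : (cosetGraph M₁ M₂).Adj δ ν) :
    ∃ g ∈ ((pResidual p ↥(pElementClosure p (MulAction.stabilizer X δ))).map
      (pElementClosure p (MulAction.stabilizer X δ)).subtype), g • μ = ν := by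
  have hfin : Finite (MulAction.stabilizer X δ) := finite_stabilizer h.1.2.1 h.1.2.2.1 δ
  have hfin2 : Finite (edgeStabilizer δ μ) := Finite.of_injective _
    (Subgroup.inclusion_injective (inf_le_left : edgeStabilizer δ μ ≤ MulAction.stabilizer X δ))
  set L := pElementClosure p (MulAction.stabilizer X δ) with hL
  have hLs : L ≤ MulAction.stabilizer X δ := pElementClosure_le _
  have hfin3 : Finite L := Finite.of_injective _ (Subgroup.inclusion_injective hLs)
  obtain ⟨g, hg, e⟩ := pElementClosure_transitive h hμ μ ν hμ hν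
  obtain ⟨S⟩ : Nonempty (Sylow p ↥(edgeStabilizer δ μ)) := inferInstance
  obtain ⟨P, hP⟩ := exists_sylow_of_edge h.1 hμ S
  set T : Subgroup X := (P : Subgroup ↥(MulAction.stabilizer X δ)).map
    (MulAction.stabilizer X δ).subtype with hT
  have hTp : IsPGroup p T := P.isPGroup'.map _
  have hTL : T ≤ L := le_pElementClosure hTp (Subgroup.map_subtype_le _)
  have hTμ : T ≤ MulAction.stabilizer X μ := by
    rw [hP]; exact (Subgroup.map_subtype_le _).trans inf_le_right
  -- a Sylow subgroup of L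
  have hidx : ¬ p ∣ (T.subgroupOf L).index := by
    intro hd
    have h1 : T.relIndex (MulAction.stabilizer X δ) =
        (P : Subgroup ↥(MulAction.stabilizer X δ)).index := by
      rw [hT, Subgroup.relIndex, Subgroup.subgroupOf,
        Subgroup.comap_map_eq_self_of_injective (Subgroup.subtype_injective _)]
    have h2 : ¬ p ∣ (P : Subgroup ↥(MulAction.stabilizer X δ)).index := P.not_dvd_index
    apply h2
    rw [← h1, ← Subgroup.relIndex_mul_relIndex T L _ hTL hLs]
    exact Dvd.dvd.mul_right hd _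
  let P' : Sylow p L := (isPGroup_subgroupOf hTp).toSylow hidx
  have hP' : (P' : Subgroup L) = T.subgroupOf L := rfl
  have h3 := sylow_sup_pResidual P'
  have h4 : (⟨g, hg⟩ : L) ∈ pResidual p L ⊔ (P' : Subgroup L) := by
    rw [sup_comm, h3]; exact Subgroup.mem_top _
  rw [Subgroup.mem_sup_of_normal_left] at h4
  obtain ⟨a, ha, b, hb, hab⟩ := h4
  rw [hP', Subgroup.mem_subgroupOf] at hb
  refine ⟨a, ⟨a, ha, rfl⟩, ?_⟩
  have h5 : (b : X) • μ = μ := hTμ hb
  have h6 : g = (a : X) * (b : X) := (congrArg Subtype.val hab).symm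
  rw [← e, h6, mul_smul, h5]

theorem vertexVIter_le_sup [Fact p.Prime] (h : IsSpeAmalgamPair p M₁ M₂) {n : ℕ}
    (hn : 1 ≤ n) {δ μ : CosetVertex M₁ M₂} (hμ : (cosetGraph M₁ M₂).Adj δ μ) {W : Subgroup X}
    (hW : ⁅vertexVIter p M₁ M₂ n δ, ((pResidual p ↥(pElementClosure p (MulAction.stabilizer X δ))).map
      (pElementClosure p (MulAction.stabilizer X δ)).subtype)⁆ ≤ W) :
    vertexVIter p M₁ M₂ n δ ≤ vertexVIter p M₁ M₂ (n - 1) μ ⊔ W := by
  have hconn := cosetGraph_connected h.1.1.1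
  refine vertexVIter_le_of_neighbours h.1 hn (fun ν hν => ?_) hμ
  obtain ⟨g, hg, rfl⟩ := pResidual_transitive h hμ ν hν
  rw [vertexVIter_smul hconn]
  rintro _ ⟨x, hx, rfl⟩
  have hx' : x ∈ vertexVIter p M₁ M₂ n δ :=
    vertexVIter_neighbour_le h.1.1 (by omega) hμ hx
  have h1 : ⁅x, g⁆ ∈ W := hW (Subgroup.commutator_mem_commutator hx' hg)
  have h2 : (MulAut.conj g).toMonoidHom x = ⁅x, g⁆⁻¹ * x := by
    simp [commutatorElement_def, mul_assoc]
  rw [h2]
  exact mul_mem (inv_mem (Subgroup.mem_sup_right h1)) (Subgroup.mem_sup_left hx)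

theorem exists_neighbour (δ : CosetVertex M₁ M₂) :
    ∃ μ, (cosetGraph M₁ M₂).Adj δ μ := by
  rcases δ with a | b
  · obtain ⟨x, rfl⟩ := QuotientGroup.mk_surjective a
    exact ⟨_, cosetGraph_adj_inl_inr x⟩
  · obtain ⟨x, rfl⟩ := QuotientGroup.mk_surjective b
    exact ⟨_, (cosetGraph_adj_inl_inr x).symm⟩

theorem card_vertex_dvd (h : IsCharPAmalgamPair p M₁ M₂) (δ : CosetVertex M₁ M₂) :
    p ∣ Nat.card (MulAction.stabilizer X δ) := by
  rcases δ with a | b
  · obtain ⟨x, rfl⟩ := QuotientGroup.mk_surjective a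
    rw [stabilizer_inl, card_map_conj]
    exact h.2.2.2.1
  · obtain ⟨x, rfl⟩ := QuotientGroup.mk_surjective b
    rw [stabilizer_inr, card_map_conj]
    exact h.2.2.2.2.1

theorem vertexZ_ne_bot [Fact p.Prime] (h : IsCharPAmalgamPair p M₁ M₂) (δ : CosetVertex M₁ M₂) :
    vertexZ p δ ≠ ⊥ := by
  have hfin : Finite (MulAction.stabilizer X δ) := finite_stabilizer h.2.1 h.2.2.1 δ
  obtain ⟨S⟩ : Nonempty (Sylow p ↥(MulAction.stabilizer X δ)) := inferInstance
  intro h0
  have h1 := omegaZ_le_sylowCenterClosure S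
  rw [vertexZ] at h0
  rw [h0, le_bot_iff] at h1
  have hne : Nontrivial (S : Subgroup ↥(MulAction.stabilizer X δ)) := by
    rw [Subgroup.nontrivial_iff_ne_bot]
    exact Sylow.ne_bot_of_dvd_card S (card_vertex_dvd h δ)
  have hc := S.isPGroup'.center_nontrivial
  have hcp : IsPGroup p (Subgroup.center (S : Subgroup ↥(MulAction.stabilizer X δ))) :=
    S.isPGroup'.to_subgroup _
  have hdvd : p ∣ Nat.card (Subgroup.center (S : Subgroup ↥(MulAction.stabilizer X δ))) := by
    obtain ⟨n, hn⟩ := (IsPGroup.nontrivial_iff_card hcp).1 hc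
    rw [hn.2]
    exact dvd_pow_self p (by omega)
  obtain ⟨z, hz⟩ := exists_prime_orderOf_dvd_card' p hdvd
  have hz1 : (((z : (S : Subgroup ↥(MulAction.stabilizer X δ))) : ↥(MulAction.stabilizer X δ)) : X) ∈
      omegaZ p ((S : Subgroup ↥(MulAction.stabilizer X δ)).map
        (MulAction.stabilizer X δ).subtype) := by
    refine mem_omegaOne (Subgroup.mem_inf.2 ⟨⟨_, z.1.2, rfl⟩, ?_⟩) ?_
    · rw [Subgroup.mem_centralizer_iff]
      rintro _ ⟨y, hy, rfl⟩
      have := Subgroup.mem_center_iff.1 z.2 ⟨y, hy⟩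
      exact congrArg Subtype.val (congrArg Subtype.val this)
    · have := pow_orderOf_eq_one z
      rw [hz] at this
      have h2 := congrArg (fun t => (((t : Subgroup.center (S : Subgroup ↥(MulAction.stabilizer X δ))) :
        (S : Subgroup ↥(MulAction.stabilizer X δ))) : ↥(MulAction.stabilizer X δ))) this
      simpa using congrArg Subtype.val h2
  rw [h1, Subgroup.mem_bot] at hz1
  have : z = 1 := by
    apply Subtype.ext
    apply Subtype.ext
    apply Subtype.ext
    exact hz1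
  rw [this, orderOf_one] at hz
  exact (Fact.out (p := p.Prime)).one_lt.ne hz

/-- the contradiction -/
theorem vertexVIter_not_le [Fact p.Prime] (h : IsSpeAmalgamPair p M₁ M₂) {n : ℕ}
    (hn : 1 ≤ n) {δ μ : CosetVertex M₁ M₂} (hμ : (cosetGraph M₁ M₂).Adj δ μ)
    (hQ : vertexVIter p M₁ M₂ n δ ≤ vertexQ p δ) :
    ¬ vertexVIter p M₁ M₂ n δ ≤ vertexVIter p M₁ M₂ (n - 1) μ := by
  intro hle
  have hconn := cosetGraph_connected h.1.1.1
  have heq : vertexVIter p M₁ M₂ n δ = vertexVIter p M₁ M₂ (n - 1) μ :=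
    le_antisymm hle (vertexVIter_neighbour_le h.1.1 (by omega) hμ)
  have h1 : vertexVIter p M₁ M₂ n δ = ⊥ := by
    refine spe_no_common h hμ (le_inf (hQ.trans (pCoreOf_le _))
      (hQ.trans (vertexQ_le_stabilizer_of_adj h.1 hμ))) ?_ ?_
    · exact (pElementClosure_le _).trans (stabilizer_le_normalizer_vertexVIter hconn n δ)
    · rw [heq]
      exact (pElementClosure_le _).trans (stabilizer_le_normalizer_vertexVIter hconn _ μ)
  refine vertexZ_ne_bot h.1 δ (le_bot_iff.1 ?_)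
  rw [← h1]
  exact vertexZ_le_vertexVIter (by rw [SimpleGraph.dist_self]; omega)

theorem le_of_le_sup_commutator [Fact p.Prime] {Q V U : Subgroup X} (hQ : IsPGroup p Q)
    [Finite Q] (hVQ : V ≤ Q) (hUV : U ≤ V) (hU : Q ≤ Subgroup.normalizer (U : Set X))
    (h : V ≤ U ⊔ ⁅V, Q⁆) : V ≤ U := by
  have hUQ : U ≤ Q := hUV.trans hVQ
  have hUn : (U.subgroupOf Q).Normal := (normal_subgroupOf_iff hUQ).2 hU
  have hcQ : ⁅V, Q⁆ ≤ Q := (Subgroup.commutator_mono hVQ le_rfl).trans (Subgroup.commutator_le_self Q)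
  have h1 : V.subgroupOf Q ≤ U.subgroupOf Q ⊔ ⁅V.subgroupOf Q, (⊤ : Subgroup Q)⁆ := by
    have e : ⁅V.subgroupOf Q, (⊤ : Subgroup Q)⁆ = ⁅V, Q⁆.subgroupOf Q := by
      rw [← Subgroup.subgroupOf_self (H := Q), commutator_subgroupOf hVQ le_rfl]
    rw [e, ← Subgroup.subgroupOf_sup hUQ hcQ]
    exact Subgroup.comap_mono h
  have h2 := Subgroup.map_mono (f := QuotientGroup.mk' (U.subgroupOf Q)) h1
  rw [Subgroup.map_sup, Subgroup.map_commutator, QuotientGroup.map_mk'_self, bot_sup_eq] at h2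
  have hnil : Group.IsNilpotent (↥(((⊤ : Subgroup Q)).map (QuotientGroup.mk' (U.subgroupOf Q)))) := by
    have : IsPGroup p ↥(((⊤ : Subgroup Q)).map (QuotientGroup.mk' (U.subgroupOf Q))) := by
      refine IsPGroup.map ?_ _
      exact hQ.to_subgroup ⊤
    exact this.isNilpotent
  have h3 := H10.eq_bot_of_le_commutator (Subgroup.map_mono le_top) hnil h2
  rw [Subgroup.map_eq_bot_iff, QuotientGroup.ker_mk'] at h3
  have h4 := Subgroup.map_mono (f := Q.subtype) h3
  rwa [Subgroup.map_subgroupOf_eq_of_le hVQ, Subgroup.map_subgroupOf_eq_of_le hUQ] at h4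

end Cfsg.Agent.H18
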