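import Mathlib
import Cfsg.Prelude
import Cfsg.Agent.H24.TwoPrimes
import Cfsg.Agent.H1.Cores
import Cfsg.Agent.H1.Hall
import Cfsg.Agent.H18.PCore

/-!
# Groups with the order and spectrum of an alternating group (helper18, for S3419, S3420)
-/

set_option autoImplicit false
set_option linter.all false

namespace Cfsg.Agent.H18.AnSpec

open Subgroup

theorem two_pr (n : ℕ) (hn : 11 ≤ n) : ∃ p q : ℕ, p.Prime ∧ q.Prime ∧ p < q ∧ n < 2 * p ∧ q ≤ n := by
  by_cases h : 18 ≤ n
  · obtain ⟨p, q, hp, hq, h1, h2, h3⟩ := H24.two_primes (n / 2) (by omega)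
    exact ⟨p, q, hp, hq, by omega, by omega, by omega⟩
  · rcases lt_or_ge n 14 with h1 | h1
    · exact ⟨7, 11, by norm_num, by norm_num, by omega, by omega, by omega⟩
    · exact ⟨11, 13, by norm_num, by norm_num, by omega, by omega, by omega⟩

theorem two_pr' (n : ℕ) (hn : 5 ≤ n) (h6 : n ≠ 6) (h10 : n ≠ 10) :
    ∃ p q : ℕ, p.Prime ∧ q.Prime ∧ p < q ∧ n < 2 * p ∧ q ≤ n := by
  by_cases h : 11 ≤ n
  · exact two_pr n h
  · by_cases h5 : n = 5
    · exact ⟨3, 5, by norm_num, by norm_num, by omega, by omega, by omega⟩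
    · exact ⟨5, 7, by norm_num, by norm_num, by omega, by omega, by omega⟩

theorem perm_no_pq {n p q : ℕ} (hp : p.Prime) (hq : q.Prime) (hpq : p ≠ q) (hn : n < p + q)
    (σ : Equiv.Perm (Fin n)) : orderOf σ ≠ p * q := by
  intro h
  rw [← Equiv.Perm.lcm_cycleType] at h
  have hlp : σ.cycleType.lcm ∣ σ.cycleType.prod := Multiset.lcm_dvd.2 fun a ha => Multiset.dvd_prod ha
  have hsum : σ.cycleType.sum ≤ n := by
    rw [Equiv.Perm.sum_cycleType]
    exact (Finset.card_le_univ _).trans (by rw [Fintype.card_fin])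
  have h1 : p ∣ σ.cycleType.prod := (h ▸ dvd_mul_right p q : p ∣ σ.cycleType.lcm).trans hlp
  have h2 : q ∣ σ.cycleType.prod := (h ▸ dvd_mul_left q p : q ∣ σ.cycleType.lcm).trans hlp
  obtain ⟨a, ha, hpa⟩ := (Nat.Prime.prime hp).exists_mem_multiset_dvd h1
  obtain ⟨b, hb, hqb⟩ := (Nat.Prime.prime hq).exists_mem_multiset_dvd h2
  have ha2 : 2 ≤ a := Equiv.Perm.two_le_of_mem_cycleType ha
  have hb2 : 2 ≤ b := Equiv.Perm.two_le_of_mem_cycleType hb
  have hpa' := Nat.le_of_dvd (by omega) hpa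
  have hqb' := Nat.le_of_dvd (by omega) hqb
  by_cases hab : a = b
  · subst hab
    have h3 : p * q ∣ a := ((Nat.coprime_primes hp hq).2 hpq).mul_dvd_of_dvd_of_dvd hpa hqb
    have h4 := Nat.le_of_dvd (by omega) h3
    have h5 := Multiset.le_sum_of_mem ha
    have hp2 := hp.two_le
    have hq2 := hq.two_le
    nlinarith
  · obtain ⟨s, hs⟩ := Multiset.exists_cons_of_mem ha
    rw [hs] at hb hsum
    have hb' : b ∈ s := by
      rcases Multiset.mem_cons.1 hb with h3 | h3
      · exact absurd h3.symm hab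
      · exact h3
    have h5 := Multiset.le_sum_of_mem hb'
    rw [Multiset.sum_cons] at hsum
    omega

theorem fact_val {n p : ℕ} (hp : p.Prime) (h1 : n < 2 * p) (h2 : p ≤ n) : ¬ p ^ 2 ∣ n.factorial := by
  haveI := Fact.mk hp
  have hp2 := hp.two_le
  have hpp : n < p ^ 2 := by nlinarith
  have h3 : Nat.log p n < 2 := Nat.log_lt_of_lt_pow (by omega) hpp
  have h4 := padicValNat_factorial (p := p) h3
  rw [Finset.sum_Ico_succ_top (by norm_num), Finset.Ico_self, Finset.sum_empty, zero_add, pow_one] at h4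
  have h5 : n / p = 1 := by
    apply Nat.div_eq_of_lt_le <;> omega
  rw [h5] at h4
  intro h6
  have := (padicValNat_dvd_iff_le (p := p) (Nat.factorial_ne_zero n)).1 h6
  omega

/-- minimal normal subgroups whose order is divisible by `p` exactly once are simple -/
theorem simple_of_min {G : Type*} [Group G] [Finite G] {M : Subgroup G} [hMn : M.Normal] (hM : M ≠ ⊥)
    (hmin : ∀ K : Subgroup G, K.Normal → K ≤ M → K = ⊥ ∨ K = M) {p : ℕ} (hp : p.Prime)
    (hd : p ∣ Nat.card M) (hd2 : ¬ p ^ 2 ∣ Nat.card M) : IsSimpleGroup M := by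
  haveI := Fact.mk hp
  have hO : Cfsg.pPrimeCore p ↥M = ⊥ := by
    have hchar : (Cfsg.pPrimeCore p ↥M).Characteristic := inferInstance
    have hn : ((Cfsg.pPrimeCore p ↥M).map M.subtype).Normal := inferInstance
    rcases hmin _ hn (map_subtype_le _) with h | h
    · exact (Subgroup.map_eq_bot_iff_of_injective _ M.subtype_injective).1 h
    · exfalso
      have h1 := H1.pPrimeCore_coprime p ↥M
      have h2 : Nat.card (Cfsg.pPrimeCore p ↥M) = Nat.card M := by
        have h3 : Nat.card ((Cfsg.pPrimeCore p ↥M).map M.subtype) = Nat.card (Cfsg.pPrimeCore p ↥M) :=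
          Nat.card_congr ((Cfsg.pPrimeCore p ↥M).equivMapOfInjective M.subtype M.subtype_injective).symm.toEquiv
        rw [h] at h3
        exact h3.symm
      rw [h2] at h1
      exact (hp.coprime_iff_not_dvd.1 h1.symm) hd
  have hpd : ∀ T : Subgroup G, T ≤ M → M ≤ normalizer (T : Set G) → T ≠ ⊥ → p ∣ Nat.card T := by
    intro T hTM hMT hT
    by_contra h
    have hn : (T.subgroupOf M).Normal := (normal_subgroupOf_iff_le_normalizer hTM).2 hMT
    have h1 : T.subgroupOf M ≤ Cfsg.pPrimeCore p ↥M := by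
      apply H1.le_pPrimeCore hn
      rw [Nat.card_congr (Subgroup.subgroupOfEquivOfLe hTM).toEquiv]
      exact (hp.coprime_iff_not_dvd.2 h).symm
    rw [hO, le_bot_iff, Subgroup.subgroupOf_eq_bot, disjoint_iff, inf_of_le_left hTM] at h1
    exact hT h1
  have hne : ∀ g : G, ∀ T : Subgroup G, T ≤ M → M ≤ normalizer (T : Set G) → T ≠ ⊥ →
      T ⊓ T.map (MulAut.conj g).toMonoidHom ≠ ⊥ := by
    intro g T hTM hMT hT h
    have hTg : T.map (MulAut.conj g).toMonoidHom ≤ M := by
      rintro _ ⟨t, ht, rfl⟩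
      exact hMn.conj_mem t (hTM ht) g
    have h1 := H1.card_sup_mul_card_inf_of_le_normalizer (hTg.trans hMT)
    have h2 : Nat.card (T.map (MulAut.conj g).toMonoidHom) = Nat.card T :=
      Nat.card_congr (T.equivMapOfInjective _ (MulAut.conj g).injective).symm.toEquiv
    rw [h, Subgroup.card_bot, mul_one, h2] at h1
    apply hd2
    have h3 := hpd T hTM hMT hT
    rw [pow_two]
    refine (mul_dvd_mul h3 h3).trans ?_
    rw [← h1]
    exact Subgroup.card_dvd_of_le (sup_le hTM hTg)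
  rw [Subgroup.isSimpleGroup_iff]
  refine ⟨hM, ?_⟩
  intro K hKM hKn
  by_cases hK : K = ⊥
  · exact Or.inl hK
  right
  have hMK : M ≤ normalizer (K : Set G) := (normal_subgroupOf_iff_le_normalizer hKM).1 hKn
  obtain ⟨T, hT⟩ := (Set.toFinite {T : Subgroup G | T ≤ K ∧ M ≤ normalizer (T : Set G) ∧ T ≠ ⊥}).exists_minimal
    ⟨K, le_rfl, hMK, hK⟩
  obtain ⟨h1, h2, h3⟩ := hT.prop
  have hTn : T.Normal := by
    rw [← Subgroup.normalizer_eq_top_iff, eq_top_iff]
    intro g _
    rw [mem_normalizer_iff_map]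
    have h4 : M ≤ normalizer ((T ⊓ T.map (MulAut.conj g).toMonoidHom : Subgroup G) : Set G) := by
      apply le_normalizer_inf h2
      refine le_normalizer_of_conj_mem ?_
      rintro m hm _ ⟨t, ht, rfl⟩
      have h5 : g⁻¹ * m * g ∈ M := by
        have := hMn.conj_mem m hm g⁻¹
        rwa [inv_inv] at this
      refine ⟨(g⁻¹ * m * g) * t * (g⁻¹ * m * g)⁻¹, (mem_normalizer_iff.1 (h2 h5) t).1 ht, ?_⟩
      show g * ((g⁻¹ * m * g) * t * (g⁻¹ * m * g)⁻¹) * g⁻¹ = m * (g * t * g⁻¹) * m⁻¹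
      group
    have h5 : T ≤ T ⊓ T.map (MulAut.conj g).toMonoidHom :=
      hT.le_of_le ⟨inf_le_left.trans h1, h4, hne g T (h1.trans hKM) h2 h3⟩ inf_le_left
    have h6 : T ≤ T.map (MulAut.conj g).toMonoidHom := h5.trans inf_le_right
    symm
    apply Subgroup.eq_of_le_of_card_ge h6
    exact (Nat.card_congr (T.equivMapOfInjective _ (MulAut.conj g).injective).symm.toEquiv).le
  rcases hmin T hTn (h1.trans hKM) with h4 | h4
  · exact absurd h4 h3
  · exact le_antisymm hKM (h4 ▸ h1)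

end Cfsg.Agent.H18.AnSpec
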