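import Mathlib
import Cfsg.Prelude
import Cfsg.Agent.H18.AnSpec
import Cfsg.Agent.H1.Chief

set_option autoImplicit false
set_option linter.all false

namespace Cfsg.Agent.H18.AnSpec

open Subgroup

/-- a `q`-element normalizing a group of order `p`, `q ∤ p - 1`, centralizes it -/
theorem commute_of_norm {G : Type*} [Group G] [Finite G] {p q : ℕ} (hp : p.Prime) (hq : q.Prime)
    (hqp : ¬ q ∣ p - 1) {x y : G} (hx : orderOf x = p) (hy : orderOf y = q)
    (hyx : y ∈ normalizer ((zpowers x : Subgroup G) : Set G)) : y * x = x * y := by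
  haveI := Fact.mk hp
  let f := Subgroup.normalizerMonoidHom (zpowers x)
  have hcyc : IsCyclic (zpowers x) := inferInstance
  have h1 : Nat.card (MulAut (zpowers x)) = p - 1 := by
    rw [IsCyclic.card_mulAut, Nat.card_zpowers, hx, Nat.totient_prime hp]
  have h2 : orderOf (f ⟨y, hyx⟩) ∣ q := by
    have h3 := orderOf_map_dvd f ⟨y, hyx⟩
    rwa [Subgroup.orderOf_mk, hy] at h3
  have h3 : orderOf (f ⟨y, hyx⟩) ∣ p - 1 := by
    rw [← h1]; exact orderOf_dvd_natCard _
  have h4 : f ⟨y, hyx⟩ = 1 := by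
    rw [← orderOf_eq_one_iff]
    rcases (Nat.dvd_prime hq).1 h2 with h5 | h5
    · exact h5
    · rw [h5] at h3; exact absurd h3 hqp
  have h5 : (f ⟨y, hyx⟩) ⟨x, mem_zpowers x⟩ = ⟨x, mem_zpowers x⟩ := by rw [h4]; rfl
  have h6 : y * x * y⁻¹ = x := congrArg Subtype.val h5
  exact mul_inv_eq_iff_eq_mul.1 h6

theorem orderOf_of_norm {G : Type*} [Group G] [Finite G] {p q : ℕ} (hp : p.Prime) (hq : q.Prime) (hpq : p ≠ q)
    (hqp : ¬ q ∣ p - 1) {x y : G} (hx : orderOf x = p) (hy : orderOf y = q)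
    (hyx : y ∈ normalizer ((zpowers x : Subgroup G) : Set G)) : orderOf (x * y) = p * q := by
  have h1 := commute_of_norm hp hq hqp hx hy hyx
  have h2 : Commute x y := h1.symm
  rw [h2.orderOf_mul_eq_mul_orderOf_of_coprime (by rw [hx, hy]; exact (Nat.coprime_primes hp hq).2 hpq), hx, hy]

/-- the Frattini step -/
theorem dvd_of_normal {G : Type*} [Group G] [Finite G] {p q : ℕ} (hp : p.Prime) (hq : q.Prime) (hpq : p ≠ q)
    (hqp : ¬ q ∣ p - 1) (h3 : ∀ g : G, orderOf g ≠ p * q) (hqG : q ∣ Nat.card G) {H : Subgroup G} [hH : H.Normal]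
    (hpH : p ∣ Nat.card H) (hpH2 : ¬ p ^ 2 ∣ Nat.card H) : q ∣ Nat.card H := by
  haveI := Fact.mk hp
  haveI := Fact.mk hq
  by_contra hqH
  obtain ⟨P⟩ : Nonempty (Sylow p H) := inferInstance
  have hP : Nat.card P = p := by
    obtain ⟨k, hk⟩ := IsPGroup.iff_card.1 P.isPGroup'
    have hk1 : k ≠ 0 := by
      rintro rfl
      have h4 := P.card_eq_multiplicity
      rw [hk] at h4
      have h5 : (Nat.card H).factorization p ≠ 0 := by
        have := (Nat.factorization_le_iff_dvd (by exact hp.ne_zero) (Nat.card_pos.ne')).2 hpH p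
        rw [hp.factorization_self] at this
        omega
      rw [eq_comm, pow_zero, Nat.pow_eq_one] at h4
      rcases h4 with h4 | h4
      · exact hp.ne_one h4
      · exact h5 h4
    have hk2 : ¬ 2 ≤ k := by
      intro h4
      apply hpH2
      refine (pow_dvd_pow p h4).trans ?_
      rw [← hk]
      exact Subgroup.card_subgroup_dvd_card _
    have : k = 1 := by omega
    rw [hk, this, pow_one]
  have hF := Sylow.normalizer_sup_eq_top P
  set P' := (P : Subgroup H).map H.subtype with hP'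
  have hP'c : Nat.card P' = p := by
    rw [hP']
    exact (Nat.card_congr ((P : Subgroup H).equivMapOfInjective H.subtype H.subtype_injective).symm.toEquiv).trans hP
  -- `q` divides the order of the normalizer
  have hqN : q ∣ Nat.card (normalizer (P' : Set G)) := by
    have h4 := H1.card_sup_dvd_of_normal_right (normalizer (P' : Set G)) H
    rw [hF, Subgroup.card_top] at h4
    exact (hq.dvd_mul.1 (hqG.trans h4)).resolve_right hqH
  obtain ⟨⟨y, hyN⟩, hy⟩ := exists_prime_orderOf_dvd_card' q hqN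
  rw [Subgroup.orderOf_mk] at hy
  obtain ⟨⟨x, hxP⟩, hx⟩ := exists_prime_orderOf_dvd_card' p (G := P') (by rw [hP'c])
  rw [Subgroup.orderOf_mk] at hx
  have hxP' : zpowers x = P' := by
    apply Subgroup.eq_of_le_of_card_ge (zpowers_le.2 hxP)
    rw [Nat.card_zpowers, hx, hP'c]
  rw [← hxP'] at hyN
  exact h3 _ (orderOf_of_norm hp hq hpq hqp hx hy hyN)

theorem chief_simple {G : Type*} [Group G] [Finite G] {π : Set ℕ} (hπ : ∀ p ∈ π, p.Prime)
    (h1 : ∀ p ∈ π, p ∣ Nat.card G) (h2 : ∀ p ∈ π, ¬ p ^ 2 ∣ Nat.card G)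
    (h3 : ∀ p ∈ π, ∀ q ∈ π, p ≠ q → ∀ g : G, orderOf g ≠ p * q)
    (h4 : ∀ p ∈ π, ∀ q ∈ π, ¬ q ∣ p - 1) (hne : ∃ p ∈ π, ∃ q ∈ π, p ≠ q) :
    ∃ (N H : Subgroup G) (_ : N.Normal), H.Normal ∧ N < H ∧
      IsSimpleGroup (↥H ⧸ N.subgroupOf H) ∧ ¬ IsMulCommutative (↥H ⧸ N.subgroupOf H) ∧
      ∀ p ∈ π, p ∣ Nat.card (↥H ⧸ N.subgroupOf H) := by
  obtain ⟨p₀, hp₀, q₀, hq₀, hpq₀⟩ := hne
  obtain ⟨H, hH⟩ := (Set.toFinite {H : Subgroup G | H.Normal ∧ ∃ p ∈ π, p ∣ Nat.card H}).exists_minimal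
    ⟨⊤, inferInstance, p₀, hp₀, by rw [Subgroup.card_top]; exact h1 p₀ hp₀⟩
  obtain ⟨hHn, p, hp, hpH⟩ := hH.prop
  have hsq : ∀ q ∈ π, ¬ q ^ 2 ∣ Nat.card H := fun q hq h => h2 q hq (h.trans (Subgroup.card_subgroup_dvd_card H))
  have hall : ∀ q ∈ π, q ∣ Nat.card H := by
    intro q hq
    by_cases hpq : p = q
    · rw [← hpq]; exact hpH
    · exact dvd_of_normal (hπ p hp) (hπ q hq) hpq (h4 p hp q hq) (h3 p hp q hq hpq) (h1 q hq) hpH (hsq p hp)
  have hHbot : H ≠ ⊥ := by
    rintro rfl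
    rw [Subgroup.card_bot] at hpH
    exact (hπ p hp).one_lt.ne' (Nat.dvd_one.1 hpH)
  obtain ⟨N, hN⟩ := (Set.toFinite {N : Subgroup G | N.Normal ∧ N < H}).exists_maximal
    ⟨⊥, inferInstance, bot_lt_iff_ne_bot.2 hHbot⟩
  obtain ⟨hNn, hNH⟩ := hN.prop
  have hNπ : ∀ q ∈ π, ¬ q ∣ Nat.card N := by
    intro q hq h
    exact hNH.not_ge (hH.le_of_le ⟨hNn, q, hq, h⟩ hNH.le)
  -- the quotient
  set f := (QuotientGroup.mk' N).comp H.subtype with hf
  have hker : f.ker = N.subgroupOf H := by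
    ext x
    rw [MonoidHom.mem_ker, hf, MonoidHom.comp_apply, QuotientGroup.mk'_apply, QuotientGroup.eq_one_iff,
      mem_subgroupOf]
    rfl
  have hrange : f.range = H.map (QuotientGroup.mk' N) := by
    rw [hf, MonoidHom.range_comp, Subgroup.range_subtype]
  have hcard : Nat.card (↥H ⧸ N.subgroupOf H) * Nat.card N = Nat.card H := by
    rw [Subgroup.card_eq_card_quotient_mul_card_subgroup (N.subgroupOf H),
      Nat.card_congr (Subgroup.subgroupOfEquivOfLe hNH.le).toEquiv]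
  have hdvd : ∀ q ∈ π, q ∣ Nat.card (↥H ⧸ N.subgroupOf H) := by
    intro q hq
    have := hall q hq
    rw [← hcard] at this
    exact ((hπ q hq).dvd_mul.1 this).resolve_right (hNπ q hq)
  have e : (↥H ⧸ N.subgroupOf H) ≃* f.range :=
    (QuotientGroup.quotientMulEquivOfEq hker.symm).trans (QuotientGroup.quotientKerEquivRange f)
  have hsimple : IsSimpleGroup (↥H ⧸ N.subgroupOf H) := by
    have hMn : (H.map (QuotientGroup.mk' N)).Normal := hHn.map _ (QuotientGroup.mk'_surjective N)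
    have hcM : Nat.card (H.map (QuotientGroup.mk' N)) = Nat.card (↥H ⧸ N.subgroupOf H) := by
      rw [← hrange]; exact (Nat.card_congr e.toEquiv).symm
    have hsim : IsSimpleGroup (H.map (QuotientGroup.mk' N)) := by
      refine simple_of_min (p := p) ?_ ?_ (hπ p hp) ?_ ?_
      · intro h
        rw [H1.map_mk'_eq_bot_iff] at h
        exact hNH.not_ge h
      · intro K hK hKM
        have hK' : (K.comap (QuotientGroup.mk' N)).Normal := hK.comap _
        have hNK : N ≤ K.comap (QuotientGroup.mk' N) := H1.le_comap_mk' N K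
        have hKH : K.comap (QuotientGroup.mk' N) ≤ H := by
          intro x hx
          obtain ⟨h, hh, hhx⟩ := hKM hx
          have h5 : h⁻¹ * x ∈ N := QuotientGroup.eq.1 hhx
          have h6 : x = h * (h⁻¹ * x) := by group
          rw [h6]
          exact H.mul_mem hh (hNH.le h5)
        have hmap : (K.comap (QuotientGroup.mk' N)).map (QuotientGroup.mk' N) = K :=
          Subgroup.map_comap_eq_self_of_surjective (QuotientGroup.mk'_surjective N) K
        by_cases hlt : K.comap (QuotientGroup.mk' N) = H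
        · right; rw [← hmap, hlt]
        · left
          have h5 : K.comap (QuotientGroup.mk' N) ≤ N :=
            hN.le_of_ge ⟨hK', lt_of_le_of_ne hKH hlt⟩ hNK
          rw [← hmap, H1.map_mk'_eq_bot_iff]
          exact h5
      · rw [hcM]; exact hdvd p hp
      · rw [hcM]
        intro h5
        apply hsq p hp
        rw [← hcard]
        exact dvd_mul_of_dvd_left h5 _
    rw [← hrange] at hsim
    exact e.isSimpleGroup
  refine ⟨N, H, hNn, hHn, hNH, hsimple, ?_, hdvd⟩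
  intro hcomm
  letI : CommGroup (↥H ⧸ N.subgroupOf H) :=
    { (inferInstance : Group (↥H ⧸ N.subgroupOf H)) with mul_comm := hcomm.is_comm.comm }
  have h5 : (Nat.card (↥H ⧸ N.subgroupOf H)).Prime := IsSimpleGroup.prime_card
  have h6 := (Nat.prime_dvd_prime_iff_eq (hπ p₀ hp₀) h5).1 (hdvd p₀ hp₀)
  have h7 := (Nat.prime_dvd_prime_iff_eq (hπ q₀ hq₀) h5).1 (hdvd q₀ hq₀)
  exact hpq₀ (h6.trans h7.symm)

end Cfsg.Agent.H18.AnSpec
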