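import Mathlib
import Cfsg.Prelude
import Cfsg.Agent.H18.AnSpec2

set_option autoImplicit false
set_option linter.all false

namespace Cfsg.Agent.H18.AnSpec

open Subgroup

theorem card_eq {G : Type*} [Group G] [Finite G] (n : ℕ) (hn : 5 ≤ n)
    (hcard : Nat.card G = Nat.card ↥(alternatingGroup (Fin n))) : 2 * Nat.card G = n.factorial := by
  haveI : Nontrivial (Fin n) := Fin.nontrivial_iff_two_le.2 (by omega)
  rw [hcard, two_mul_nat_card_alternatingGroup, Nat.card_perm, Nat.card_fin]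

theorem no_order {G : Type*} [Group G] [Finite G] (n : ℕ)
    (hspec : Set.range (orderOf : G → ℕ) = Set.range (orderOf : ↥(alternatingGroup (Fin n)) → ℕ))
    {p q : ℕ} (hp : p.Prime) (hq : q.Prime) (hpq : p ≠ q) (hn : n < p + q) (g : G) : orderOf g ≠ p * q := by
  intro h
  have h1 : p * q ∈ Set.range (orderOf : G → ℕ) := ⟨g, h⟩
  rw [hspec] at h1
  obtain ⟨σ, hσ⟩ := h1
  apply perm_no_pq hp hq hpq hn (σ : Equiv.Perm (Fin n))
  rw [Subgroup.orderOf_coe, hσ]

theorem main_chief {G : Type*} [Group G] [Finite G] (n : ℕ) (hn : 5 ≤ n) (h6 : n ≠ 6) (h10 : n ≠ 10)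
    (hcard : Nat.card G = Nat.card ↥(alternatingGroup (Fin n)))
    (hspec : Set.range (orderOf : G → ℕ) = Set.range (orderOf : ↥(alternatingGroup (Fin n)) → ℕ)) :
    ∃ (N H : Subgroup G) (_ : N.Normal), H.Normal ∧ N < H ∧
      IsSimpleGroup (↥H ⧸ N.subgroupOf H) ∧ ¬ IsMulCommutative (↥H ⧸ N.subgroupOf H) ∧
      ∀ p : ℕ, p.Prime → n < 2 * p → p ≤ n → p ∣ Nat.card (↥H ⧸ N.subgroupOf H) := by
  have hc := card_eq n hn hcard
  have h := chief_simple (G := G) (π := {p : ℕ | p.Prime ∧ n < 2 * p ∧ p ≤ n}) (fun p hp => hp.1) ?_ ?_ ?_ ?_ ?_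
  · obtain ⟨N, H, hN, hH, h1, h2, h3, h4⟩ := h
    exact ⟨N, H, hN, hH, h1, h2, h3, fun p hp hp1 hp2 => h4 p ⟨hp, hp1, hp2⟩⟩
  · rintro p ⟨hp, hp1, hp2⟩
    have h1 : p ∣ 2 * Nat.card G := by
      rw [hc]; exact (Nat.Prime.dvd_factorial hp).2 hp2
    rcases hp.dvd_mul.1 h1 with h2 | h2
    · have := Nat.le_of_dvd (by norm_num) h2
      omega
    · exact h2
  · rintro p ⟨hp, hp1, hp2⟩ h1
    apply fact_val hp hp1 hp2
    rw [← hc]
    exact h1.trans (dvd_mul_left _ _)
  · rintro p ⟨hp, hp1, hp2⟩ q ⟨hq, hq1, hq2⟩ hpq g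
    exact no_order n hspec hp hq hpq (by omega) g
  · rintro p ⟨hp, hp1, hp2⟩ q ⟨hq, hq1, hq2⟩ ⟨k, hk⟩
    have h1 := hp.two_le
    have h2 := hq.two_le
    have hk0 : k ≠ 0 := by rintro rfl; omega
    have hk2 : ¬ 2 ≤ k := by
      intro h3
      have : q * 2 ≤ q * k := Nat.mul_le_mul_left q h3
      omega
    have hk1 : k = 1 := by omega
    rw [hk1, mul_one] at hk
    have h3 := hp.eq_two_or_odd
    have h4 := hq.eq_two_or_odd
    omega
  · obtain ⟨p, q, hp, hq, h1, h2, h3⟩ := two_pr' n hn h6 h10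
    exact ⟨p, ⟨hp, h2, by omega⟩, q, ⟨hq, by omega, h3⟩, by omega⟩

theorem exists_pq {K : Type*} [Group K] [Finite K] {p q : ℕ} (hp : p.Prime) (hq : q.Prime) (hpq : p ≠ q)
    (hcard : Nat.card K = q ^ 2 * p) (h1 : ¬ q ≡ 1 [MOD p]) (h2 : ¬ q ^ 2 ≡ 1 [MOD p])
    (h3 : ¬ q ∣ p - 1) : ∃ g : K, orderOf g = p * q := by
  haveI := Fact.mk hp
  haveI := Fact.mk hq
  obtain ⟨x, hx⟩ := exists_prime_orderOf_dvd_card' (G := K) p (by rw [hcard]; exact dvd_mul_left _ _)
  obtain ⟨y, hy⟩ := exists_prime_orderOf_dvd_card' (G := K) q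
    (by rw [hcard, pow_two, mul_assoc]; exact dvd_mul_right _ _)
  refine ⟨x * y, orderOf_of_norm hp hq hpq h3 hx hy ?_⟩
  have hpg : IsPGroup p (zpowers x) := IsPGroup.of_card (n := 1) (by rw [Nat.card_zpowers, hx, pow_one])
  obtain ⟨P, hP⟩ := hpg.exists_le_sylow
  have hPc : Nat.card P = p := by
    obtain ⟨k, hk⟩ := IsPGroup.iff_card.1 P.isPGroup'
    have h4 : p ^ k ∣ q ^ 2 * p := by
      rw [← hk, ← hcard]; exact Subgroup.card_subgroup_dvd_card _
    have h5 : ¬ 2 ≤ k := by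
      intro h5
      have h6 : p * p ∣ q ^ 2 * p := by
        rw [← pow_two]; exact (pow_dvd_pow p h5).trans h4
      have h7 := Nat.dvd_of_mul_dvd_mul_right hp.pos h6
      have h8 := hp.dvd_of_dvd_pow h7
      exact hpq ((Nat.prime_dvd_prime_iff_eq hp hq).1 h8)
    have h6 : Nat.card (zpowers x) ≤ Nat.card P := Subgroup.card_le_of_le hP
    rw [Nat.card_zpowers, hx] at h6
    have h7 : k ≠ 0 := by
      rintro rfl
      rw [pow_zero] at hk
      have := hp.two_le
      omega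
    have h8 : k = 1 := by omega
    rw [hk, h8, pow_one]
  have hPx : zpowers x = P := by
    apply Subgroup.eq_of_le_of_card_ge hP
    rw [Nat.card_zpowers, hx, hPc]
  have hidx : (P : Subgroup K).index = q ^ 2 := by
    have h4 := Subgroup.card_mul_index (P : Subgroup K)
    have hPc' : Nat.card (P : Subgroup K) = p := hPc
    rw [hcard, hPc', mul_comm (q ^ 2) p] at h4
    exact Nat.eq_of_mul_eq_mul_left hp.pos h4
  have hn : Nat.card (Sylow p K) = 1 := by
    have h4 := card_sylow_modEq_one p K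
    have h5 : Nat.card (Sylow p K) ∣ q ^ 2 := by
      rw [← hidx]; exact P.card_dvd_index
    obtain ⟨j, hj, hj2⟩ := (Nat.dvd_prime_pow hq).1 h5
    rw [hj2] at h4 ⊢
    interval_cases j
    · rw [pow_zero]
    · rw [pow_one] at h4; exact absurd h4 h1
    · exact absurd h4 h2
  have hPn : (P : Subgroup K).Normal := by
    haveI : Subsingleton (Sylow p K) := (Nat.card_eq_one_iff_unique.1 hn).1
    exact Sylow.normal_of_subsingleton P
  rw [hPx, Subgroup.normalizer_eq_top]
  exact mem_top y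

theorem not_solv {G : Type*} [Group G] [Finite G] (n : ℕ) (hn : 5 ≤ n)
    (hcard : Nat.card G = Nat.card ↥(alternatingGroup (Fin n)))
    (hspec : Set.range (orderOf : G → ℕ) = Set.range (orderOf : ↥(alternatingGroup (Fin n)) → ℕ)) :
    ¬ Group.IsSolvable G := by
  intro hs
  have hc := card_eq n hn hcard
  by_cases h6 : n = 6
  · subst h6
    have h1 : Nat.card G = 45 * 8 := by
      have : (6 : ℕ).factorial = 720 := by decide
      omega
    obtain ⟨K, hK⟩ := H1.hall_exists hs h1 (by norm_num)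
    obtain ⟨g, hg⟩ := exists_pq (K := K) (p := 5) (q := 3) (by norm_num) (by norm_num) (by norm_num)
      (by rw [hK]; norm_num) (by decide) (by decide) (by decide)
    exact no_order 6 hspec (p := 5) (q := 3) (by norm_num) (by norm_num) (by norm_num) (by norm_num) (g : G)
      (by rw [Subgroup.orderOf_coe, hg])
  by_cases h10 : n = 10
  · subst h10
    have h1 : Nat.card G = 175 * 10368 := by
      have : (10 : ℕ).factorial = 3628800 := by decide
      omega
    obtain ⟨K, hK⟩ := H1.hall_exists hs h1 (by norm_num)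
    obtain ⟨g, hg⟩ := exists_pq (K := K) (p := 7) (q := 5) (by norm_num) (by norm_num) (by norm_num)
      (by rw [hK]; norm_num) (by decide) (by decide) (by decide)
    exact no_order 10 hspec (p := 7) (q := 5) (by norm_num) (by norm_num) (by norm_num) (by norm_num) (g : G)
      (by rw [Subgroup.orderOf_coe, hg])
  obtain ⟨N, H, hN, hH, h1, h2, h3, h4⟩ := main_chief n hn h6 h10 hcard hspec
  apply h3
  have h5 : Group.IsSolvable (↥H ⧸ N.subgroupOf H) := inferInstance
  exact ⟨⟨IsSimpleGroup.comm_iff_isSolvable.2 h5⟩⟩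

end Cfsg.Agent.H18.AnSpec
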