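import Cfsg.Agent.H18.CN9

/-!
# Minimal simple CN-groups of odd order: conjugacy of maximal nilpotent subgroups
-/

set_option autoImplicit false
set_option linter.all false

namespace Cfsg.Agent.H18

open Cfsg Subgroup
open scoped Pointwise commutatorElement

universe u v

variable {G : Type u} [Group G] [Finite G]

section odd
variable (hG : IsMinSimpleOddOrder G) (hCN : IsCNGroup G)
include hG hCN

theorem maxNil_conj {H₁ H₂ : Subgroup G} (h₁ : MaxNil H₁) (h₂ : MaxNil H₂) {p : ℕ} (hp : p.Prime)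
    (hp1 : p ∣ Nat.card H₁) (hp2 : p ∣ Nat.card H₂) : ∃ g : G, H₂ = L.cj g H₁ := by
  haveI : Fact p.Prime := ⟨hp⟩
  have hS1 := maxNil_sylow hCN h₁ hp1
  have hS2 := maxNil_sylow hCN h₂ hp2
  obtain ⟨g, -, hg⟩ := hS2.exists_conj_eq hS1
  -- `S₂^g = S₁`
  refine ⟨g⁻¹, ?_⟩
  have hS1b : piCoreOf {p} H₁ ≠ ⊥ := (sylIn_ne_bot_iff (core_sylIn h₁.1 p)).2 hp1
  have hM := syl_normalizer_coatom hG hCN hS1 hS1b
  obtain ⟨-, h1, -⟩ := syl_struct hG hCN hS1 hS1b hM.1 le_rfl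
  have h3 := nil_le_fhOf hCN hS1 hS1b le_rfl h1 h₁.1 (OOT.piCoreOf_le _ _)
  have h4 := h₁.2 _ (H21.fhOf_nilpotent _) h3
  have h₂' := maxNil_cj h₂ g
  have h5 : piCoreOf {p} H₁ ≤ L.cj g H₂ := by
    rw [← hg]; exact L.cj_mono (OOT.piCoreOf_le _ _)
  have h6 := nil_le_fhOf hCN hS1 hS1b le_rfl h1 h₂'.1 h5
  have h7 := h₂'.2 _ (H21.fhOf_nilpotent _) h6
  have h8 : L.cj g H₂ = H₁ := h7.symm.trans h4
  rw [← h8, L.cj_inv_cj]

/-- centralizers of nontrivial elements lie in maximal nilpotent subgroups containing them -/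
theorem maxNil_cent' {H : Subgroup G} (hH : MaxNil H) {x : G} (hx : x ∈ H) (hx1 : x ≠ 1) :
    centralizer ({x} : Set G) ≤ H :=
  maxNil_cent hCN hH (maxNil_ti' hG hCN hH) hx hx1

end odd

end Cfsg.Agent.H18
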