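import Cfsg.Agent.H18.CN5
import Cfsg.Agent.H18.PCore

/-!
# Solvable CN-groups: the trichotomy
-/

set_option autoImplicit false
set_option linter.all false

namespace Cfsg.Agent.H18

open Cfsg Subgroup
open scoped Pointwise commutatorElement

universe u v

variable {G : Type u} [Group G] [Finite G]

/-- two involutions acting fixed point freely on a nontrivial abelian group, generating a group
which acts fixed point freely, are equal. -/
theorem invol_unique {V A : Subgroup G} (hV : ∀ a ∈ V, ∀ b ∈ V, a * b = b * a) (hV1 : V ≠ ⊥)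
    (hAV : A ≤ normalizer (V : Set G)) (hf : ∀ a ∈ A, a ≠ 1 → ∀ v ∈ V, a * v = v * a → v = 1)
    {s t : G} (hs : s ∈ A) (ht : t ∈ A) (hs2 : orderOf s = 2) (ht2 : orderOf t = 2) : s = t := by
  have key : ∀ t ∈ A, orderOf t = 2 → ∀ v ∈ V, t * v * t⁻¹ = v⁻¹ := by
    intro t ht ht2 v hv
    have ht1 : t ≠ 1 := by rintro rfl; rw [orderOf_one] at ht2; omega
    have htt : t * t = 1 := by rw [← pow_two, ← ht2, pow_orderOf_eq_one]
    have htv : t * v * t⁻¹ ∈ V := (Subgroup.mem_normalizer_iff.1 (hAV ht) v).1 hv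
    have hti : t⁻¹ = t := inv_eq_of_mul_eq_one_left htt
    have h1 : v * (t * v * t⁻¹) = 1 := by
      refine hf t ht ht1 _ (mul_mem hv htv) ?_
      have e1 : t * (v * (t * v * t⁻¹)) = (t * v * t⁻¹) * (t * t) * v * t⁻¹ := by group
      have e2 : v * (t * v * t⁻¹) * t = v * t * v := by group
      rw [e1, htt, mul_one, hV _ htv v hv]
      rw [e2]
      have : v * (t * v * t⁻¹) * t⁻¹ = v * t * v * (t⁻¹ * t⁻¹) := by group
      rw [this, ← mul_inv_rev, htt, inv_one, mul_one]
    exact eq_inv_of_mul_eq_one_right h1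
  by_contra hne
  obtain ⟨v, hv, hv1⟩ := H21.exists_ne_one hV1
  have h1 : s * t ≠ 1 := by
    intro h
    apply hne
    have htt : t * t = 1 := by rw [← pow_two, ← ht2, pow_orderOf_eq_one]
    exact mul_right_cancel (h.trans htt.symm)
  refine hv1 (hf (s * t) (mul_mem hs ht) h1 v hv ?_)
  have h2 := key t ht ht2 v hv
  have h3 := key s hs hs2 v⁻¹ (inv_mem hv)
  rw [inv_inv] at h3
  have h4 : s * t * v * (s * t)⁻¹ = v := by
    have : s * t * v * (s * t)⁻¹ = s * (t * v * t⁻¹) * s⁻¹ := by group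
    rw [this, h2, h3]
  exact mul_inv_eq_iff_eq_mul.1 h4

omit [Finite G] in
theorem cj_of_normal {R : Subgroup G} (h : R.Normal) (g : G) : L.cj g R = R := by
  refine L.mem_nz_iff.1 ?_
  show g ∈ normalizer (R : Set G)
  rw [Subgroup.normalizer_eq_top_iff.2 h]
  exact Subgroup.mem_top g

theorem mk_injOn {P A : Subgroup G} [P.Normal] (h : P ⊓ A = ⊥) {a : G} (ha : a ∈ A)
    (h1 : ((a : G) : G ⧸ P) = 1) : a = 1 := by
  have : a ∈ P ⊓ A := Subgroup.mem_inf.2 ⟨(QuotientGroup.eq_one_iff a).1 h1, ha⟩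
  rwa [h, Subgroup.mem_bot] at this

theorem orderOf_mk_of_inf {P A : Subgroup G} [P.Normal] (h : P ⊓ A = ⊥) {a : G} (ha : a ∈ A) :
    orderOf ((a : G) : G ⧸ P) = orderOf a := by
  apply Nat.dvd_antisymm
  · exact orderOf_map_dvd (QuotientGroup.mk' P) a
  · rw [orderOf_dvd_iff_pow_eq_one]
    apply mk_injOn h (pow_mem ha _)
    rw [QuotientGroup.mk_pow, pow_orderOf_eq_one]

/-- the case of no normal Sylow subgroup. -/
theorem three_step_of_nofh [Group.IsSolvable G] (hCN : IsCNGroup G) (hnn : ¬ Group.IsNilpotent G)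
    (hfh : fittingHall G = ⊥) : ∃ p : ℕ, p.Prime ∧ IsThreeStepGroup p G := by
  haveI : Nontrivial G := by
    rw [← not_subsingleton_iff_nontrivial]
    intro h
    exact hnn inferInstance
  obtain ⟨p, M, hp, hMc, hM1, -, hMp⟩ := H1.exists_pgroup_characteristic_of_solvable G inferInstance
  haveI : Fact p.Prime := ⟨hp⟩
  set P := pCore p G with hP
  haveI hPn : P.Normal := H1.pCore_normal p G
  have hPp : IsPGroup p P := H1.pCore_isPGroup p G
  have hMP : M ≤ P := by
    haveI := hMc
    exact H1.le_pCore inferInstance hMp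
  have hP1 : P ≠ ⊥ := fun h => hM1 (by rw [h, le_bot_iff] at hMP; exact hMP)
  have hsolT : Group.IsSolvable (⊤ : Subgroup G) := inferInstance
  have hPN : ∀ X : Subgroup G, X ≤ normalizer (P : Set G) := fun X => by
    rw [(Subgroup.normalizer_eq_top_iff).2 hPn]; exact le_top
  -- the `p'`-Hall subgroup `A`
  obtain ⟨A, hA⟩ := OOT.hallOf_exists hsolT (cpl p)
  have hpA : ¬ p ∣ Nat.card A := fun h => hA.2.1 p hp h rfl
  have hAP : (Nat.card A).Coprime (Nat.card P) := by
    obtain ⟨n, hn⟩ := IsPGroup.iff_card.1 hPp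
    rw [hn]
    exact (Nat.Coprime.pow_left _ ((Nat.Prime.coprime_iff_not_dvd hp).2 hpA)).symm
  have hPA : P ⊓ A = ⊥ := by rw [inf_comm]; exact H1.inf_eq_bot_of_card_coprime hAP
  have hfpf : ∀ e ∈ A, e ≠ 1 → ∀ u ∈ P, e * u = u * e → u = 1 := by
    intro e he he1
    refine nofh_fpf hCN hfh hPn hPp ?_ he1
    intro h
    exact hpA (h.trans (Subgroup.orderOf_dvd_natCard _ he))
  have hAnil : Group.IsNilpotent A := fpf_nil hCN hP1 hPp.isNilpotent (hPN A) hAP hfpf
  -- quotient
  have hCNq : IsCNGroup (G ⧸ P) := cn_quot_pgroup hCN P hPp hP1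
  have hcoreq : ∀ R : Subgroup (G ⧸ P), R.Normal → IsPGroup p R → R = ⊥ := by
    intro R hR hRp
    have h1 : pCore p (G ⧸ P) = ⊥ := H1.pCore_quotient_eq_bot (G := G) p
    rw [← le_bot_iff, ← h1]
    exact H1.le_pCore hR hRp
  -- `P` is not a Sylow subgroup
  have hidx : p ∣ P.index := by
    by_contra h
    have h1 : ((Nat.card P).Coprime P.index) := by
      obtain ⟨n, hn⟩ := IsPGroup.iff_card.1 hPp
      rw [hn]
      exact Nat.Coprime.pow_left _ ((Nat.Prime.coprime_iff_not_dvd hp).2 h)
    have h2 := H21.le_fittingHall hPn hPp.isNilpotent h1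
    rw [hfh, le_bot_iff] at h2
    exact hP1 h2
  have hcardq : Nat.card (G ⧸ P) = P.index := rfl
  -- `p'`-elements of the quotient come from `A`
  have hlift : ∀ r : ℕ, r.Prime → r ≠ p → r ∣ Nat.card (G ⧸ P) → r ∣ Nat.card A := by
    intro r hr hrp hd
    have h1 := L.card_mul_relIndex hA.1
    rw [Subgroup.card_top] at h1
    have h2 : r ∣ Nat.card G := hd.trans (by rw [← P.card_mul_index, hcardq]; exact Dvd.intro_left _ rfl)
    rw [← h1] at h2
    exact (hr.dvd_mul.1 h2).resolve_right (hA.2.2 r hr hrp)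
  set Abar := A.map (QuotientGroup.mk' P) with hAbar
  have hAbarcard : Nat.card Abar = Nat.card A := by
    have hinj : Function.Injective ((QuotientGroup.mk' P).comp A.subtype) := by
      rw [injective_iff_map_eq_one]
      intro a ha
      exact Subtype.ext (mk_injOn hPA a.2 ha)
    have h1 : Abar = ((QuotientGroup.mk' P).comp A.subtype).range := by
      rw [hAbar, MonoidHom.range_comp, Subgroup.range_subtype]
    rw [h1]
    exact (Nat.card_congr (MonoidHom.ofInjective hinj).toEquiv).symm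
  have hAbarHall : IsPiHallOf (cpl p) Abar (⊤ : Subgroup (G ⧸ P)) := by
    have := OOT.IsPiHallOf.map (QuotientGroup.mk' P) hA
    rwa [Subgroup.map_top_of_surjective _ (QuotientGroup.mk'_surjective P)] at this
  have hAbarnil : Group.IsNilpotent Abar := H1.isNilpotent_map _ hAnil
  have hsolq : Group.IsSolvable (⊤ : Subgroup (G ⧸ P)) := inferInstance
  -- a normal `p'`-subgroup of the quotient lies in `Abar`
  have hnormle : ∀ R : Subgroup (G ⧸ P), R.Normal → (¬ p ∣ Nat.card R) → R ≤ Abar := by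
    intro R hR hpR
    obtain ⟨g, -, hg⟩ := OOT.IsPiHallOf.exists_conj_le hsolq hAbarHall (K := R) le_top (by
      intro q hq hd hqp
      have : q = p := hqp
      subst this
      exact hpR hd)
    rwa [cj_of_normal hR] at hg
  by_cases hfq : fittingHall (G ⧸ P) = ⊥
  · -- contradiction
    exfalso
    haveI : Nontrivial (G ⧸ P) := by
      rw [← Finite.one_lt_card_iff_nontrivial, hcardq]
      exact lt_of_lt_of_le hp.one_lt (Nat.le_of_dvd (Nat.pos_of_ne_zero Subgroup.index_ne_zero_of_finite) hidx)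
    obtain ⟨q, R, hq, hRc, hR1, hRab, hRq⟩ := H1.exists_pgroup_characteristic_of_solvable (G ⧸ P) inferInstance
    haveI : Fact q.Prime := ⟨hq⟩
    haveI := hRc
    have hRn : R.Normal := inferInstance
    have hqp : q ≠ p := by
      rintro rfl
      exact hR1 (hcoreq R hRn hRq)
    have hpR : ¬ p ∣ Nat.card R := by
      obtain ⟨n, hn⟩ := IsPGroup.iff_card.1 hRq
      rw [hn]
      intro h
      exact hqp ((Nat.prime_dvd_prime_iff_eq hp hq).1 (hp.dvd_of_dvd_pow h)).symm
    have hRA := hnormle R hRn hpR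
    -- the preimage of `R` in `A` is cyclic
    set R' := A ⊓ R.comap (QuotientGroup.mk' P) with hR'
    have hR'A : R' ≤ A := inf_le_left
    have hR'map : R'.map (QuotientGroup.mk' P) = R := by
      apply le_antisymm
      · exact (Subgroup.map_mono inf_le_right).trans (Subgroup.map_comap_le _ _)
      · intro x hx
        obtain ⟨a, ha, rfl⟩ := hRA hx
        exact ⟨a, Subgroup.mem_inf.2 ⟨ha, hx⟩, rfl⟩
    have hR'ab : ∀ a ∈ R', ∀ b ∈ R', a * b = b * a := by
      intro a ha b hb
      have h1 : ((a : G) : G ⧸ P) * b = b * a := H21.mulComm_iff.1 hRab _ (Subgroup.mem_inf.1 ha).2 _ (Subgroup.mem_inf.1 hb).2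
      have h2 := quot_comm_iff.1 h1
      have h3 : ⁅a, b⁆ ∈ P ⊓ A := Subgroup.mem_inf.2 ⟨h2, by
        rw [commutatorElement_def]
        exact mul_mem (mul_mem (mul_mem (hR'A ha) (hR'A hb)) (inv_mem (hR'A ha))) (inv_mem (hR'A hb))⟩
      rw [hPA, Subgroup.mem_bot, commutatorElement_eq_one_iff_mul_comm] at h3
      exact h3
    have hR'cyc : IsCyclic R' := H20.isCyclic_of_fpf_comm (K := P) hP1 (hPN R')
      (fun a ha => hfpf a (hR'A ha))
      (Nat.Coprime.coprime_dvd_left (Subgroup.card_dvd_of_le hR'A) hAP) hR'ab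
    have hRcyc : IsCyclic R := by
      rw [← hR'map]
      exact isCyclic_of_surjective ((QuotientGroup.mk' P).subgroupMap R')
        ((QuotientGroup.mk' P).subgroupMap_surjective R')
    have hqR : q ∣ Nat.card R := by
      obtain ⟨a, ha, ha1⟩ := H21.exists_ne_one hR1
      exact dvd_card_of_isPGroup (H23.isPGroup_zpowers_of_mem hRq ha) ha1 ha
    obtain ⟨w, hw⟩ := exists_prime_orderOf_dvd_card' q hqR
    have hwq : orderOf (w : G ⧸ P) = q := by rw [Subgroup.orderOf_coe, hw]
    have hWR : zpowers (w : G ⧸ P) ≤ R := by rw [zpowers_le]; exact w.2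
    have hWn : (zpowers (w : G ⧸ P)).Normal := by
      rw [← Subgroup.normalizer_eq_top_iff, eq_top_iff]
      intro e _
      refine L.mem_nz_iff.2 ?_
      refine H21.eq_of_card_of_cyclic hRcyc ?_ hWR (by rw [L.card_cj])
      have h1 : L.cj e R = R := cj_of_normal hRn e
      exact (L.cj_mono hWR).trans h1.le
    refine no_order_q hfq hWn (by rw [Nat.card_zpowers, hwq]) ?_
    intro e he he1 u hu
    exact nofh_fpf hCNq hfq hRn hRq he he1 u (hWR hu)
  · -- the three step case
    refine ⟨p, hp, ?_⟩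
    set H := fittingHall (G ⧸ P) with hH
    have hHn : H.Normal := inferInstance
    have hHnil : Group.IsNilpotent H := H21.fittingHall_nilpotent _
    have hHcop := H21.fittingHall_coprime (G ⧸ P)
    have hpH : ¬ p ∣ Nat.card H := by
      intro hd
      have h1 : (piCoreOf {p} H).Normal := by
        rw [← Subgroup.normalizer_eq_top_iff, eq_top_iff]
        have h1 := OOT.normalizer_le_normalizer_piCoreOf {p} H
        rwa [(Subgroup.normalizer_eq_top_iff).2 hHn] at h1
      have h2 := hcoreq _ h1 (OOT.isPGroup_of_isPiSub (OOT.isPiSub_piCoreOf {p} H))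
      obtain ⟨x, hx⟩ := exists_prime_orderOf_dvd_card' p hd
      have hx' : orderOf (x : G ⧸ P) = p := by rw [Subgroup.orderOf_coe, hx]
      have h3 := mem_core_of_nil hHnil x.2 (isPGroup_zpowers_of_orderOf hx')
      rw [h2, Subgroup.mem_bot] at h3
      rw [h3, orderOf_one] at hx'
      exact hp.ne_one hx'.symm
    have hHA : H ≤ Abar := hnormle H hHn hpH
    -- `H = Abar`
    have hHeq : H = Abar := by
      apply le_antisymm hHA
      apply le_of_prime_power
      intro r hr y hy hyr
      by_cases hrH : r ∣ Nat.card H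
      · have h1 : ¬ r ∣ H.index := fun h => hr.out.one_lt.ne' (Nat.eq_one_of_dvd_coprimes hHcop hrH h)
        have h2 : zpowers y ≤ H := by
          apply H1.le_of_coprime_index
          obtain ⟨n, hn⟩ := IsPGroup.iff_card.1 hyr
          rw [hn]
          exact Nat.Coprime.pow_left _ ((Nat.Prime.coprime_iff_not_dvd Fact.out).2 h1)
        exact h2 (mem_zpowers y)
      · -- `y` commutes with a nontrivial element of `H`
        obtain ⟨h, hh, hh1⟩ := H21.exists_ne_one hfq
        obtain ⟨s, k, hs, hk⟩ := exists_prime_power_ne_one hh1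
        haveI : Fact s.Prime := ⟨hs⟩
        have hh'1 : h ^ k ≠ 1 := fun h => by rw [h, orderOf_one] at hk; exact hs.ne_one hk.symm
        have hsH : s ∣ Nat.card H := by rw [← hk]; exact Subgroup.orderOf_dvd_natCard _ (pow_mem hh k)
        have hrs : r ≠ s := by rintro rfl; exact hrH hsH
        refine fh_elt hCNq (pow_mem hh k) hh'1 hyr ?_
        exact nil_iff_comm.1 hAbarnil r s hr inferInstance hrs y hy _ (hHA (pow_mem hh k)) hyr
          (isPGroup_zpowers_of_orderOf hk)
    -- `G ⧸ P` is not nilpotent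
    have hnnq : ¬ Group.IsNilpotent (G ⧸ P) := by
      intro hn
      obtain ⟨S⟩ : Nonempty (Sylow p (G ⧸ P)) := inferInstance
      have h1 : (S : Subgroup (G ⧸ P)).Normal := H1.isNilpotent_iff_sylow_normal.mp hn p inferInstance S
      have h2 := hcoreq _ h1 S.isPGroup'
      have h3 := S.card_eq_multiplicity
      rw [h2, Subgroup.card_bot, hcardq] at h3
      have h4 : 1 ≤ (P.index).factorization p := (hp.dvd_iff_one_le_factorization Subgroup.index_ne_zero_of_finite).1 hidx
      have h5 : 1 < p ^ (P.index).factorization p := Nat.one_lt_pow (by omega) hp.one_lt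
      omega
    obtain ⟨hHtop, ⟨E, hEc, hEF, hEf, hEn⟩, -⟩ := cn_frob hCNq hnnq hfq
    -- `E` is nontrivial
    obtain ⟨e, heE, he1⟩ := H21.exists_ne_one hEF.1
    have hEcentr : ∀ u ∈ H, e * u = u * e → u = 1 := by
      intro u hu heu
      have : u ∈ H ⊓ centralizer ({e} : Set (G ⧸ P)) := Subgroup.mem_inf.2 ⟨hu, H21.mem_cent_singleton.2 heu.symm⟩
      rw [hEf e heE he1, Subgroup.mem_bot] at this
      exact this
    -- `A` has odd order
    have hAodd : Odd (Nat.card A) := by
      rw [← Nat.not_even_iff_odd]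
      intro hev
      haveI : Fact (Nat.Prime 2) := ⟨Nat.prime_two⟩
      obtain ⟨t, ht⟩ := exists_prime_orderOf_dvd_card' 2 (even_iff_two_dvd.1 hev)
      have ht' : orderOf (t : G) = 2 := by rw [Subgroup.orderOf_coe, ht]
      have htH : ((t : G) : G ⧸ P) ∈ H := by rw [hHeq]; exact ⟨t, t.2, rfl⟩
      have ht1 : ((t : G) : G ⧸ P) ≠ 1 := by
        intro h
        have := mk_injOn hPA t.2 h
        rw [this, orderOf_one] at ht'
        omega
      apply ht1
      refine hEcentr _ htH ?_
      -- `e t e⁻¹` is another involution of `H`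
      have h1 : e * ((t : G) : G ⧸ P) * e⁻¹ ∈ H := hHn.conj_mem _ htH e
      rw [hHeq] at h1
      obtain ⟨s, hs, hse⟩ := h1
      have hs2 : orderOf s = 2 := by
        rw [← orderOf_mk_of_inf hPA hs]
        have e1 : ((s : G) : G ⧸ P) = e * ((t : G) : G ⧸ P) * e⁻¹ := hse
        rw [e1]
        have e2 := (MulAut.conj e).orderOf_eq ((t : G) : G ⧸ P)
        rw [MulAut.conj_apply] at e2
        rw [e2, orderOf_mk_of_inf hPA t.2, ht']
      have hst : s = t := by
        refine invol_unique (V := P ⊓ centralizer (P : Set G)) (A := A) (cent_abelian P)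
          (cent_ne_bot_of_nil hPp.isNilpotent hP1) (le_normalizer_cent (hPN A)) ?_ hs t.2 hs2 ht'
        intro a ha ha1 v hv
        exact hfpf a ha ha1 v (Subgroup.mem_inf.1 hv).1
      rw [hst] at hse
      have h3 : e * ((t : G) : G ⧸ P) * e⁻¹ = ((t : G) : G ⧸ P) := hse.symm
      exact mul_inv_eq_iff_eq_mul.1 h3
    have hA1 : A ≠ ⊥ := by
      intro h
      rw [h, Subgroup.map_bot] at hAbar
      rw [hAbar] at hHeq
      exact hfq hHeq
    have hAcyc : IsCyclic A := by
      haveI := H20.isZGroup_of_fpf hP1 (hPN A) hfpf hAP hAodd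
      haveI := hAnil
      infer_instance
    -- `P ⊔ A` is the preimage of `H`
    have hPAeq : P ⊔ A = H.comap (QuotientGroup.mk' P) := by
      rw [hHeq, hAbar, Subgroup.comap_map_eq, QuotientGroup.ker_mk', sup_comm]
    have hidxeq : (P ⊔ A).index = H.index := by
      rw [hPAeq, Subgroup.index_comap_of_surjective _ (QuotientGroup.mk'_surjective P)]
    refine ⟨hP1, A, hA1, hAcyc, hAodd, ?_, ?_, ?_, ?_, ?_, ?_⟩
    · exact ((Nat.Prime.coprime_iff_not_dvd hp).2 hpA).symm
    · show (P ⊔ A).Normal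
      rw [hPAeq]; infer_instance
    · show P ⊔ A ≠ ⊤
      intro h
      rw [h, Subgroup.index_top] at hidxeq
      exact hHtop (Subgroup.index_eq_one.1 hidxeq.symm)
    · show ∃ n : ℕ, (P ⊔ A).index = p ^ n
      rw [hidxeq]
      refine ⟨_, Nat.eq_prime_pow_of_unique_prime_dvd Subgroup.index_ne_zero_of_finite ?_⟩
      intro r hr hd
      by_contra hrp
      have hd' : r ∣ Nat.card (G ⧸ P) := hd.trans (Subgroup.index_dvd_card H)
      have h1 := hlift r hr hrp hd'
      rw [← hAbarcard, ← hHeq] at h1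
      exact hr.one_lt.ne' (Nat.eq_one_of_dvd_coprimes hHcop h1 hd)
    · intro a ha ha1
      rw [eq_bot_iff]
      intro u hu
      rw [Subgroup.mem_inf, H21.mem_cent_singleton] at hu
      exact Subgroup.mem_bot.2 (hfpf a ha ha1 u hu.1 hu.2.symm)
    · intro x hx a ha ha1 hcom
      apply hx
      show x ∈ P ⊔ A
      rw [hPAeq]
      show ((x : G) : G ⧸ P) ∈ H
      have haH : ((a : G) : G ⧸ P) ∈ H := by rw [hHeq]; exact ⟨a, ha, rfl⟩
      have ha1' : ((a : G) : G ⧸ P) ≠ 1 := fun h => ha1 (mk_injOn hPA ha h)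
      refine fh_cent hCNq haH ha1' ?_
      rw [H21.mem_cent_singleton]
      exact quot_comm_iff.2 (by rw [commutatorElement_def]; exact hcom)

end Cfsg.Agent.H18
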