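import Cfsg.Agent.H18.OddTr

/-!
# CN-groups: minimal simple groups of odd order, no three-step subgroups
-/

set_option autoImplicit false
set_option linter.all false

namespace Cfsg.Agent.H18

open Cfsg Subgroup
open scoped Pointwise commutatorElement

universe u v

section general
variable {X : Type u} [Group X] [Finite X]

theorem pcore_ne_bot_elt {p : ℕ} [Fact p.Prime] (h : pCore p X ≠ ⊥) : ∃ x ∈ pCore p X, x ≠ 1 ∧
    IsPGroup p (zpowers x) := by
  obtain ⟨x, hx, hx1⟩ := H21.exists_ne_one h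
  exact ⟨x, hx, hx1, H23.isPGroup_zpowers_of_mem (H1.pCore_isPGroup p X) hx⟩

theorem comm_of_normal_coprime {A B : Subgroup X} (hA : A.Normal) (hB : B.Normal) (h : A ⊓ B = ⊥) {a b : X}
    (ha : a ∈ A) (hb : b ∈ B) : a * b = b * a :=
  (Subgroup.commute_of_normal_of_disjoint A B hA hB (disjoint_iff.2 h) a b ha hb).eq

theorem not_dvd_orderOf_of_isPGroup {p q : ℕ} [Fact p.Prime] [Fact q.Prime] (hpq : p ≠ q) {x : X}
    (hx : IsPGroup q (zpowers x)) : ¬ p ∣ orderOf x := by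
  obtain ⟨n, hn⟩ := IsPGroup.iff_card.1 hx
  rw [Nat.card_zpowers] at hn
  rw [hn]
  intro h
  exact hpq ((Nat.prime_dvd_prime_iff_eq Fact.out Fact.out).1 ((Fact.out : p.Prime).dvd_of_dvd_pow h))

theorem nofh_core_unique (hCN : IsCNGroup X) (hfh : fittingHall X = ⊥) {p r : ℕ} [Fact p.Prime]
    [Fact r.Prime] (hp : pCore p X ≠ ⊥) (hr : pCore r X ≠ ⊥) : p = r := by
  by_contra hpr
  obtain ⟨x, hx, hx1, hxp⟩ := pcore_ne_bot_elt hp
  obtain ⟨y, hy, hy1, hyr⟩ := pcore_ne_bot_elt hr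
  have h1 : pCore p X ⊓ pCore r X = ⊥ := by
    exact (IsPGroup.disjoint_of_ne p r hpr _ _ (H1.pCore_isPGroup p X) (H1.pCore_isPGroup r X)).eq_bot
  have h2 := comm_of_normal_coprime (H1.pCore_normal p X) (H1.pCore_normal r X) h1 hx hy
  exact hx1 (nofh_fpf hCN hfh (H1.pCore_normal p X) (H1.pCore_isPGroup p X)
    (not_dvd_orderOf_of_isPGroup hpr hyr) hy1 x hx h2.symm)

/-- a Sylow `p`-subgroup contained in the commutator subgroup: no nontrivial `p`-quotient. -/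
theorem no_pquot {p : ℕ} [Fact p.Prime] {T : Subgroup X} (hTs : L.SylIn p T ⊤) (hT : T ≤ ⁅(⊤ : Subgroup X), ⊤⁆)
    (Y : Subgroup X) [Y.Normal] (hY : ∃ n : ℕ, Y.index = p ^ n) : Y = ⊤ := by
  obtain ⟨n, hn⟩ := hY
  have hq : IsPGroup p (X ⧸ Y) := IsPGroup.of_card (n := n) hn
  by_contra hne
  haveI : Nontrivial (X ⧸ Y) := by
    rw [← not_subsingleton_iff_nontrivial, QuotientGroup.subsingleton_iff]
    exact hne
  haveI := hq.isNilpotent
  have h1 : ⁅(⊤ : Subgroup (X ⧸ Y)), ⊤⁆ < ⊤ := Group.IsSolvable.commutator_lt_top_of_nontrivial (X ⧸ Y)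
  have h2 : T.map (QuotientGroup.mk' Y) = ⊤ := by
    have h3 := (OOT.sylIn_iff_hallOf.1 hTs)
    have h4 := OOT.IsPiHallOf.map (QuotientGroup.mk' Y) h3
    rw [Subgroup.map_top_of_surjective _ (QuotientGroup.mk'_surjective Y)] at h4
    have h5 := OOT.sylIn_iff_hallOf.2 h4
    refine h5.eq_of_le (Q := ⊤) (hq.of_equiv Subgroup.topEquiv.symm) le_rfl le_top
  have h3 := Subgroup.map_mono (f := QuotientGroup.mk' Y) hT
  rw [h2, Subgroup.map_commutator, Subgroup.map_top_of_surjective _ (QuotientGroup.mk'_surjective Y)] at h3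
  exact not_le_of_gt h1 h3

/-- ... hence `p` does not divide the order of a nilpotent quotient. -/
theorem no_nilquot {p : ℕ} [Fact p.Prime] {T : Subgroup X} (hTs : L.SylIn p T ⊤) (hT : T ≤ ⁅(⊤ : Subgroup X), ⊤⁆)
    (Y : Subgroup X) [Y.Normal] (hY : Group.IsNilpotent (X ⧸ Y)) : ¬ p ∣ Y.index := by
  intro hd
  have h1 := H1.nilpotent_index hY p
  have h2 : (pPrimeCore p (X ⧸ Y)).comap (QuotientGroup.mk' Y) = ⊤ := by
    apply no_pquot hTs hT
    rw [Subgroup.index_comap_of_surjective _ (QuotientGroup.mk'_surjective Y)]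
    exact H1.isPGroup_index_pPrimeCore hY p
  have h3 : pPrimeCore p (X ⧸ Y) = ⊤ := by
    rw [eq_top_iff]
    intro x _
    obtain ⟨y, rfl⟩ := QuotientGroup.mk'_surjective Y x
    have : y ∈ (pPrimeCore p (X ⧸ Y)).comap (QuotientGroup.mk' Y) := by rw [h2]; exact Subgroup.mem_top y
    exact this
  rw [h3, Subgroup.index_top] at h1
  have h4 : pCore p (X ⧸ Y) = ⊥ := (Subgroup.card_eq_one).1 h1.1.symm
  rw [h4, Subgroup.index_bot, Subgroup.card_top] at h1
  -- Sylow `p` of nilpotent quotient is trivial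
  obtain ⟨S⟩ : Nonempty (Sylow p (X ⧸ Y)) := inferInstance
  have h5 : (S : Subgroup (X ⧸ Y)).Normal := H1.isNilpotent_iff_sylow_normal.mp hY p inferInstance S
  have h6 : (S : Subgroup (X ⧸ Y)) = ⊥ := by
    rw [← le_bot_iff, ← h4]
    exact H1.le_pCore h5 S.isPGroup'
  have h7 := S.not_dvd_index
  rw [h6, Subgroup.index_bot] at h7
  exact h7 hd

theorem not_nil_of_le_comm {p : ℕ} [Fact p.Prime] {T : Subgroup X} (hTs : L.SylIn p T ⊤)
    (hT : T ≤ ⁅(⊤ : Subgroup X), ⊤⁆) (hT1 : T ≠ ⊥) : ¬ Group.IsNilpotent X := by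
  intro h
  have h1 : Group.IsNilpotent (X ⧸ (⊥ : Subgroup X)) := inferInstance
  have h2 := no_nilquot hTs hT ⊥ h1
  rw [Subgroup.index_bot] at h2
  obtain ⟨x, hx, hx1⟩ := H21.exists_ne_one hT1
  apply h2
  have := dvd_card_of_isPGroup (H23.isPGroup_zpowers_of_mem hTs.isPGroup hx) hx1 (H := ⊤) (Subgroup.mem_top x)
  rwa [Subgroup.card_top] at this

/-- If `T` is a Sylow `p`-subgroup of the CN-group `X` with `1 ≠ T ≤ X'` and `fittingHall X ≠ 1`
then `T ≤ fittingHall X`. -/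
theorem le_fh_of_le_comm (hCN : IsCNGroup X) {p : ℕ} [Fact p.Prime] {T : Subgroup X}
    (hTs : L.SylIn p T ⊤) (hT : T ≤ ⁅(⊤ : Subgroup X), ⊤⁆) (hT1 : T ≠ ⊥) (hfh : fittingHall X ≠ ⊥) :
    T ≤ fittingHall X := by
  have h1 := not_nil_of_le_comm hTs hT hT1
  obtain ⟨-, -, h2⟩ := cn_frob hCN h1 hfh
  have h3 := no_nilquot hTs hT (fittingHall X) h2
  apply H1.le_of_coprime_index
  obtain ⟨n, hn⟩ := IsPGroup.iff_card.1 hTs.isPGroup
  rw [hn]
  exact Nat.Coprime.pow_left _ ((Nat.Prime.coprime_iff_not_dvd Fact.out).2 h3)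

/-- with `O_p(X) ≠ 1`, solvable CN: `fittingHall X ≠ 1`. -/
theorem fh_ne_bot_of_le_comm [Group.IsSolvable X] (hCN : IsCNGroup X) {p : ℕ} [Fact p.Prime] {T : Subgroup X}
    (hTs : L.SylIn p T ⊤) (hT : T ≤ ⁅(⊤ : Subgroup X), ⊤⁆) (hT1 : T ≠ ⊥) (hcore : pCore p X ≠ ⊥) :
    fittingHall X ≠ ⊥ := by
  intro hfh
  have h1 := not_nil_of_le_comm hTs hT hT1
  obtain ⟨r, hr, h2⟩ := three_step_of_nofh hCN h1 hfh
  haveI : Fact r.Prime := ⟨hr⟩
  have hrp : p = r := nofh_core_unique hCN hfh hcore h2.1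
  subst hrp
  obtain ⟨-, A, -, -, -, -, h3, h4, h5, -, -⟩ := h2
  haveI := h3
  exact h4 (no_pquot hTs hT _ h5)

end general

section threestep
variable {X : Type u} [Group X] [Finite X]

theorem ts_hall {p : ℕ} [hp : Fact p.Prime] {A : Subgroup X} (hAp : (Nat.card A).Coprime p)
    (hidx : ∃ n : ℕ, (pCore p X ⊔ A).index = p ^ n) : IsPiHallOf (cpl p) A ⊤ := by
  refine ⟨le_top, ?_, ?_⟩
  · rintro q hq hd rfl
    exact (Nat.Prime.coprime_iff_not_dvd hq).1 hAp.symm hd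
  · intro q hq hqp hd
    rw [Subgroup.relIndex_top_right] at hd
    obtain ⟨n, hn⟩ := hidx
    haveI := H1.pCore_normal p X
    have h1 : A.index = A.relIndex (pCore p X ⊔ A) * (pCore p X ⊔ A).index := by
      rw [Subgroup.relIndex_mul_index le_sup_right]
    have h2 : A.relIndex (pCore p X ⊔ A) ∣ Nat.card (pCore p X) := by
      have hinf : pCore p X ⊓ A = ⊥ := by
        apply H1.inf_eq_bot_of_card_coprime
        obtain ⟨m, hm⟩ := IsPGroup.iff_card.1 (H1.pCore_isPGroup p X)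
        rw [hm]
        exact Nat.Coprime.pow_left _ hAp.symm
      have hc : IsComplIn (pCore p X) A (pCore p X ⊔ A) :=
        H21.complIn_of_sup (by
          show A ≤ normalizer ((pCore p X : Subgroup X) : Set X)
          rw [Subgroup.normalizer_eq_top_iff.2 inferInstance]; exact le_top) hinf rfl
      rw [H21.complIn_relIndex_right hc]
    obtain ⟨m, hm⟩ := IsPGroup.iff_card.1 (H1.pCore_isPGroup p X)
    rw [h1, hn] at hd
    have hqp' : q ≠ p := hqp
    rcases hq.dvd_mul.1 hd with h | h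
    · have h3 := h.trans h2
      rw [hm] at h3
      exact hqp' ((Nat.prime_dvd_prime_iff_eq hq hp.out).1 (hq.dvd_of_dvd_pow h3))
    · exact hqp' ((Nat.prime_dvd_prime_iff_eq hq hp.out).1 (hq.dvd_of_dvd_pow h))

/-- in a three-step group the `p'`-elements act fixed-point-freely on `O_p`. -/
theorem ts_fpf [Group.IsSolvable X] {p : ℕ} [hp : Fact p.Prime] (h : IsThreeStepGroup p X) {e : X}
    (he : ¬ p ∣ orderOf e) (he1 : e ≠ 1) : ∀ u ∈ pCore p X, e * u = u * e → u = 1 := by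
  obtain ⟨-, A, -, -, -, h3, -, -, h5, h6, -⟩ := h
  have hA := ts_hall h3 h5
  obtain ⟨g, -, hg⟩ := OOT.IsPiHallOf.exists_conj_le (M := (⊤ : Subgroup X)) inferInstance hA
    (K := zpowers e) le_top (by
      intro q hq hd hqp
      have : q = p := hqp
      subst this
      rw [Nat.card_zpowers] at hd
      exact he hd)
  have hge : g * e * g⁻¹ ∈ A := hg (L.conj_mem_cj (mem_zpowers e))
  have hge1 : g * e * g⁻¹ ≠ 1 := fun h => he1 (conj_eq_one_iff.1 h)
  intro u hu heu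
  have h7 : g * u * g⁻¹ ∈ pCore p X ⊓ centralizer ({g * e * g⁻¹} : Set X) := by
    refine Subgroup.mem_inf.2 ⟨(H1.pCore_normal p X).conj_mem _ hu g, ?_⟩
    rw [H21.mem_cent_singleton]
    have e1 : g * u * g⁻¹ * (g * e * g⁻¹) = g * (u * e) * g⁻¹ := by group
    have e2 : g * e * g⁻¹ * (g * u * g⁻¹) = g * (e * u) * g⁻¹ := by group
    rw [e1, e2, heu]
  rw [h6 _ hge hge1, Subgroup.mem_bot] at h7
  exact conj_eq_one_iff.1 h7

theorem ts_exists_p' {p : ℕ} [hp : Fact p.Prime] (h : IsThreeStepGroup p X) : ∃ (r : ℕ) (e : X),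
    ∃ _ : Fact r.Prime, r ≠ p ∧ IsPGroup r (zpowers e) ∧ e ≠ 1 := by
  obtain ⟨-, A, h1, -, -, h3, -, -, h5, h6, -⟩ := h
  obtain ⟨a, ha, ha1⟩ := H21.exists_ne_one h1
  obtain ⟨r, k, hr, hk⟩ := exists_prime_power_ne_one ha1
  haveI : Fact r.Prime := ⟨hr⟩
  have hak : a ^ k ≠ 1 := fun h => by rw [h, orderOf_one] at hk; exact hr.ne_one hk.symm
  refine ⟨r, a ^ k, ⟨hr⟩, ?_, isPGroup_zpowers_of_orderOf hk, hak⟩
  rintro rfl
  have : r ∣ Nat.card A := by rw [← hk]; exact Subgroup.orderOf_dvd_natCard _ (pow_mem ha k)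
  exact (Nat.Prime.coprime_iff_not_dvd hr).1 h3.symm this

theorem ts_not_nil [Group.IsSolvable X] {p : ℕ} [hp : Fact p.Prime] (h : IsThreeStepGroup p X) :
    ¬ Group.IsNilpotent X := by
  intro hn
  obtain ⟨r, e, hr, hrp, her, he1⟩ := ts_exists_p' h
  obtain ⟨x, hx, hx1, hxp⟩ := pcore_ne_bot_elt h.1
  have h1 := (H23.commute_of_isNilpotent hn hrp her hxp).eq
  exact hx1 (ts_fpf h (not_dvd_orderOf_of_isPGroup hrp.symm her) he1 x hx h1)

theorem ts_cent [Group.IsSolvable X] {p : ℕ} [hp : Fact p.Prime] (h : IsThreeStepGroup p X) :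
    centralizer (pCore p X : Set X) ≤ pCore p X := by
  haveI := H1.pCore_normal p X
  refine H1.le_pCore inferInstance ?_
  rw [IsPGroup.iff_orderOf]
  intro c
  obtain ⟨a, m', hm', h2⟩ := Nat.exists_eq_pow_mul_and_not_dvd (n := orderOf (c : X)) (orderOf_pos _).ne' p
    (Fact.out : p.Prime).ne_one
  have h1 : orderOf ((c : X) ^ (p ^ a)) = m' := by
    rw [orderOf_pow, h2, Nat.gcd_eq_right (Dvd.intro _ rfl)]
    exact Nat.mul_div_cancel_left _ (pow_pos (Fact.out : p.Prime).pos a)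
  by_contra hcon
  have h3 : (c : X) ^ (p ^ a) ≠ 1 := by
    intro e
    rw [e, orderOf_one] at h1
    rw [← h1, mul_one] at h2
    exact hcon ⟨a, by rw [← Subgroup.orderOf_coe, h2]⟩
  obtain ⟨w, hw, hw1, -⟩ := pcore_ne_bot_elt h.1
  refine hw1 (ts_fpf h (by rw [h1]; exact hm') h3 w hw ?_)
  have h4 : (c : X) * w = w * c := H21.mem_cent_iff.1 c.2 w hw
  exact ((show Commute (c : X) w from h4).pow_left _).eq

/-- the Sylow `p`-subgroup of a three-step group is not normal (not equal to `O_p`) -/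
theorem ts_dvd_index {p : ℕ} [hp : Fact p.Prime] (h : IsThreeStepGroup p X) :
    p ∣ (pCore p X).index := by
  obtain ⟨-, A, -, -, -, -, -, h4, ⟨n, hn⟩, -, -⟩ := h
  have h1 : (pCore p X ⊔ A).index ∣ (pCore p X).index := Subgroup.index_dvd_of_le le_sup_left
  refine dvd_trans ?_ h1
  rw [hn]
  refine dvd_pow_self p ?_
  rintro rfl
  rw [pow_zero] at hn
  exact h4 (Subgroup.index_eq_one.1 hn)

end threestep

end Cfsg.Agent.H18
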