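import Cfsg.Agent.H18.CN7

/-!
# Minimal simple CN-groups of odd order
-/

set_option autoImplicit false
set_option linter.all false

namespace Cfsg.Agent.H18

open Cfsg Subgroup
open scoped Pointwise commutatorElement

universe u v

variable {G : Type u} [Group G] [Finite G]

theorem sylIn_ne_bot_iff {p : ℕ} [hp : Fact p.Prime] {S M : Subgroup G} (hS : L.SylIn p S M) :
    S ≠ ⊥ ↔ p ∣ Nat.card M := by
  constructor
  · intro h
    obtain ⟨x, hx, hx1⟩ := H21.exists_ne_one h
    exact dvd_card_of_isPGroup (H23.isPGroup_zpowers_of_mem hS.isPGroup hx) hx1 (hS.le hx)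
  · rintro h rfl
    have h1 := hS.not_dvd
    rw [Subgroup.relIndex_bot_left] at h1
    exact h1 h

section
variable {M S : Subgroup G} {p : ℕ} [hp : Fact p.Prime]

/-- transfer to the subgroup type -/
theorem sylIn_sub (hS : L.SylIn p S M) : L.SylIn p (S.subgroupOf M) (⊤ : Subgroup M) := by
  rw [OOT.sylIn_iff_hallOf] at hS ⊢
  refine ⟨le_top, ?_, ?_⟩
  · intro q hq hd
    rw [H1.card_subgroupOf hS.1] at hd
    exact hS.2.1 q hq hd
  · intro q hq hqp hd
    rw [Subgroup.relIndex_top_right] at hd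
    exact hS.2.2 q hq hqp hd

theorem sub_le_comm (hSM : S ≤ M) (h : S ≤ ⁅M, M⁆) : S.subgroupOf M ≤ ⁅(⊤ : Subgroup M), ⊤⁆ := by
  intro x hx
  have h1 : (x : G) ∈ ⁅M, M⁆ := h hx
  have h2 : ((⁅(⊤ : Subgroup M), ⊤⁆ : Subgroup M)).map M.subtype = ⁅M, M⁆ := by
    rw [Subgroup.map_commutator, ← MonoidHom.range_eq_map, Subgroup.range_subtype]
  rw [← h2] at h1
  obtain ⟨y, hy, hyx⟩ := h1
  have : y = x := Subtype.ext hyx
  rwa [← this]

theorem sub_ne_bot (hSM : S ≤ M) (h : S ≠ ⊥) : S.subgroupOf M ≠ ⊥ := by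
  intro hb
  apply h
  rw [← Subgroup.map_subgroupOf_eq_of_le hSM, hb, Subgroup.map_bot]

end

section odd
variable (hG : IsMinSimpleOddOrder G) (hCN : IsCNGroup G)
include hG hCN

/-- if `S ∈ Syl_p(G)`, `S ≤ M < G`, `S ≤ M'` and `O_p(M) ≠ 1` then `S ⊲ M`. -/
theorem syl_normal_of {p : ℕ} [hp : Fact p.Prime] {S M : Subgroup G} (hM : M ≠ ⊤)
    (hS : L.SylIn p S M) (hS1 : S ≠ ⊥) (hSM : S ≤ ⁅M, M⁆) (hfh : fittingHall M ≠ ⊥) :
    M ≤ normalizer (S : Set G) ∧ S ≤ fittingHallOf M ∧ ¬ Group.IsNilpotent M := by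
  have hCM := cn_subgroup hCN M
  have h1 := sylIn_sub hS
  have h2 := sub_le_comm hS.le hSM
  have h3 := sub_ne_bot hS.le hS1
  have h4 := le_fh_of_le_comm hCM h1 h2 h3 hfh
  have h5 := not_nil_of_le_comm h1 h2 h3
  have h6 : S ≤ fittingHallOf M := by
    rw [← Subgroup.map_subgroupOf_eq_of_le hS.le]
    exact Subgroup.map_mono h4
  refine ⟨?_, h6, h5⟩
  have h7 := H21.fhOf_nilpotent M
  have h8 : L.SylIn p S (fittingHallOf M) := hS.of_le h6 (H21.fhOf_le M)
  have h9 : piCoreOf {p} (fittingHallOf M) = S := by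
    have h10 := core_sylIn h7 p
    symm
    apply h8.eq_of_le h10.isPGroup h10.le
    intro s hs
    exact mem_core_of_nil h7 (h6 hs) (H23.isPGroup_zpowers_of_mem hS.isPGroup hs)
  rw [← h9]
  exact (H21.le_normalizer_fhOf M).trans (OOT.normalizer_le_normalizer_piCoreOf {p} _)

/-- `N_G(Z(J(S))) = N_G(S)` and `S ≤ N_G(S)'`. -/
theorem zj_normalizer {p : ℕ} [hp : Fact p.Prime] {S : Subgroup G} (hS : L.SylIn p S ⊤) (hS1 : S ≠ ⊥) :
    normalizer ((centerThompsonOf p S : Subgroup G) : Set G) = normalizer (S : Set G) ∧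
      S ≤ ⁅normalizer (S : Set G), normalizer (S : Set G)⁆ := by
  have h1 := odd_simple_focal hG hS
  set N := normalizer ((centerThompsonOf p S : Subgroup G) : Set G) with hN
  have hNS : normalizer (S : Set G) ≤ N := H2.normalizer_le_normalizer_centerThompsonOf S
  have hSN : S ≤ N := Subgroup.le_normalizer.trans hNS
  have hSyl : L.SylIn p S N := hS.of_le hSN le_top
  have hZ1 : centerThompsonOf p S ≠ ⊥ := by
    have h2 := H2.thompsonSubgroupOf_ne_bot (p := p) ((sylIn_ne_bot_iff (hS.of_le le_rfl le_top)).1 hS1)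
    exact cent_ne_bot_of_nil (hS.isPGroup.to_le (H2.thompsonSubgroupOf_le p S)).isNilpotent h2
  have hZS : centerThompsonOf p S ≤ S := H2.centerThompsonOf_le p S
  have hZp : IsPGroup p (centerThompsonOf p S) := hS.isPGroup.to_le hZS
  have hNtop : N ≠ ⊤ := OOT.normalizer_ne_top hG hZ1 (OOT.pgroup_ne_top hG hZp)
  haveI : Group.IsSolvable N := OOT.sol hG hNtop
  have hcore : pCore p N ≠ ⊥ := by
    intro h
    have h3 : (centerThompsonOf p S).subgroupOf N ≤ pCore p N := by
      refine H1.le_pCore ?_ ?_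
      · exact (Subgroup.normal_subgroupOf_iff_le_normalizer (hZS.trans hSN)).2 le_rfl
      · exact hZp.of_injective (Subgroup.subgroupOfEquivOfLe (hZS.trans hSN)).toMonoidHom
          (Subgroup.subgroupOfEquivOfLe (hZS.trans hSN)).injective
    rw [h, le_bot_iff] at h3
    exact sub_ne_bot (hZS.trans hSN) hZ1 h3
  have hfh := fh_ne_bot_of_le_comm (cn_subgroup hCN N) (sylIn_sub hSyl) (sub_le_comm hSN h1)
    (sub_ne_bot hSN hS1) hcore
  have h4 := (syl_normal_of hG hCN hNtop hSyl hS1 h1 hfh).1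
  have h5 : N = normalizer (S : Set G) := le_antisymm h4 hNS
  exact ⟨h5, by rw [← h5]; exact h1⟩

/-- no three step subgroups -/
theorem no_three_step (H : Subgroup G) {p : ℕ} (hp : p.Prime) : ¬ IsThreeStepGroup p H := by
  intro hts
  haveI : Fact p.Prime := ⟨hp⟩
  have hHtop : H ≠ ⊤ := by
    rintro rfl
    obtain ⟨x, hx, hx1, hxp⟩ := pcore_ne_bot_elt hts.1
    haveI : IsSimpleGroup (↥(⊤ : Subgroup G)) := by
      haveI := OOT.isSimple hG
      exact (Subgroup.topEquiv (G := G)).isSimpleGroup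
    rcases (H1.pCore_normal p (↥(⊤ : Subgroup G))).eq_bot_or_eq_top with h1 | h1
    · exact hts.1 h1
    · have h2 : IsPGroup p (⊤ : Subgroup (↥(⊤ : Subgroup G))) := by
        rw [← h1]; exact H1.pCore_isPGroup p _
      have h3 : IsPGroup p G := (h2.of_equiv Subgroup.topEquiv).of_equiv Subgroup.topEquiv
      haveI := h3.isNilpotent
      exact OOT.not_solvable hG inferInstance
  obtain ⟨M, hM, hHM⟩ := OOT.exists_coatom_ge hHtop
  haveI : Group.IsSolvable H := OOT.sol hG hHtop
  haveI : Group.IsSolvable M := OOT.coatom_sol hG hM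
  have hCM := cn_subgroup hCN M
  have hHnn := ts_not_nil hts
  have hMnn : ¬ Group.IsNilpotent M := fun h => hHnn (nil_mono hHM h)
  -- `O_p(H)` in `G`
  set P₀ : Subgroup G := (pCore p H).map H.subtype with hP₀
  have hP₀p : IsPGroup p P₀ := (H1.pCore_isPGroup p H).map _
  have hP₀H : P₀ ≤ H := Subgroup.map_subtype_le _
  have hP₀1 : P₀ ≠ ⊥ := fun e => hts.1 ((Subgroup.map_eq_bot_iff_of_injective _ H.subtype_injective).1 e)
  have hHP₀ : H ≤ normalizer (P₀ : Set G) := OOT.le_normalizer_map_subtype (H1.pCore_normal p H)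
  -- elements of `H` of order prime to `p` act f.p.f. on `P₀`
  have hfpf : ∀ e ∈ H, ¬ p ∣ orderOf e → e ≠ 1 → ∀ u ∈ P₀, e * u = u * e → u = 1 := by
    rintro e he hpe he1 _ ⟨u, hu, rfl⟩ heu
    have h1 := ts_fpf hts (e := ⟨e, he⟩) (by rwa [Subgroup.orderOf_mk]) (fun h => he1 (congrArg Subtype.val h))
      u hu (Subtype.ext heu)
    rw [h1]; rfl
  have hcent : H ⊓ centralizer (P₀ : Set G) ≤ P₀ := by
    intro x hx
    rw [Subgroup.mem_inf, H21.mem_cent_iff] at hx
    have h1 : (⟨x, hx.1⟩ : H) ∈ pCore p H := by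
      apply ts_cent hts
      rw [H21.mem_cent_iff]
      intro y hy
      exact Subtype.ext (hx.2 y ⟨y, hy, rfl⟩)
    exact ⟨_, h1, rfl⟩
  obtain ⟨Q, hQ⟩ := L.exists_sylIn (p := p) H
  have hP₀Q : P₀ ≤ Q := by
    obtain ⟨h, hh, hle⟩ := hQ.exists_conj_le hP₀p hP₀H
    rwa [L.mem_nz_iff.1 (hHP₀ hh)] at hle
  have hQP₀ : ¬ Q ≤ P₀ := by
    intro h
    have h1 : Q = P₀ := le_antisymm h hP₀Q
    have h2 := ts_dvd_index hts
    have h3 : P₀.relIndex H = (pCore p H).index := by
      rw [hP₀, Subgroup.relIndex, Subgroup.subgroupOf, Subgroup.comap_map_eq_self_of_injective H.subtype_injective]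
    rw [← h3, ← h1] at h2
    exact hQ.not_dvd h2
  by_cases hfh : fittingHall M = ⊥
  · -- three-step
    obtain ⟨r, hr, h2⟩ := three_step_of_nofh hCM hMnn hfh
    haveI : Fact r.Prime := ⟨hr⟩
    by_cases hrp : r = p
    · subst hrp
      -- ZJ argument
      obtain ⟨S, hS⟩ := L.exists_sylIn (p := r) M
      have hoddM : Odd (Nat.card M) := OOT.odd_sub hG M
      have h3 := S1458.result (G := M) hoddM r hS.toSylow
      have h4 : pPrimeCore r M = ⊥ := by
        rw [eq_bot_iff]
        intro x hx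
        by_contra hx1
        rw [Subgroup.mem_bot] at hx1
        obtain ⟨y, hy, hy1, hyr⟩ := pcore_ne_bot_elt h2.1
        have h5 : x * y = y * x :=
          ((H21.mem_cent_iff.1 (H1.pCore_commute_pPrimeCore (G := M) r hy)) x hx).symm
        refine hy1 (nofh_fpf hCM hfh (H1.pCore_normal r M) (H1.pCore_isPGroup r M) ?_ hx1 y hy h5)
        intro hd
        have h6 := H1.pPrimeCore_coprime r M
        have h7 : r ∣ Nat.card (pPrimeCore r M) := hd.trans (Subgroup.orderOf_dvd_natCard _ hx)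
        exact (Nat.Prime.coprime_iff_not_dvd hr).1 h6.symm h7
      rw [h4, sup_bot_eq] at h3
      have h5 : (centerThompsonOf r (hS.toSylow : Subgroup M)).map M.subtype = centerThompsonOf r S := by
        have := H2.centerThompsonOf_map_of_injOn (p := r) (U := (hS.toSylow : Subgroup M)) (f := M.subtype)
          (M.subtype_injective.comp (Subgroup.subtype_injective _))
        rw [hS.map_toSylow] at this
        exact this.symm
      have h6 : M ≤ normalizer ((centerThompsonOf r S : Subgroup G) : Set G) := by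
        rw [← h5]; exact OOT.le_normalizer_map_subtype h3
      have hS1 : S ≠ ⊥ := by
        rw [sylIn_ne_bot_iff hS]
        obtain ⟨y, hy, hy1, hyr⟩ := pcore_ne_bot_elt h2.1
        have := dvd_card_of_isPGroup hyr hy1 (H := ⊤) (Subgroup.mem_top y)
        rwa [Subgroup.card_top] at this
      have hZ1 : centerThompsonOf r S ≠ ⊥ := by
        have h2 := H2.thompsonSubgroupOf_ne_bot (p := r) ((sylIn_ne_bot_iff (hS.of_le le_rfl hS.le)).1 hS1)
        exact cent_ne_bot_of_nil (hS.isPGroup.to_le (H2.thompsonSubgroupOf_le r S)).isNilpotent h2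
      have hZS : centerThompsonOf r S ≤ S := H2.centerThompsonOf_le r S
      have h7 := OOT.coatom_normalizer_eq hG hM hZ1 (hZS.trans hS.le) h6
      have h8 : normalizer (S : Set G) ≤ M := by
        rw [← h7]; exact H2.normalizer_le_normalizer_centerThompsonOf S
      have hSG : L.SylIn r S ⊤ := OOT.sylow_mem_sylIn hS h8
      obtain ⟨h9, h10⟩ := zj_normalizer hG hCN hSG hS1
      rw [h7] at h9
      rw [← h9] at h10
      have h11 := fh_ne_bot_of_le_comm hCM (sylIn_sub hS) (sub_le_comm hS.le h10) (sub_ne_bot hS.le hS1) h2.1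
      exact h11 hfh
    · -- Sylow `p`-subgroups of `M` are cyclic
      obtain ⟨-, A, hA1, hAc, -, hAr, -, -, hAi, -, -⟩ := h2
      have hAh := ts_hall hAr hAi
      have hQM : Q ≤ M := hQ.le.trans hHM
      obtain ⟨g, -, hg⟩ := OOT.IsPiHallOf.exists_conj_le (M := (⊤ : Subgroup M)) inferInstance hAh
        (K := Q.subgroupOf M) le_top (by
          intro q hq hd hqr
          rw [H1.card_subgroupOf hQM] at hd
          have h1 : q = r := hqr
          obtain ⟨n, hn⟩ := IsPGroup.iff_card.1 hQ.isPGroup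
          rw [hn] at hd
          have := (Nat.prime_dvd_prime_iff_eq hq hp).1 (hq.dvd_of_dvd_pow hd)
          exact hrp (h1.symm.trans this))
      have hQab : ∀ a ∈ Q, ∀ b ∈ Q, a * b = b * a := by
        intro a ha b hb
        have h1 : g * ⟨a, hQM ha⟩ * g⁻¹ ∈ A := hg (L.conj_mem_cj (Subgroup.mem_subgroupOf.2 ha))
        have h2 : g * ⟨b, hQM hb⟩ * g⁻¹ ∈ A := hg (L.conj_mem_cj (Subgroup.mem_subgroupOf.2 hb))
        have h3 := H21.comm_of_cyclic hAc _ h1 _ h2
        have h4 : (⟨a, hQM ha⟩ : M) * ⟨b, hQM hb⟩ = ⟨b, hQM hb⟩ * ⟨a, hQM ha⟩ := by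
          have e1 : g * ⟨a, hQM ha⟩ * g⁻¹ * (g * ⟨b, hQM hb⟩ * g⁻¹) = g * (⟨a, hQM ha⟩ * ⟨b, hQM hb⟩) * g⁻¹ := by group
          have e2 : g * ⟨b, hQM hb⟩ * g⁻¹ * (g * ⟨a, hQM ha⟩ * g⁻¹) = g * (⟨b, hQM hb⟩ * ⟨a, hQM ha⟩) * g⁻¹ := by group
          rw [e1, e2] at h3
          exact mul_left_cancel (mul_right_cancel h3)
        exact congrArg Subtype.val h4
      apply hQP₀
      refine le_trans (le_inf hQ.le ?_) hcent
      intro a ha
      rw [H21.mem_cent_iff]
      exact fun b hb => hQab a ha b (hP₀Q hb)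
  · -- Frobenius
    obtain ⟨-, ⟨E, hE1, -, -, hEn⟩, hqn⟩ := cn_frob hCM hMnn hfh
    set K : Subgroup G := fittingHallOf M with hK
    have hKn : Group.IsNilpotent K := H21.fhOf_nilpotent M
    have hKM : K ≤ M := H21.fhOf_le M
    have hMK : M ≤ normalizer (K : Set G) := H21.le_normalizer_fhOf M
    by_cases hpK : p ∣ Nat.card K
    · -- `K` contains all `p`-elements of `M`
      have hQK : Q ≤ K := by
        have hQM : Q ≤ M := hQ.le.trans hHM
        have h1 : Q.subgroupOf M ≤ fittingHall M := by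
          apply H1.le_of_coprime_index
          rw [H1.card_subgroupOf hQM]
          obtain ⟨n, hn⟩ := IsPGroup.iff_card.1 hQ.isPGroup
          rw [hn]
          refine Nat.Coprime.pow_left _ ((Nat.Prime.coprime_iff_not_dvd hp).2 fun h => ?_)
          rw [hK, H21.card_fhOf] at hpK
          exact hp.one_lt.ne' (Nat.eq_one_of_dvd_coprimes (H21.fittingHall_coprime M) hpK h)
        rw [← Subgroup.map_subgroupOf_eq_of_le hQM]
        exact Subgroup.map_mono h1
      -- `Q` is the Sylow subgroup of the nilpotent normal subgroup `K ⊓ H` of `H`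
      have h2 : Group.IsNilpotent (K ⊓ H : Subgroup G) := nil_mono inf_le_left hKn
      have h3 : L.SylIn p Q (K ⊓ H) := hQ.of_le (le_inf hQK hQ.le) inf_le_right
      have h4 : piCoreOf {p} (K ⊓ H) = Q := by
        have h10 := core_sylIn h2 p
        symm
        apply h3.eq_of_le h10.isPGroup h10.le
        intro s hs
        exact mem_core_of_nil h2 (h3.le hs) (H23.isPGroup_zpowers_of_mem hQ.isPGroup hs)
      have h5 : H ≤ normalizer ((K ⊓ H : Subgroup G) : Set G) := by
        intro h hh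
        refine L.mem_nz_iff.2 ?_
        rw [L.cj_inf, L.mem_nz_iff.1 (hMK (hHM hh)), L.cj_eq_self_of_mem hh]
      have h6 : H ≤ normalizer (Q : Set G) := by
        rw [← h4]; exact h5.trans (OOT.normalizer_le_normalizer_piCoreOf {p} _)
      apply hQP₀
      have h7 : Q.subgroupOf H ≤ pCore p H := by
        refine H1.le_pCore ((Subgroup.normal_subgroupOf_iff_le_normalizer hQ.le).2 h6) ?_
        exact hQ.isPGroup.of_injective (Subgroup.subgroupOfEquivOfLe hQ.le).toMonoidHom
          (Subgroup.subgroupOfEquivOfLe hQ.le).injective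
      rw [hP₀, ← Subgroup.map_subgroupOf_eq_of_le hQ.le]
      exact Subgroup.map_mono h7
    · -- `K ⊓ H = 1`, so `H` is nilpotent
      have h1 : K ⊓ H = ⊥ := by
        rw [eq_bot_iff]
        intro x hx
        rw [Subgroup.mem_inf] at hx
        by_contra hx1
        rw [Subgroup.mem_bot] at hx1
        obtain ⟨u, hu, hu1⟩ := H21.exists_ne_one hP₀1
        have hpx : ¬ p ∣ orderOf x := fun h => hpK (h.trans (Subgroup.orderOf_dvd_natCard _ hx.1))
        refine hu1 (hfpf x hx.2 hpx hx1 u hu ?_)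
        -- commutator lies in both
        have h2 : x * u * x⁻¹ * u⁻¹ ∈ P₀ :=
          mul_mem ((Subgroup.mem_normalizer_iff.1 (hHP₀ hx.2) u).1 hu) (inv_mem hu)
        have h3 : x * u * x⁻¹ * u⁻¹ ∈ K := by
          have : x * u * x⁻¹ * u⁻¹ = x * (u * x⁻¹ * u⁻¹) := by group
          rw [this]
          exact mul_mem hx.1 ((Subgroup.mem_normalizer_iff.1 (hMK (hHM (hP₀H hu))) x⁻¹).1 (inv_mem hx.1))
        have h4 : x * u * x⁻¹ * u⁻¹ = 1 := by
          by_contra hne
          exact hpK (dvd_card_of_isPGroup (H23.isPGroup_zpowers_of_mem hP₀p h2) hne h3)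
        have h5 := mul_inv_eq_one.1 h4
        exact mul_inv_eq_iff_eq_mul.1 h5
      apply hHnn
      -- `H` embeds in `M / K`
      let f : H →* (M ⧸ fittingHall M) := (QuotientGroup.mk' (fittingHall M)).comp (Subgroup.inclusion hHM)
      have hf : Function.Injective f := by
        rw [injective_iff_map_eq_one]
        intro x hx
        have h2 : Subgroup.inclusion hHM x ∈ fittingHall M := (QuotientGroup.eq_one_iff _).1 hx
        have h3 : (x : G) ∈ K ⊓ H := Subgroup.mem_inf.2 ⟨⟨_, h2, rfl⟩, x.2⟩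
        rw [h1, Subgroup.mem_bot] at h3
        exact Subtype.ext h3
      haveI := hqn
      exact H1.isNilpotent_of_equiv (MonoidHom.ofInjective hf).symm inferInstance

end odd

end Cfsg.Agent.H18
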