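import Cfsg.Agent.H18.CN8

/-!
# Minimal simple CN-groups of odd order: maximal nilpotent subgroups
-/

set_option autoImplicit false
set_option linter.all false

namespace Cfsg.Agent.H18

open Cfsg Subgroup
open scoped Pointwise commutatorElement

universe u v

variable {G : Type u} [Group G] [Finite G]

theorem exists_maxNil {X : Subgroup G} (hX : Group.IsNilpotent X) : ∃ H, MaxNil H ∧ X ≤ H := by
  obtain ⟨H, hH, hmax⟩ := Set.Finite.exists_le_maximal (s := {Y : Subgroup G | Group.IsNilpotent Y})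
    (Set.toFinite _) hX
  refine ⟨H, ⟨hmax.1, fun L hL hle => ?_⟩, hH⟩
  exact le_antisymm (hmax.2 hL hle) hle

theorem maxNil_ne_bot [Nontrivial G] {H : Subgroup G} (hH : MaxNil H) : H ≠ ⊥ := by
  rintro rfl
  obtain ⟨x, hx⟩ := exists_ne (1 : G)
  have h1 : Group.IsNilpotent (zpowers x) := by
    apply nil_iff_comm.2
    intro p q _ _ _ a ha b hb _ _
    exact H21.comm_of_cyclic inferInstance a ha b hb
  have h2 := hH.2 _ h1 bot_le
  exact hx (Subgroup.mem_bot.1 (h2 ▸ mem_zpowers x))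

theorem fhOf_ne_bot {M : Subgroup G} (h : fittingHall M ≠ ⊥) : fittingHallOf M ≠ ⊥ := fun e =>
  h ((Subgroup.map_eq_bot_iff_of_injective _ M.subtype_injective).1 e)

/-- centralizers in `M` of nontrivial elements of `fittingHallOf M`. -/
theorem fhOf_cent (hCN : IsCNGroup G) {M : Subgroup G} {x : G} (hx : x ∈ fittingHallOf M) (hx1 : x ≠ 1) :
    M ⊓ centralizer ({x} : Set G) ≤ fittingHallOf M := by
  obtain ⟨x', hx', rfl⟩ := hx
  intro y hy
  rw [Subgroup.mem_inf, H21.mem_cent_singleton] at hy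
  have h1 : (⟨y, hy.1⟩ : M) ∈ fittingHall M := by
    refine fh_cent (cn_subgroup hCN M) hx' (fun h => hx1 (by rw [h]; rfl)) ?_
    rw [H21.mem_cent_singleton]
    exact Subtype.ext hy.2
  exact ⟨_, h1, rfl⟩

/-- a nilpotent subgroup containing the Sylow `p`-subgroup `S ≠ 1` of `G`, `S ≤ fittingHallOf M`,
`N_G(S) ≤ M`, lies in `fittingHallOf M`. -/
theorem nil_le_fhOf (hCN : IsCNGroup G) {p : ℕ} [hp : Fact p.Prime] {M S H : Subgroup G}
    (hS : L.SylIn p S ⊤) (hS1 : S ≠ ⊥) (hNM : normalizer (S : Set G) ≤ M) (hSM : S ≤ fittingHallOf M)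
    (hH : Group.IsNilpotent H) (hSH : S ≤ H) : H ≤ fittingHallOf M := by
  apply le_of_prime_power
  intro r hr h hh hhr
  by_cases hrp : r = p
  · subst hrp
    have h1 := mem_core_of_nil hH hh hhr
    have h2 := core_sylIn hH r
    have h3 : S ≤ piCoreOf {r} H := fun s hs =>
      mem_core_of_nil hH (hSH hs) (H23.isPGroup_zpowers_of_mem hS.isPGroup hs)
    have h4 : S = piCoreOf {r} H := hS.eq_of_le h2.isPGroup le_top h3
    rw [← h4] at h1
    exact hSM h1
  · have h1 : ∀ s ∈ S, h * s = s * h := fun s hs => nil_iff_comm.1 hH r p hr hp hrp h hh s (hSH hs) hhr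
      (H23.isPGroup_zpowers_of_mem hS.isPGroup hs)
    obtain ⟨x, hx, hx1⟩ := H21.exists_ne_one hS1
    refine fhOf_cent hCN (hSM hx) hx1 (Subgroup.mem_inf.2 ⟨?_, H21.mem_cent_singleton.2 (h1 x hx)⟩)
    apply hNM
    apply H21.cent_le_nz
    rw [H21.mem_cent_iff]
    exact h1

section odd
variable (hG : IsMinSimpleOddOrder G) (hCN : IsCNGroup G)
include hG hCN

/-- `fittingHall M ≠ 1` for proper nonnilpotent subgroups. -/
theorem fh_ne_bot_of_not_nil {M : Subgroup G} (hM : M ≠ ⊤) (hnn : ¬ Group.IsNilpotent M) :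
    fittingHall M ≠ ⊥ := by
  intro h
  haveI : Group.IsSolvable M := OOT.sol hG hM
  obtain ⟨r, hr, h2⟩ := three_step_of_nofh (cn_subgroup hCN M) hnn h
  exact no_three_step hG hCN M hr h2

/-- the structure of `N_G(S)` for `S` a Sylow subgroup. -/
theorem syl_struct {p : ℕ} [hp : Fact p.Prime] {S : Subgroup G} (hS : L.SylIn p S ⊤) (hS1 : S ≠ ⊥)
    {M : Subgroup G} (hM : M ≠ ⊤) (hNM : normalizer (S : Set G) ≤ M) :
    M = normalizer (S : Set G) ∧ S ≤ fittingHallOf M ∧ ¬ Group.IsNilpotent M := by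
  obtain ⟨-, h1⟩ := zj_normalizer hG hCN hS hS1
  have hSM : S ≤ M := Subgroup.le_normalizer.trans hNM
  have h2 : S ≤ ⁅M, M⁆ := h1.trans (Subgroup.commutator_mono hNM hNM)
  have h3 := hS.of_le hSM le_top
  have h4 := not_nil_of_le_comm (sylIn_sub h3) (sub_le_comm hSM h2) (sub_ne_bot hSM hS1)
  have h5 := fh_ne_bot_of_not_nil hG hCN hM h4
  obtain ⟨h6, h7, h8⟩ := syl_normal_of hG hCN hM h3 hS1 h2 h5
  exact ⟨le_antisymm h6 hNM, h7, h8⟩

theorem syl_normalizer_coatom {p : ℕ} [hp : Fact p.Prime] {S : Subgroup G} (hS : L.SylIn p S ⊤)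
    (hS1 : S ≠ ⊥) : IsCoatom (normalizer (S : Set G)) := by
  have h1 : normalizer (S : Set G) ≠ ⊤ := OOT.normalizer_ne_top hG hS1 (OOT.pgroup_ne_top hG hS.isPGroup)
  obtain ⟨M, hM, hle⟩ := OOT.exists_coatom_ge h1
  obtain ⟨h2, -, -⟩ := syl_struct hG hCN hS hS1 hM.1 hle
  rw [← h2]; exact hM

/-- every maximal subgroup: its `fittingHallOf` is maximal nilpotent in `G`. -/
theorem coatom_struct {M : Subgroup G} (hM : IsCoatom M) : MaxNil (fittingHallOf M) ∧
    fittingHallOf M ≠ ⊥ ∧ ¬ Group.IsNilpotent M ∧ fittingHall M ≠ ⊥ ∧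
      normalizer ((fittingHallOf M : Subgroup G) : Set G) = M := by
  -- `M` is not nilpotent
  have hMnn : ¬ Group.IsNilpotent M := by
    intro hn
    obtain ⟨x, hx, hx1⟩ := H21.exists_ne_one (OOT.coatom_ne_bot hG hM)
    obtain ⟨p, k, hp, hk⟩ := exists_prime_power_ne_one hx1
    haveI : Fact p.Prime := ⟨hp⟩
    have hpM : p ∣ Nat.card M := by rw [← hk]; exact Subgroup.orderOf_dvd_natCard _ (pow_mem hx k)
    have hT := core_sylIn hn p
    have hT1 : piCoreOf {p} M ≠ ⊥ := (sylIn_ne_bot_iff hT).2 hpM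
    have h1 := OOT.coatom_normalizer_eq hG hM hT1 (OOT.piCoreOf_le _ _) (OOT.le_normalizer_piCoreOf {p} M)
    have h2 := OOT.sylow_mem_sylIn hT h1.le
    exact (syl_struct hG hCN h2 hT1 hM.1 h1.le).2.2 hn
  have hfh := fh_ne_bot_of_not_nil hG hCN hM.1 hMnn
  have hK1 := fhOf_ne_bot hfh
  have hKn := H21.fhOf_nilpotent M
  obtain ⟨x, hx, hx1⟩ := H21.exists_ne_one hK1
  obtain ⟨p, k, hp, hk⟩ := exists_prime_power_ne_one hx1
  haveI : Fact p.Prime := ⟨hp⟩
  have hpK : p ∣ Nat.card (fittingHallOf M) := by rw [← hk]; exact Subgroup.orderOf_dvd_natCard _ (pow_mem hx k)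
  set S := piCoreOf {p} (fittingHallOf M) with hS
  have hSK := core_sylIn hKn p
  have hS1 : S ≠ ⊥ := (sylIn_ne_bot_iff hSK).2 hpK
  have hSM : M ≤ normalizer (S : Set G) :=
    (H21.le_normalizer_fhOf M).trans (OOT.normalizer_le_normalizer_piCoreOf {p} _)
  have hSMle : S ≤ M := hSK.le.trans (H21.fhOf_le M)
  have hSylM : L.SylIn p S M := by
    refine ⟨hSMle, hSK.isPGroup, ?_⟩
    rw [← Subgroup.relIndex_mul_relIndex S (fittingHallOf M) M hSK.le (H21.fhOf_le M)]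
    intro hd
    rcases hp.dvd_mul.1 hd with h | h
    · exact hSK.not_dvd h
    · exact (H21.fhOf_hall M).2.2 p hp hpK h
  have h1 := OOT.coatom_normalizer_eq hG hM hS1 hSMle hSM
  have hSG := OOT.sylow_mem_sylIn hSylM h1.le
  refine ⟨⟨hKn, ?_⟩, hK1, hMnn, hfh, ?_⟩
  · intro H hH hle
    exact le_antisymm (nil_le_fhOf hCN hSG hS1 h1.le hSK.le hH (hSK.le.trans hle)) hle
  · exact OOT.coatom_normalizer_eq hG hM hK1 (H21.fhOf_le M) (H21.le_normalizer_fhOf M)

/-- maximal nilpotent subgroups are the `fittingHallOf` of their normalizers, which are maximal. -/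
theorem maxNil_struct {H : Subgroup G} (hH : MaxNil H) :
    IsCoatom (normalizer (H : Set G)) ∧ fittingHallOf (normalizer (H : Set G)) = H := by
  haveI : Nontrivial G := by haveI := OOT.isSimple hG; infer_instance
  have hH1 := maxNil_ne_bot hH
  obtain ⟨x, hx, hx1⟩ := H21.exists_ne_one hH1
  obtain ⟨p, k, hp, hk⟩ := exists_prime_power_ne_one hx1
  haveI : Fact p.Prime := ⟨hp⟩
  have hpH : p ∣ Nat.card H := by rw [← hk]; exact Subgroup.orderOf_dvd_natCard _ (pow_mem hx k)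
  have hS := maxNil_sylow hCN hH hpH
  have hSH := core_sylIn hH.1 p
  have hS1 : piCoreOf {p} H ≠ ⊥ := (sylIn_ne_bot_iff hSH).2 hpH
  have hM := syl_normalizer_coatom hG hCN hS hS1
  obtain ⟨-, h1, h2⟩ := syl_struct hG hCN hS hS1 hM.1 le_rfl
  have h3 := nil_le_fhOf hCN hS hS1 le_rfl h1 hH.1 hSH.le
  have h4 := hH.2 _ (H21.fhOf_nilpotent _) h3
  obtain ⟨-, -, -, -, h5⟩ := coatom_struct hG hCN hM
  rw [h4] at h5
  rw [h5]
  exact ⟨hM, h4⟩

/-- the Frobenius complement -/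
theorem coatom_compl {M : Subgroup G} (hM : IsCoatom M) : ∃ E : Subgroup G,
    IsComplIn (fittingHallOf M) E M ∧ E ≠ ⊥ ∧
      ∀ e ∈ E, e ≠ 1 → fittingHallOf M ⊓ centralizer ({e} : Set G) = ⊥ := by
  obtain ⟨-, -, h1, h2, -⟩ := coatom_struct hG hCN hM
  obtain ⟨-, ⟨E, h3, h4, h5, -⟩, -⟩ := cn_frob (cn_subgroup hCN M) h1 h2
  refine ⟨E.map M.subtype, ?_, ?_, ?_⟩
  · refine ⟨H21.fhOf_le M, Subgroup.map_subtype_le _, ?_, ?_⟩
    · rw [fittingHallOf, ← Subgroup.map_inf _ _ _ M.subtype_injective, h3.disjoint.eq_bot, Subgroup.map_bot]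
    · intro m hm
      obtain ⟨⟨a, b⟩, hab⟩ := h3.2 ⟨m, hm⟩
      refine ⟨a, ⟨a, a.2, rfl⟩, b, ⟨b, b.2, rfl⟩, ?_⟩
      exact (congrArg Subtype.val hab).symm
  · intro h
    exact h4.1 ((Subgroup.map_eq_bot_iff_of_injective _ M.subtype_injective).1 h)
  · rintro _ ⟨e, he, rfl⟩ he1
    rw [eq_bot_iff]
    intro u hu
    rw [Subgroup.mem_inf, H21.mem_cent_singleton] at hu
    obtain ⟨⟨u, hu', rfl⟩, hue⟩ := hu
    have h6 : u ∈ fittingHall M ⊓ centralizer ({e} : Set M) :=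
      Subgroup.mem_inf.2 ⟨hu', H21.mem_cent_singleton.2 (Subtype.ext hue)⟩
    rw [h5 e he (fun h => he1 (by rw [h]; rfl)), Subgroup.mem_bot] at h6
    rw [h6]; exact Subgroup.one_mem _

/-- nonnilpotent or not, a proper subgroup `N` with a nontrivial normal `p`-subgroup has a normal
Sylow `p`-subgroup. -/
theorem local_syl_normal {p : ℕ} [hp : Fact p.Prime] {D N T : Subgroup G} (hN : N ≠ ⊤) (hD : IsPGroup p D)
    (hD1 : D ≠ ⊥) (hDN : D ≤ N) (hND : N ≤ normalizer (D : Set G)) (hT : L.SylIn p T N) :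
    N ≤ normalizer (T : Set G) := by
  by_cases hn : Group.IsNilpotent N
  · have h1 : piCoreOf {p} N = T := by
      have h10 := core_sylIn hn p
      symm
      apply hT.eq_of_le h10.isPGroup h10.le
      intro s hs
      exact mem_core_of_nil hn (hT.le hs) (H23.isPGroup_zpowers_of_mem hT.isPGroup hs)
    rw [← h1]; exact OOT.le_normalizer_piCoreOf {p} N
  · have hfh := fh_ne_bot_of_not_nil hG hCN hN hn
    have hK1 := fhOf_ne_bot hfh
    set K := fittingHallOf N with hK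
    have hKn := H21.fhOf_nilpotent N
    obtain ⟨u, hu, hu1⟩ := H21.exists_ne_one hK1
    obtain ⟨d, hd, hd1⟩ := H21.exists_ne_one hD1
    have hpK : p ∣ Nat.card K := by
      by_contra hpK
      -- `D` and `K` commute
      have h2 : d * u * d⁻¹ * u⁻¹ = 1 := by
        have a1 : d * u * d⁻¹ * u⁻¹ ∈ K :=
          mul_mem ((Subgroup.mem_normalizer_iff.1 (H21.le_normalizer_fhOf N (hDN hd)) u).1 hu) (inv_mem hu)
        have a2 : d * u * d⁻¹ * u⁻¹ ∈ D := by
          have : d * u * d⁻¹ * u⁻¹ = d * (u * d⁻¹ * u⁻¹) := by group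
          rw [this]
          exact mul_mem hd ((Subgroup.mem_normalizer_iff.1 (hND (H21.fhOf_le N hu)) d⁻¹).1 (inv_mem hd))
        by_contra hne
        exact hpK (dvd_card_of_isPGroup (H23.isPGroup_zpowers_of_mem hD a2) hne a1)
      have h3 : d * u = u * d := mul_inv_eq_iff_eq_mul.1 (mul_inv_eq_one.1 h2)
      have h4 : d ∈ K := fhOf_cent hCN hu hu1 (Subgroup.mem_inf.2 ⟨hDN hd, H21.mem_cent_singleton.2 h3⟩)
      exact hpK (dvd_card_of_isPGroup (H23.isPGroup_zpowers_of_mem hD hd) hd1 h4)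
    have hTK : T ≤ K := by
      have h1 : T.subgroupOf N ≤ fittingHall N := by
        apply H1.le_of_coprime_index
        rw [H1.card_subgroupOf hT.le]
        obtain ⟨n, hn⟩ := IsPGroup.iff_card.1 hT.isPGroup
        rw [hn]
        refine Nat.Coprime.pow_left _ ((Nat.Prime.coprime_iff_not_dvd hp.out).2 fun h => ?_)
        rw [hK, H21.card_fhOf] at hpK
        exact hp.out.one_lt.ne' (Nat.eq_one_of_dvd_coprimes (H21.fittingHall_coprime N) hpK h)
      rw [← Subgroup.map_subgroupOf_eq_of_le hT.le]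
      exact Subgroup.map_mono h1
    have h1 : piCoreOf {p} K = T := by
      have h10 := core_sylIn hKn p
      symm
      apply (hT.of_le hTK (H21.fhOf_le N)).eq_of_le h10.isPGroup h10.le
      intro s hs
      exact mem_core_of_nil hKn (hTK hs) (H23.isPGroup_zpowers_of_mem hT.isPGroup hs)
    rw [← h1]
    exact (H21.le_normalizer_fhOf N).trans (OOT.normalizer_le_normalizer_piCoreOf {p} _)

/-- Sylow subgroups are TI -/
theorem syl_ti {p : ℕ} [hp : Fact p.Prime] {S : Subgroup G} (hS : L.SylIn p S ⊤) (hS1 : S ≠ ⊥) :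
    ∀ g : G, L.cj g S ≠ S → S ⊓ L.cj g S = ⊥ := by
  classical
  by_contra hcon
  push Not at hcon
  -- choose `g` with maximal intersection
  obtain ⟨g, hg, hmax⟩ : ∃ g : G, (L.cj g S ≠ S ∧ S ⊓ L.cj g S ≠ ⊥) ∧
      ∀ h : G, L.cj h S ≠ S → Nat.card (S ⊓ L.cj h S : Subgroup G) ≤ Nat.card (S ⊓ L.cj g S : Subgroup G) := by
    obtain ⟨g₀, hg₀, hg₀'⟩ := hcon
    obtain ⟨g, hg, hmax⟩ := Set.exists_max_image {h : G | L.cj h S ≠ S}
      (fun h => Nat.card (S ⊓ L.cj h S : Subgroup G)) (Set.toFinite _) ⟨g₀, hg₀⟩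
    refine ⟨g, ⟨hg, ?_⟩, hmax⟩
    intro h
    have h1 := hmax g₀ hg₀
    rw [h, Subgroup.card_bot] at h1
    exact hg₀' ((Subgroup.card_le_one_iff_eq_bot _).1 h1)
  set D := S ⊓ L.cj g S with hD
  have hDp : IsPGroup p D := hS.isPGroup.to_le (inf_le_left : S ⊓ L.cj g S ≤ S)
  have hSg : L.SylIn p (L.cj g S) ⊤ := hS.cj_mem (Subgroup.mem_top g)
  have hDS : D < S := by
    refine lt_of_le_of_ne inf_le_left fun h => hg.1 ?_
    have h1 : S ≤ L.cj g S := h.ge.trans (inf_le_right : S ⊓ L.cj g S ≤ _)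
    exact (hS.eq_of_le hSg.isPGroup le_top h1).symm
  have hDSg : D < L.cj g S := by
    refine lt_of_le_of_ne inf_le_right fun h => hg.1 ?_
    have h1 : L.cj g S ≤ S := h.ge.trans (inf_le_left : S ⊓ L.cj g S ≤ _)
    exact (hSg.eq_of_le hS.isPGroup le_top h1)
  have h1 := L.lt_inf_nz hS.isPGroup hDS
  have h2 := L.lt_inf_nz hSg.isPGroup hDSg
  have hN : normalizer (D : Set G) ≠ ⊤ := OOT.normalizer_ne_top hG hg.2 (OOT.pgroup_ne_top hG hDp)
  obtain ⟨T, hT⟩ := L.exists_sylIn (p := p) (normalizer (D : Set G))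
  have hTn := local_syl_normal hG hCN hN hDp hg.2 Subgroup.le_normalizer le_rfl hT
  have key : ∀ Q : Subgroup G, IsPGroup p Q → Q ≤ normalizer (D : Set G) → Q ≤ T := by
    intro Q hQ hQN
    obtain ⟨h, hh, hle⟩ := hT.exists_conj_le hQ hQN
    rw [L.cj_le_iff, L.mem_nz_iff.1 (inv_mem (hTn hh))] at hle
    exact hle
  have h3 : S ⊓ L.nz D ≤ T := key _ (hS.isPGroup.to_le (inf_le_left : S ⊓ L.nz D ≤ S)) inf_le_right
  have h4 : L.cj g S ⊓ L.nz D ≤ T :=
    key _ (hSg.isPGroup.to_le (inf_le_left : L.cj g S ⊓ L.nz D ≤ L.cj g S)) inf_le_right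
  obtain ⟨h, -, hTh⟩ := hS.exists_conj_le hT.isPGroup le_top
  rw [L.cj_le_iff] at hTh
  -- `S = S^{h⁻¹}`
  have e1 : L.cj h⁻¹ S = S := by
    by_contra hne
    have h5 := hmax _ hne
    have h6 : D < S ⊓ L.cj h⁻¹ S := lt_of_lt_of_le h1 (le_inf (inf_le_left : S ⊓ L.nz D ≤ S) (h3.trans hTh))
    exact absurd h5 (not_le_of_gt (L.card_lt_of_lt h6))
  have e2 : L.cj h⁻¹ S = L.cj g S := by
    by_contra hne
    have hne' : L.cj (g⁻¹ * h⁻¹) S ≠ S := by
      intro h7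
      apply hne
      rw [← L.cj_cj] at h7
      have := congrArg (L.cj g) h7
      rwa [L.cj_cj_inv] at this
    have h5 := hmax _ hne'
    have h6 : D < L.cj g S ⊓ L.cj h⁻¹ S := lt_of_lt_of_le h2 (le_inf (inf_le_left : L.cj g S ⊓ L.nz D ≤ L.cj g S) (h4.trans hTh))
    have h7 : Nat.card (L.cj g S ⊓ L.cj h⁻¹ S : Subgroup G) = Nat.card (S ⊓ L.cj (g⁻¹ * h⁻¹) S : Subgroup G) := by
      rw [← L.card_cj g (S ⊓ L.cj (g⁻¹ * h⁻¹) S), L.cj_inf, L.cj_cj]
      congr 3
      group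
    have h8 := L.card_lt_of_lt h6
    rw [h7] at h8
    exact absurd h5 (not_le_of_gt h8)
  exact hg.1 (e2.symm.trans e1)

/-- **S1479** TI part -/
theorem maxNil_ti' {H : Subgroup G} (hH : MaxNil H) : ∀ g : G, L.cj g H ≠ H → H ⊓ L.cj g H = ⊥ := by
  by_cases hpp : IsPrimePow (Nat.card H)
  · obtain ⟨p, n, hp, hn, hpn⟩ := hpp
    have hp' : p.Prime := Nat.prime_iff.2 hp
    haveI : Fact p.Prime := ⟨hp'⟩
    have hHp : IsPGroup p H := IsPGroup.of_card (n := n) hpn.symm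
    have hpH : p ∣ Nat.card H := by rw [← hpn]; exact dvd_pow_self p hn.ne'
    have h1 := maxNil_sylow hCN hH hpH
    have h2 : piCoreOf {p} H = H := (core_sylIn hH.1 p).eq_of_le hHp le_rfl (OOT.piCoreOf_le _ _)
    rw [h2] at h1
    exact syl_ti hG hCN h1 ((sylIn_ne_bot_iff (h1.of_le le_rfl le_top)).2 hpH)
  · exact fun g hg => maxNil_ti hCN hH hpp g hg

end odd

end Cfsg.Agent.H18
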