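import Mathlib
import Cfsg.Prelude
import Cfsg.Agent.S0256

/-!
# Automorphism groups of elementary abelian 2-groups of rank at most four embed in `A₈` (helper18)
-/

set_option autoImplicit false
set_option linter.all false

namespace Cfsg.Agent.H18.GL42

open Matrix

instance : Fact (Nat.Prime 2) := ⟨Nat.prime_two⟩

theorem sl_inj {F : Type*} [Field F] [Fintype F] (hF : Fintype.card F = 2) :
    ∃ f : Matrix.SpecialLinearGroup (Fin 4) F →* alternatingGroup (Fin 8), Function.Injective f := by
  obtain ⟨e⟩ := S0256.result (F := F) hF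
  refine ⟨e.toMonoidHom.comp (QuotientGroup.mk' _), ?_⟩
  intro a b hab
  have h1 : (QuotientGroup.mk' (Subgroup.center (Matrix.SpecialLinearGroup (Fin 4) F))) a =
      (QuotientGroup.mk' (Subgroup.center (Matrix.SpecialLinearGroup (Fin 4) F))) b := e.injective hab
  have h2 : a⁻¹ * b ∈ Subgroup.center (Matrix.SpecialLinearGroup (Fin 4) F) := QuotientGroup.eq.1 h1
  rw [Matrix.SpecialLinearGroup.mem_center_iff] at h2
  obtain ⟨r, hr, hr2⟩ := h2
  have h3 : r = 1 := by
    have hr0 : r ≠ 0 := by
      rintro rfl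
      rw [Fintype.card_fin] at hr
      norm_num at hr
    have h6 := FiniteField.pow_card_sub_one_eq_one r hr0
    rw [hF] at h6
    simpa using h6
  have h4 : a⁻¹ * b = 1 := by
    apply Subtype.ext
    rw [← hr2, h3, map_one, Matrix.SpecialLinearGroup.coe_one]
  exact (inv_mul_eq_one.1 h4)

theorem gl_inj {F : Type*} [Field F] [Fintype F] (hF : Fintype.card F = 2) :
    ∃ f : (Matrix (Fin 4) (Fin 4) F)ˣ →* alternatingGroup (Fin 8), Function.Injective f := by
  obtain ⟨f, hf⟩ := sl_inj hF
  have hdet : ∀ g : (Matrix (Fin 4) (Fin 4) F)ˣ, (g : Matrix (Fin 4) (Fin 4) F).det = 1 := by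
    intro g
    have h1 : IsUnit (g : Matrix (Fin 4) (Fin 4) F).det := (Matrix.isUnit_iff_isUnit_det _).1 g.isUnit
    have h6 := FiniteField.pow_card_sub_one_eq_one _ h1.ne_zero
    rw [hF] at h6
    simpa using h6
  let j : (Matrix (Fin 4) (Fin 4) F)ˣ →* Matrix.SpecialLinearGroup (Fin 4) F :=
    { toFun := fun g => ⟨g, hdet g⟩
      map_one' := rfl
      map_mul' := fun a b => rfl }
  refine ⟨f.comp j, ?_⟩
  intro a b hab
  have h1 := hf hab
  exact Units.ext (congrArg Subtype.val h1)

theorem exists_inj {V : Type*} [CommGroup V] [Finite V] (h2 : ∀ v : V, v ^ 2 = 1) (hc : Nat.card V ≤ 2 ^ 4) :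
    ∃ f : MulAut V →* alternatingGroup (Fin 8), Function.Injective f := by
  obtain ⟨g, hg⟩ := gl_inj (F := ZMod 2) (ZMod.card 2)
  letI : Module (ZMod 2) (Additive V) := AddCommGroup.zmodModule (n := 2) (fun x => h2 x.toMul)
  haveI : Module.Finite (ZMod 2) (Additive V) := Module.Finite.of_finite
  have hcard : Nat.card V = 2 ^ Module.finrank (ZMod 2) (Additive V) := by
    have h1 := Module.natCard_eq_pow_finrank (K := ZMod 2) (V := Additive V)
    rw [Nat.card_zmod] at h1
    exact h1
  have hd : Module.finrank (ZMod 2) (Additive V) ≤ 4 := by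
    rw [hcard] at hc
    exact (Nat.pow_le_pow_iff_right (by norm_num)).1 hc
  let W := Fin (4 - Module.finrank (ZMod 2) (Additive V)) → ZMod 2
  have e : (Additive V × W) ≃ₗ[ZMod 2] (Fin 4 → ZMod 2) := LinearEquiv.ofFinrankEq _ _ (by
    rw [Module.finrank_prod, Module.finrank_fin_fun, Module.finrank_fin_fun]
    omega)
  let φ : MulAut V →* Module.End (ZMod 2) (Additive V × W) :=
    { toFun := fun α => LinearMap.prodMap (AddMonoidHom.toZModLinearMap 2 (MonoidHom.toAdditive α.toMonoidHom)) LinearMap.id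
      map_one' := by
        apply LinearMap.ext
        rintro ⟨v, w⟩
        rfl
      map_mul' := fun a b => by
        apply LinearMap.ext
        rintro ⟨v, w⟩
        rfl }
  let ψ : Module.End (ZMod 2) (Additive V × W) →* Matrix (Fin 4) (Fin 4) (ZMod 2) :=
    (LinearMap.toMatrixAlgEquiv' (R := ZMod 2) (n := Fin 4)).toRingEquiv.toMulEquiv.toMonoidHom.comp
      e.conjRingEquiv.toMulEquiv.toMonoidHom
  have hφ : Function.Injective φ := by
    intro a b hab
    apply MulEquiv.ext
    intro v
    have h1 := LinearMap.congr_fun hab (Additive.ofMul v, 0)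
    exact congrArg Prod.fst h1
  have hψ : Function.Injective ψ := by
    intro a b hab
    exact e.conjRingEquiv.injective ((LinearMap.toMatrixAlgEquiv' (R := ZMod 2) (n := Fin 4)).injective hab)
  refine ⟨g.comp (MonoidHom.toHomUnits (ψ.comp φ)), ?_⟩
  intro a b hab
  have h1 := hg hab
  have h2 : ψ (φ a) = ψ (φ b) := congrArg Units.val h1
  exact hφ (hψ h2)

end Cfsg.Agent.H18.GL42
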