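import Mathlib
import Cfsg.Prelude
import Cfsg.Agent.H18.GL42
import Cfsg.Agent.H24.AutFrat
import Cfsg.Agent.H25.Metac
import Cfsg.Agent.H2.Frat
import Cfsg.Agent.H10.PCons
import Cfsg.Agent.H10.PLoc
import Cfsg.Agent.H1.Cores

/-!
# 2-constrained groups with `O₂` of sectional rank at most four (helper18, S3103)
-/

set_option autoImplicit false
set_option linter.all false

namespace Cfsg.Agent.H18.Constr8

open Cfsg
open scoped commutatorElement

theorem main {H : Type*} [Group H] [Finite H]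
    (hC : Subgroup.centralizer (pCore 2 H : Set H) ≤ pCore 2 H)
    (hcard : Nat.card (pCore 2 H ⧸ frattini (pCore 2 H)) ≤ 2 ^ 4) :
    ∃ f : H ⧸ pCore 2 H →* ↥(alternatingGroup (Fin 8)), Function.Injective f := by
  haveI : Fact (Nat.Prime 2) := ⟨Nat.prime_two⟩
  have hQ : IsPGroup 2 (pCore 2 H) := H1.pCore_isPGroup 2 H
  have hcommV : ∀ a b : pCore 2 H ⧸ frattini (pCore 2 H), a * b = b * a := by
    intro a b
    obtain ⟨a, rfl⟩ := QuotientGroup.mk_surjective a
    obtain ⟨b, rfl⟩ := QuotientGroup.mk_surjective b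
    rw [← QuotientGroup.mk_mul, ← QuotientGroup.mk_mul, QuotientGroup.eq]
    have h1 : (a * b)⁻¹ * (b * a) = ⁅b⁻¹, a⁻¹⁆ := by
      rw [commutatorElement_def]; group
    rw [h1]
    apply H2.commutator_le_frattini hQ
    exact Subgroup.commutator_mem_commutator (Subgroup.mem_top _) (Subgroup.mem_top _)
  letI : CommGroup (pCore 2 H ⧸ frattini (pCore 2 H)) :=
    { (inferInstance : Group (pCore 2 H ⧸ frattini (pCore 2 H))) with mul_comm := hcommV }
  set ρ0 : H →* MulAut (pCore 2 H ⧸ frattini (pCore 2 H)) :=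
    (H24.autQuot (frattini (pCore 2 H))).comp MulAut.conjNormal with hρ0
  have hρ0app : ∀ (h : H) (q : pCore 2 H), ρ0 h (QuotientGroup.mk' (frattini (pCore 2 H)) q) =
      QuotientGroup.mk' (frattini (pCore 2 H)) (MulAut.conjNormal h q) := by
    intro h q; rfl
  have hker : ∀ h ∈ pCore 2 H, ρ0 h = 1 := by
    intro h hh
    ext v
    obtain ⟨q, rfl⟩ := QuotientGroup.mk'_surjective _ v
    rw [hρ0app]
    have h1 : MulAut.conjNormal h q = (⟨h, hh⟩ : pCore 2 H) * q * (⟨h, hh⟩ : pCore 2 H)⁻¹ := by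
      apply Subtype.ext
      rw [MulAut.conjNormal_apply]; rfl
    rw [h1, map_mul, map_mul, map_inv, hcommV (QuotientGroup.mk' _ ⟨h, hh⟩), mul_inv_cancel_right]
    rfl
  have hkerle : ρ0.ker ≤ pCore 2 H := by
    apply H1.le_pCore inferInstance
    rintro ⟨h, hh⟩
    rw [MonoidHom.mem_ker] at hh
    obtain ⟨a, m, hm, hord⟩ := Nat.exists_eq_two_pow_mul_odd (orderOf_pos h).ne'
    refine ⟨a, Subtype.ext ?_⟩
    show h ^ 2 ^ a = 1
    set g := h ^ 2 ^ a with hg
    have hgo : orderOf g = m := by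
      rw [hg, orderOf_pow_of_dvd (by positivity) (by rw [hord]; exact dvd_mul_right _ _), hord,
        Nat.mul_div_cancel_left _ (by positivity)]
    have hρg : ρ0 g = 1 := by rw [hg, map_pow, hh, one_pow]
    have hσ : (MulAut.conjNormal g : MulAut (pCore 2 H)) = 1 := by
      refine H25.aut_eq_one_of_frattini hQ (MulAut.conjNormal g) ?_ ?_
      · have h3 : orderOf (MulAut.conjNormal g : MulAut (pCore 2 H)) ∣ m := by
          rw [← hgo]; exact orderOf_map_dvd _ _
        exact Nat.Coprime.coprime_dvd_left h3 (Nat.coprime_two_right.2 hm)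
      · intro y
        have h3 := hρ0app g y
        rw [hρg] at h3
        have h4 : (QuotientGroup.mk' (frattini (pCore 2 H)) y) = QuotientGroup.mk' (frattini (pCore 2 H)) (MulAut.conjNormal g y) := h3
        exact QuotientGroup.eq.1 h4
    have hgc : g ∈ Subgroup.centralizer (pCore 2 H : Set H) := by
      rw [Subgroup.mem_centralizer_iff]
      intro q hq
      have h3 := congrArg (fun τ : MulAut (pCore 2 H) => ((τ ⟨q, hq⟩ : pCore 2 H) : H)) hσ
      simp only [MulAut.conjNormal_apply, MulAut.one_apply] at h3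
      rw [mul_inv_eq_iff_eq_mul] at h3
      exact h3.symm
    have hgQ := hC hgc
    obtain ⟨k, hk⟩ := hQ ⟨g, hgQ⟩
    have hk' : g ^ 2 ^ k = 1 := congrArg Subtype.val hk
    have h5 : orderOf g ∣ 2 ^ k := orderOf_dvd_of_pow_eq_one hk'
    rw [← orderOf_eq_one_iff]
    have h6 : (orderOf g).Coprime (2 ^ k) := by
      rw [hgo]; exact Nat.Coprime.pow_right k (Nat.coprime_two_right.2 hm)
    exact Nat.Coprime.eq_one_of_dvd h6 h5
  obtain ⟨f, hf⟩ := GL42.exists_inj (V := pCore 2 H ⧸ frattini (pCore 2 H)) (by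
    intro v
    obtain ⟨q, rfl⟩ := QuotientGroup.mk'_surjective _ v
    rw [← map_pow]
    exact (QuotientGroup.eq_one_iff _).2 (H2.pow_mem_frattini hQ q)) hcard
  have hker' : pCore 2 H ≤ ρ0.ker := hker
  refine ⟨f.comp (QuotientGroup.lift (pCore 2 H) ρ0 hker'), ?_⟩
  rw [MonoidHom.coe_comp]
  refine hf.comp ?_
  rw [injective_iff_map_eq_one]
  intro a ha
  obtain ⟨a, rfl⟩ := QuotientGroup.mk_surjective a
  have ha' : ρ0 a = 1 := ha
  exact (QuotientGroup.eq_one_iff a).2 (hkerle ha')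

theorem final {X : Type*} [Group X] [Finite X] (hc : Cfsg.IsPConstrained 2 X) (hO : Cfsg.oddCore X = ⊥)
    (h4 : Cfsg.SectionalPRankLE 2 4 ↥(Cfsg.pCore 2 X)) :
    ∃ f : X ⧸ Cfsg.pCore 2 X →* ↥(alternatingGroup (Fin 8)), Function.Injective f := by
  haveI : Fact (Nat.Prime 2) := ⟨Nat.prime_two⟩
  have hQ : IsPGroup 2 (pCore 2 X) := H1.pCore_isPGroup 2 X
  apply main
  · have e : X ⧸ pPrimeCore 2 X ≃* X := (QuotientGroup.quotientMulEquivOfEq hO).trans QuotientGroup.quotientBot
    exact H10.charP_equiv e (H10.isPConstrained_iff.1 hc)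
  · have hN : ((frattini (pCore 2 X)).subgroupOf ⊤).Normal := inferInstance
    have h1 := h4 ⊤ ((frattini (pCore 2 X)).subgroupOf ⊤) ⊤ ?_ ?_
    · rw [Subgroup.card_top] at h1
      have h2 : Nat.card (pCore 2 X ⧸ frattini (pCore 2 X)) =
          Nat.card ((⊤ : Subgroup (pCore 2 X)) ⧸ (frattini (pCore 2 X)).subgroupOf ⊤) := by
        have h3 : (frattini (pCore 2 X)).relIndex ⊤ = (frattini (pCore 2 X)).index := Subgroup.relIndex_top_right _
        exact h3.symm
      rw [h2]; exact h1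
    · refine ⟨⟨?_⟩⟩
      rintro ⟨a, -⟩ ⟨b, -⟩
      apply Subtype.ext
      show a * b = b * a
      obtain ⟨a, rfl⟩ := QuotientGroup.mk_surjective a
      obtain ⟨b, rfl⟩ := QuotientGroup.mk_surjective b
      rw [← QuotientGroup.mk_mul, ← QuotientGroup.mk_mul, QuotientGroup.eq]
      have h1 : (a * b)⁻¹ * (b * a) = ⁅b⁻¹, a⁻¹⁆ := by
        rw [commutatorElement_def]; group
      rw [h1, Subgroup.mem_subgroupOf]
      apply H2.commutator_le_frattini hQ
      exact Subgroup.commutator_mem_commutator (Subgroup.mem_top _) (Subgroup.mem_top _)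
    · intro a _
      obtain ⟨a, rfl⟩ := QuotientGroup.mk_surjective a
      rw [← QuotientGroup.mk_pow]
      apply (QuotientGroup.eq_one_iff _).2
      rw [Subgroup.mem_subgroupOf]
      exact H2.pow_mem_frattini hQ (a : pCore 2 X)

end Cfsg.Agent.H18.Constr8
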