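import Mathlib

/-! One-point extensions of multiply transitive groups and explicit generators for `M₁₁`, `M₁₂` (S3362). -/

set_option autoImplicit false
open Subgroup

namespace Cfsg.Agent.H18.M12Ext

variable {α : Type*} [DecidableEq α]

/-- `H` is transitive on `Ω`, fixes the points outside of `Ω`, and `K` is the stabilizer of `a ∈ Ω` in `H`. -/
structure Good (H K : Subgroup (Equiv.Perm α)) (Ω : Finset α) (a : α) : Prop where
  le : K ≤ H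
  mem : a ∈ Ω
  fix : ∀ h ∈ H, ∀ i, i ∉ Ω → h i = i
  tr : ∀ i ∈ Ω, ∃ h ∈ H, h i = a
  st : ∀ h ∈ H, h a = a → h ∈ K
  fa : ∀ k ∈ K, k a = a

variable {H K L : Subgroup (Equiv.Perm α)} {Ω : Finset α} {a a' b : α}

theorem Good.maps (hG : Good H K Ω a) {h : Equiv.Perm α} (hh : h ∈ H) {i : α} (hi : i ∈ Ω) : h i ∈ Ω := by
  by_contra hc
  have h1 := hG.fix h hh _ hc
  have h2 := h.injective h1
  rw [h2] at hc
  exact hc hi

theorem Good.tr2 (hG : Good H K Ω a) {i j : α} (hi : i ∈ Ω) (hj : j ∈ Ω) : ∃ h ∈ H, h i = j := by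
  obtain ⟨h1, hh1, e1⟩ := hG.tr i hi
  obtain ⟨h2, hh2, e2⟩ := hG.tr j hj
  refine ⟨h2⁻¹ * h1, mul_mem (inv_mem hh2) hh1, ?_⟩
  rw [Equiv.Perm.mul_apply, e1, ← e2, ← Equiv.Perm.mul_apply, inv_mul_cancel, Equiv.Perm.one_apply]

theorem ext_cover {x : Equiv.Perm α} (hG : Good H K Ω a) (hK : Good K L (Ω.erase a) a')
    (hxx : x * x = 1) (hxK : ∀ k ∈ K, x * k * x ∈ K)
    (hh : ∃ h ∈ H, h ∉ K ∧ ∃ h₁ ∈ H, ∃ h₂ ∈ H, x * h * x = h₁ * x * h₂) :
    ∀ g ∈ H ⊔ zpowers x, g ∈ H ∨ ∃ h₁ ∈ H, ∃ h₂ ∈ H, g = h₁ * x * h₂ := by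
  obtain ⟨h, hh, hhK, h₁, hh₁, h₂, hh₂, e⟩ := hh
  have hHl : ∀ c ∈ H, ∀ g : Equiv.Perm α, (g ∈ H ∨ ∃ h₁ ∈ H, ∃ h₂ ∈ H, g = h₁ * x * h₂) →
      (c * g ∈ H ∨ ∃ h₁ ∈ H, ∃ h₂ ∈ H, c * g = h₁ * x * h₂) := by
    rintro c hc g (hg | ⟨u, hu, v, hv, rfl⟩)
    · exact Or.inl (mul_mem hc hg)
    · exact Or.inr ⟨c * u, mul_mem hc hu, v, hv, by group⟩
  have hxl : ∀ g : Equiv.Perm α, (g ∈ H ∨ ∃ h₁ ∈ H, ∃ h₂ ∈ H, g = h₁ * x * h₂) →
      (x * g ∈ H ∨ ∃ h₁ ∈ H, ∃ h₂ ∈ H, x * g = h₁ * x * h₂) := by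
    rintro g (hg | ⟨u, hu, v, hv, rfl⟩)
    · exact Or.inr ⟨1, one_mem _, g, hg, by group⟩
    · by_cases huK : u ∈ K
      · left
        have : x * (u * x * v) = (x * u * x) * v := by group
        rw [this]
        exact mul_mem (hG.le (hxK u huK)) hv
      · right
        have hua : u a ∈ Ω.erase a := by
          rw [Finset.mem_erase]
          exact ⟨fun h3 => huK (hG.st u hu h3), hG.maps hu hG.mem⟩
        have hha : h a ∈ Ω.erase a := by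
          rw [Finset.mem_erase]
          exact ⟨fun h3 => hhK (hG.st h hh h3), hG.maps hh hG.mem⟩
        obtain ⟨k, hk, hk2⟩ := hK.tr2 hha hua
        have hk' : (k * h)⁻¹ * u ∈ K := by
          apply hG.st _ (mul_mem (inv_mem (mul_mem (hG.le hk) hh)) hu)
          rw [Equiv.Perm.mul_apply, ← hk2, ← Equiv.Perm.mul_apply, ← Equiv.Perm.mul_apply, mul_assoc, inv_mul_cancel,
            Equiv.Perm.one_apply]
        have h3 : u = k * h * ((k * h)⁻¹ * u) := by group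
        refine ⟨x * k * x * h₁, mul_mem (hG.le (hxK k hk)) hh₁, h₂ * (x * ((k * h)⁻¹ * u) * x) * v,
          mul_mem (mul_mem hh₂ (hG.le (hxK _ hk'))) hv, ?_⟩
        have hxi : x⁻¹ = x := inv_eq_of_mul_eq_one_left hxx
        calc x * (u * x * v) = x * (k * h * ((k * h)⁻¹ * u) * x * v) := by rw [← h3]
          _ = (x * k * (x * x) * h * (x * x) * ((k * h)⁻¹ * u) * x) * v := by rw [hxx]; group
          _ = (x * k * x) * (x * h * x) * (x * ((k * h)⁻¹ * u) * x) * v := by group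
          _ = (x * k * x) * (h₁ * x * h₂) * (x * ((k * h)⁻¹ * u) * x) * v := by rw [e]
          _ = x * k * x * h₁ * x * (h₂ * (x * ((k * h)⁻¹ * u) * x) * v) := by group
  intro g hg
  rw [Subgroup.sup_eq_closure] at hg
  refine Subgroup.closure_induction_left (p := fun g _ => g ∈ H ∨ ∃ h₁ ∈ H, ∃ h₂ ∈ H, g = h₁ * x * h₂) (Or.inl (one_mem _)) ?_ ?_ hg
  · rintro c (hc | ⟨k, rfl⟩) g - hg
    · exact hHl c hc g hg
    · show (x ^ k * g ∈ H ∨ ∃ h₁ ∈ H, ∃ h₂ ∈ H, x ^ k * g = h₁ * x * h₂)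
      rcases Int.even_or_odd' k with ⟨j, rfl | rfl⟩
      · rw [zpow_mul, zpow_ofNat, pow_two, hxx, one_zpow, one_mul]; exact hg
      · rw [zpow_add, zpow_mul, zpow_ofNat, pow_two, hxx, one_zpow, one_mul, zpow_one]; exact hxl g hg
  · rintro c (hc | ⟨k, rfl⟩) g - hg
    · exact hHl _ (inv_mem hc) g hg
    · show ((x ^ k)⁻¹ * g ∈ H ∨ ∃ h₁ ∈ H, ∃ h₂ ∈ H, (x ^ k)⁻¹ * g = h₁ * x * h₂)
      rw [← zpow_neg]
      rcases Int.even_or_odd' (-k) with ⟨j, h3 | h3⟩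
      · rw [h3, zpow_mul, zpow_ofNat, pow_two, hxx, one_zpow, one_mul]; exact hg
      · rw [h3, zpow_add, zpow_mul, zpow_ofNat, pow_two, hxx, one_zpow, one_mul, zpow_one]; exact hxl g hg

theorem Good.ext {x : Equiv.Perm α} (hG : Good H K Ω a) (hK : Good K L (Ω.erase a) a')
    (hb : b ∉ Ω) (hxa : x a = b) (hxx : x * x = 1) (hxf : ∀ i, i ∉ Ω → i ≠ b → x i = i)
    (hxK : ∀ k ∈ K, x * k * x ∈ K)
    (hh : ∃ h ∈ H, h ∉ K ∧ ∃ h₁ ∈ H, ∃ h₂ ∈ H, x * h * x = h₁ * x * h₂) :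
    Good (H ⊔ zpowers x) H (insert b Ω) b := by
  have hxb : x b = a := by rw [← hxa, ← Equiv.Perm.mul_apply, hxx, Equiv.Perm.one_apply]
  have hxm : x ∈ H ⊔ zpowers x := (le_sup_right : zpowers x ≤ _) (mem_zpowers x)
  refine ⟨le_sup_left, Finset.mem_insert_self _ _, ?_, ?_, ?_, fun k hk => hG.fix k hk b hb⟩
  · intro g hg i hi
    rw [Finset.mem_insert, not_or] at hi
    have h1 : H ⊔ zpowers x ≤ MulAction.stabilizer (Equiv.Perm α) i := by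
      rw [sup_le_iff, zpowers_le]
      exact ⟨fun h hh => hG.fix h hh i hi.2, hxf i hi.2 hi.1⟩
    exact h1 hg
  · intro i hi
    rw [Finset.mem_insert] at hi
    rcases hi with rfl | hi
    · exact ⟨1, one_mem _, rfl⟩
    · obtain ⟨h, hh, e⟩ := hG.tr i hi
      exact ⟨x * h, mul_mem hxm ((le_sup_left : H ≤ _) hh), by rw [Equiv.Perm.mul_apply, e, hxa]⟩
  · intro g hg hgb
    rcases ext_cover hG hK hxx hxK hh g hg with h1 | ⟨h₁, hh₁, h₂, hh₂, rfl⟩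
    · exact h1
    · exfalso
      rw [Equiv.Perm.mul_apply, Equiv.Perm.mul_apply, hG.fix h₂ hh₂ b hb, hxb] at hgb
      apply hb
      rw [← hgb]
      exact hG.maps hh₁ hG.mem

end Cfsg.Agent.H18.M12Ext
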