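import Mathlib
import Cfsg.Agent.H18.M12Ext

/-! Explicit generators for `M₁₁`, `M₁₂` (S3362). -/

set_option autoImplicit false
open Subgroup Equiv

namespace Cfsg.Agent.H18.M12Ext

def s : Equiv.Perm (Fin 12) := swap (3 : Fin 12) 5 * swap (3 : Fin 12) 4 * swap (6 : Fin 12) 8 * swap (6 : Fin 12) 7 * swap (9 : Fin 12) 11 * swap (9 : Fin 12) 10
def t : Equiv.Perm (Fin 12) := swap (3 : Fin 12) 9 * swap (3 : Fin 12) 6 * swap (4 : Fin 12) 10 * swap (4 : Fin 12) 7 * swap (5 : Fin 12) 11 * swap (5 : Fin 12) 8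
def u : Equiv.Perm (Fin 12) := swap (4 : Fin 12) 9 * swap (4 : Fin 12) 5 * swap (4 : Fin 12) 6 * swap (7 : Fin 12) 10 * swap (7 : Fin 12) 11 * swap (7 : Fin 12) 8
def v : Equiv.Perm (Fin 12) := swap (4 : Fin 12) 11 * swap (4 : Fin 12) 5 * swap (4 : Fin 12) 7 * swap (6 : Fin 12) 8 * swap (6 : Fin 12) 9 * swap (6 : Fin 12) 10
def w : Equiv.Perm (Fin 12) := swap (4 : Fin 12) 8 * swap (4 : Fin 12) 5 * swap (4 : Fin 12) 10 * swap (6 : Fin 12) 7 * swap (6 : Fin 12) 9 * swap (6 : Fin 12) 11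
def x₁ : Equiv.Perm (Fin 12) := swap (0 : Fin 12) 3 * swap (6 : Fin 12) 7 * swap (8 : Fin 12) 10 * swap (9 : Fin 12) 11
def x₂ : Equiv.Perm (Fin 12) := swap (0 : Fin 12) 1 * swap (6 : Fin 12) 9 * swap (7 : Fin 12) 10 * swap (8 : Fin 12) 11
def x₃ : Equiv.Perm (Fin 12) := swap (1 : Fin 12) 2 * swap (6 : Fin 12) 11 * swap (7 : Fin 12) 9 * swap (8 : Fin 12) 10

theorem st_comm : s * t = t * s := by decide +kernel
theorem s3 : s * s * s = 1 := by decide +kernel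
theorem t3 : t * t * t = 1 := by decide +kernel
theorem us : u * s * u⁻¹ = t := by decide +kernel
theorem ut : u * t * u⁻¹ = s⁻¹ := by decide +kernel
theorem vs : v * s * v⁻¹ = s * t := by decide +kernel
theorem vt : v * t * v⁻¹ = s * t⁻¹ := by decide +kernel
theorem ws : w * s * w⁻¹ = s * t⁻¹ := by decide +kernel
theorem wt : w * t * w⁻¹ = s⁻¹ * t⁻¹ := by decide +kernel
theorem x11 : x₁ * x₁ = 1 := by decide +kernel
theorem x22 : x₂ * x₂ = 1 := by decide +kernel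
theorem x33 : x₃ * x₃ = 1 := by decide +kernel
theorem x1u : x₁ * u * x₁ = v := by decide +kernel
theorem x1v : x₁ * v * x₁ = u := by decide +kernel
theorem x1w : x₁ * w * x₁ = w⁻¹ := by decide +kernel
theorem x2s : x₂ * s * x₂ = s := by decide +kernel
theorem x2t : x₂ * t * x₂ = t⁻¹ := by decide +kernel
theorem x2u : x₂ * u * x₂ = u⁻¹ := by decide +kernel
theorem x2v : x₂ * v * x₂ = w := by decide +kernel
theorem x2w : x₂ * w * x₂ = v := by decide +kernel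
theorem x3s : x₃ * s * x₃ = s := by decide +kernel
theorem x3t : x₃ * t * x₃ = s⁻¹ * t⁻¹ := by decide +kernel
theorem x3u : x₃ * u * x₃ = v⁻¹ := by decide +kernel
theorem x3v : x₃ * v * x₃ = u⁻¹ := by decide +kernel
theorem x3w : x₃ * w * x₃ = w⁻¹ := by decide +kernel
theorem x3x1 : x₃ * x₁ * x₃ = x₁ := by decide +kernel
theorem rel1 : x₁ * s * x₁ = s * x₁ * (u * t * u) := by decide +kernel
theorem rel2 : x₂ * x₁ * x₂ = x₁ * x₂ * x₁ := by decide +kernel
theorem rel3 : x₃ * x₂ * x₃ = x₂ * x₃ * x₂ := by decide +kernel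

end Cfsg.Agent.H18.M12Ext
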