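import Mathlib
import Cfsg.Agent.H18.M12Rel
import Cfsg.Agent.H18.PRes

/-! Explicit generators for `M₁₁`, `M₁₂` (S3362). -/

set_option autoImplicit false
open Subgroup Equiv

namespace Cfsg.Agent.H18.M12Ext

/-- the quaternion group -/
def Q8 : Subgroup (Equiv.Perm (Fin 12)) := closure {u, v, w}
/-- `3²` -/
def E9 : Subgroup (Equiv.Perm (Fin 12)) := closure {s, t}

def Q8v : Fin 8 → Equiv.Perm (Fin 12) := ![1, u, v, w, u⁻¹, v⁻¹, w⁻¹, u * u]
def E9v : Fin 9 → Equiv.Perm (Fin 12) := ![1, s, s⁻¹, t, s * t, s⁻¹ * t, t⁻¹, s * t⁻¹, s⁻¹ * t⁻¹]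
theorem e1 : ∀ j,  ∀ i : Fin 12, i ∉ ({4, 5, 6, 7, 8, 9, 10, 11} : Finset (Fin 12)) → Q8v j i = i := by decide +kernel
theorem e2 : ∀ i j, ∃ k, Q8v i * Q8v j = Q8v k := by decide +kernel
theorem e3 : ∀ i, Q8v i 4 = 4 → i = 0 := by decide +kernel
theorem e4 : ∀ i ∈ ({4, 5, 6, 7, 8, 9, 10, 11} : Finset (Fin 12)), ∃ j, Q8v j i = 4 := by decide +kernel
theorem e5 : ∀ i, ∃ k, (Q8v i)⁻¹ = Q8v k := by decide +kernel
theorem f1 : ∀ j,  ∀ i : Fin 12, i ∉ ({3, 4, 5, 6, 7, 8, 9, 10, 11} : Finset (Fin 12)) → E9v j i = i := by decide +kernel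
theorem f2 : ∀ i j, ∃ k, E9v i * E9v j = E9v k := by decide +kernel
theorem f3 : ∀ i, E9v i 3 = 3 → i = 0 := by decide +kernel
theorem f4 : ∀ i ∈ ({3, 4, 5, 6, 7, 8, 9, 10, 11} : Finset (Fin 12)), ∃ j, E9v j i = 3 := by decide +kernel
theorem f5 : ∀ i, ∃ k, (E9v i)⁻¹ = E9v k := by decide +kernel

theorem mem_Q8 {q : Equiv.Perm (Fin 12)} (hq : q ∈ Q8) : ∃ k, q = Q8v k := by
  unfold Q8 at hq
  induction hq using Subgroup.closure_induction with
  | mem x hx =>
    simp only [Set.mem_insert_iff, Set.mem_singleton_iff] at hx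
    rcases hx with rfl | rfl | rfl
    exacts [⟨1, rfl⟩, ⟨2, rfl⟩, ⟨3, rfl⟩]
  | one => exact ⟨0, rfl⟩
  | mul x y _ _ hx hy =>
    obtain ⟨i, rfl⟩ := hx
    obtain ⟨j, rfl⟩ := hy
    exact e2 i j
  | inv x _ hx =>
    obtain ⟨i, rfl⟩ := hx
    exact e5 i

theorem Q8v_mem (k : Fin 8) : Q8v k ∈ Q8 := by
  have hu : u ∈ Q8 := subset_closure (by simp)
  have hv : v ∈ Q8 := subset_closure (by simp)
  have hw : w ∈ Q8 := subset_closure (by simp)
  fin_cases k
  exacts [one_mem _, hu, hv, hw, inv_mem hu, inv_mem hv, inv_mem hw, mul_mem hu hu]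

theorem mem_E9 {q : Equiv.Perm (Fin 12)} (hq : q ∈ E9) : ∃ k, q = E9v k := by
  unfold E9 at hq
  induction hq using Subgroup.closure_induction with
  | mem x hx =>
    simp only [Set.mem_insert_iff, Set.mem_singleton_iff] at hx
    rcases hx with rfl | rfl
    exacts [⟨1, rfl⟩, ⟨3, rfl⟩]
  | one => exact ⟨0, rfl⟩
  | mul x y _ _ hx hy =>
    obtain ⟨i, rfl⟩ := hx
    obtain ⟨j, rfl⟩ := hy
    exact f2 i j
  | inv x _ hx =>
    obtain ⟨i, rfl⟩ := hx
    exact f5 i

theorem E9v_mem (k : Fin 9) : E9v k ∈ E9 := by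
  have hs : s ∈ E9 := subset_closure (by simp)
  have ht : t ∈ E9 := subset_closure (by simp)
  fin_cases k
  exacts [one_mem _, hs, inv_mem hs, ht, mul_mem hs ht, mul_mem (inv_mem hs) ht, inv_mem ht,
      mul_mem hs (inv_mem ht), mul_mem (inv_mem hs) (inv_mem ht)]

theorem good1 : Good Q8 ⊥ ({4, 5, 6, 7, 8, 9, 10, 11} : Finset (Fin 12)) 4 := by
  refine ⟨bot_le, by decide, ?_, ?_, ?_, ?_⟩
  · intro q hq
    obtain ⟨k, rfl⟩ := mem_Q8 hq
    exact e1 k
  · intro i hi
    obtain ⟨k, hk⟩ := e4 i hi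
    exact ⟨_, Q8v_mem k, hk⟩
  · intro q hq hq4
    obtain ⟨k, rfl⟩ := mem_Q8 hq
    rw [mem_bot, e3 k hq4]; rfl
  · intro k hk
    rw [mem_bot] at hk
    rw [hk]; rfl

theorem normE {g : Equiv.Perm (Fin 12)} (h1 : g * s * g⁻¹ ∈ E9) (h2 : g * t * g⁻¹ ∈ E9) :
    g ∈ normalizer (E9 : Set (Equiv.Perm (Fin 12))) := by
  have hle : E9 ≤ E9.comap (MulAut.conj g).toMonoidHom := by
    conv_lhs => unfold E9
    rw [closure_le]
    rintro x hx
    simp only [Set.mem_insert_iff, Set.mem_singleton_iff] at hx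
    rcases hx with rfl | rfl
    · exact h1
    · exact h2
  have hmap : E9.map (MulAut.conj g).toMonoidHom = E9 := by
    apply Subgroup.eq_of_le_of_card_ge (map_le_iff_le_comap.2 hle)
    exact (Nat.card_congr (E9.equivMapOfInjective _ (MulAut.conj g).injective).toEquiv).le
  rw [mem_normalizer_iff]
  intro x
  constructor
  · intro hx; exact hle hx
  · intro hx
    rw [← hmap] at hx
    obtain ⟨y, hy, e⟩ := hx
    have : y = x := (MulAut.conj g).injective e
    rwa [← this]

theorem Q8_norm : Q8 ≤ normalizer (E9 : Set (Equiv.Perm (Fin 12))) := by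
  have hs : s ∈ E9 := subset_closure (by simp)
  have ht : t ∈ E9 := subset_closure (by simp)
  unfold Q8
  rw [closure_le]
  rintro x hx
  simp only [Set.mem_insert_iff, Set.mem_singleton_iff] at hx
  rcases hx with rfl | rfl | rfl
  · exact normE (by rw [us]; exact ht) (by rw [ut]; exact inv_mem hs)
  · exact normE (by rw [vs]; exact mul_mem hs ht) (by rw [vt]; exact mul_mem hs (inv_mem ht))
  · exact normE (by rw [ws]; exact mul_mem hs (inv_mem ht)) (by rw [wt]; exact mul_mem (inv_mem hs) (inv_mem ht))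

theorem good2 : Good (E9 ⊔ Q8) Q8 ({3, 4, 5, 6, 7, 8, 9, 10, 11} : Finset (Fin 12)) 3 := by
  refine ⟨le_sup_right, by decide, ?_, ?_, ?_, fun k hk => good1.fix k hk 3 (by decide)⟩
  · intro g hg i hi
    have h1 : E9 ⊔ Q8 ≤ MulAction.stabilizer (Equiv.Perm (Fin 12)) i := by
      refine sup_le ?_ ?_
      · intro q hq
        obtain ⟨k, rfl⟩ := mem_E9 hq
        exact f1 k i hi
      · intro q hq
        exact good1.fix q hq i (by revert i; decide)
    exact h1 hg
  · intro i hi
    obtain ⟨k, hk⟩ := f4 i hi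
    exact ⟨_, (le_sup_left : E9 ≤ _) (E9v_mem k), hk⟩
  · intro g hg hg3
    rw [sup_comm, H18.mem_sup_iff_of_le_normalizer Q8_norm] at hg
    obtain ⟨q, hq, e, he, rfl⟩ := hg
    obtain ⟨k, rfl⟩ := mem_E9 he
    have h3 : q 3 = 3 := good1.fix q hq 3 (by decide)
    rw [Equiv.Perm.mul_apply] at hg3
    have h4 : E9v k 3 = 3 := q.injective (by rw [hg3, h3])
    rw [f3 k h4]
    show q * 1 ∈ Q8
    rw [mul_one]; exact hq

/-- membership under conjugation by an involution -/
theorem conj_closure {x : Equiv.Perm (Fin 12)} (hx : x * x = 1) {S : Set (Equiv.Perm (Fin 12))}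
    (h : ∀ y ∈ S, x * y * x ∈ closure S) : ∀ y ∈ closure S, x * y * x ∈ closure S := by
  intro y hy
  induction hy using Subgroup.closure_induction with
  | mem y hy => exact h y hy
  | one => rw [mul_one, hx]; exact one_mem _
  | mul a b _ _ ha hb =>
    have : x * (a * b) * x = (x * a * x) * (x * b * x) := by
      calc x * (a * b) * x = x * a * 1 * b * x := by group
        _ = (x * a * x) * (x * b * x) := by rw [← hx]; group
    rw [this]; exact mul_mem ha hb
  | inv a _ ha =>
    have hxi : x⁻¹ = x := inv_eq_of_mul_eq_one_left hx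
    have : x * a⁻¹ * x = (x * a * x)⁻¹ := by
      rw [mul_inv_rev, mul_inv_rev, hxi]; group
    rw [this]; exact inv_mem ha

def M10 : Subgroup (Equiv.Perm (Fin 12)) := (E9 ⊔ Q8) ⊔ zpowers x₁
def M11 : Subgroup (Equiv.Perm (Fin 12)) := M10 ⊔ zpowers x₂
def M12 : Subgroup (Equiv.Perm (Fin 12)) := M11 ⊔ zpowers x₃

section gen
variable {X : Type*} [Group X] (a b c d e f g h : X)
theorem cl1 : closure {a, b} ⊔ closure {c, d, e} = closure {a, b, c, d, e} := by
  rw [← Subgroup.closure_union]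
  congr 1
  ext y; simp only [Set.mem_union, Set.mem_insert_iff, Set.mem_singleton_iff]; tauto
theorem cl2 : closure {a, b, c, d, e} ⊔ zpowers f = closure {a, b, c, d, e, f} := by
  rw [zpowers_eq_closure, ← Subgroup.closure_union]
  congr 1
  ext y; simp only [Set.mem_union, Set.mem_insert_iff, Set.mem_singleton_iff]; tauto
theorem cl3 : closure {a, b, c, d, e, f} ⊔ zpowers g = closure {a, b, c, d, e, f, g} := by
  rw [zpowers_eq_closure, ← Subgroup.closure_union]
  congr 1
  ext y; simp only [Set.mem_union, Set.mem_insert_iff, Set.mem_singleton_iff]; tauto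
theorem cl4 : closure {a, b, c, d, e, f, g} ⊔ zpowers h = closure {a, b, c, d, e, f, g, h} := by
  rw [zpowers_eq_closure, ← Subgroup.closure_union]
  congr 1
  ext y; simp only [Set.mem_union, Set.mem_insert_iff, Set.mem_singleton_iff]; tauto
end gen

theorem H72_eq : E9 ⊔ Q8 = closure {s, t, u, v, w} := cl1 _ _ _ _ _

theorem M10_eq : M10 = closure {s, t, u, v, w, x₁} := by
  rw [M10, H72_eq, cl2]

theorem M11_eq : M11 = closure {s, t, u, v, w, x₁, x₂} := by
  rw [M11, M10_eq, cl3]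

theorem M12_eq : M12 = closure {s, t, u, v, w, x₁, x₂, x₃} := by
  rw [M12, M11_eq, cl4]

theorem good3 : Good M10 (E9 ⊔ Q8) ({0, 3, 4, 5, 6, 7, 8, 9, 10, 11} : Finset (Fin 12)) 0 := by
  have hs : s ∈ E9 ⊔ Q8 := (le_sup_left : E9 ≤ _) (subset_closure (by simp))
  have ht : t ∈ E9 ⊔ Q8 := (le_sup_left : E9 ≤ _) (subset_closure (by simp))
  have hu' : u ∈ Q8 := subset_closure (by simp)
  have hu : u ∈ E9 ⊔ Q8 := (le_sup_right : Q8 ≤ _) (subset_closure (by simp))
  have h := Good.ext (x := x₁) (b := 0) good2 (L := ⊥) (a' := 4)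
    (by have : (({3, 4, 5, 6, 7, 8, 9, 10, 11} : Finset (Fin 12)).erase 3) = {4, 5, 6, 7, 8, 9, 10, 11} := by decide
        rw [this]; exact good1)
    (by decide) (by decide +kernel) x11 (by decide +kernel)
    (by
      have hu : u ∈ closure {u, v, w} := subset_closure (by simp)
      have hv : v ∈ closure {u, v, w} := subset_closure (by simp)
      have hw : w ∈ closure {u, v, w} := subset_closure (by simp)
      refine conj_closure x11 ?_
      rintro y hy
      simp only [Set.mem_insert_iff, Set.mem_singleton_iff] at hy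
      rcases hy with rfl | rfl | rfl
      · rw [x1u]; exact hv
      · rw [x1v]; exact hu
      · rw [x1w]; exact inv_mem hw)
    ⟨s, hs, fun hsQ => absurd (good1.fix s hsQ 3 (by decide)) (by decide +kernel), s, hs, u * t * u,
      mul_mem (mul_mem hu ht) hu, rel1⟩
  exact h

theorem good4 : Good M11 M10 ({1, 0, 3, 4, 5, 6, 7, 8, 9, 10, 11} : Finset (Fin 12)) 1 := by
  have hx1 : x₁ ∈ M10 := (le_sup_right : zpowers x₁ ≤ _) (mem_zpowers _)
  have h := Good.ext (x := x₂) (b := 1) good3 (L := Q8) (a' := 3)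
    (by have : (({0, 3, 4, 5, 6, 7, 8, 9, 10, 11} : Finset (Fin 12)).erase 0) = {3, 4, 5, 6, 7, 8, 9, 10, 11} := by decide
        rw [this]; exact good2)
    (by decide) (by decide +kernel) x22 (by decide +kernel)
    (by
      rw [H72_eq]
      have hs : s ∈ closure {s, t, u, v, w} := subset_closure (by simp)
      have ht : t ∈ closure {s, t, u, v, w} := subset_closure (by simp)
      have hu : u ∈ closure {s, t, u, v, w} := subset_closure (by simp)
      have hv : v ∈ closure {s, t, u, v, w} := subset_closure (by simp)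
      have hw : w ∈ closure {s, t, u, v, w} := subset_closure (by simp)
      refine conj_closure x22 ?_
      rintro y hy
      simp only [Set.mem_insert_iff, Set.mem_singleton_iff] at hy
      rcases hy with rfl | rfl | rfl | rfl | rfl
      · rw [x2s]; exact hs
      · rw [x2t]; exact inv_mem ht
      · rw [x2u]; exact inv_mem hu
      · rw [x2v]; exact hw
      · rw [x2w]; exact hv)
    ⟨x₁, hx1, fun hsQ => absurd (good2.fix x₁ hsQ 0 (by decide)) (by decide +kernel), x₁, hx1, x₁, hx1, rel2⟩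
  exact h

theorem good5 : Good M12 M11 ({2, 1, 0, 3, 4, 5, 6, 7, 8, 9, 10, 11} : Finset (Fin 12)) 2 := by
  have hx2 : x₂ ∈ M11 := (le_sup_right : zpowers x₂ ≤ _) (mem_zpowers _)
  have h := Good.ext (x := x₃) (b := 2) good4 (L := (E9 ⊔ Q8)) (a' := 0)
    (by have : (({1, 0, 3, 4, 5, 6, 7, 8, 9, 10, 11} : Finset (Fin 12)).erase 1) = {0, 3, 4, 5, 6, 7, 8, 9, 10, 11} := by decide
        rw [this]; exact good3)
    (by decide) (by decide +kernel) x33 (by decide +kernel)
    (by
      rw [M10_eq]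
      have hs : s ∈ closure {s, t, u, v, w, x₁} := subset_closure (by simp)
      have ht : t ∈ closure {s, t, u, v, w, x₁} := subset_closure (by simp)
      have hu : u ∈ closure {s, t, u, v, w, x₁} := subset_closure (by simp)
      have hv : v ∈ closure {s, t, u, v, w, x₁} := subset_closure (by simp)
      have hw : w ∈ closure {s, t, u, v, w, x₁} := subset_closure (by simp)
      have hx : x₁ ∈ closure {s, t, u, v, w, x₁} := subset_closure (by simp)
      refine conj_closure x33 ?_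
      rintro y hy
      simp only [Set.mem_insert_iff, Set.mem_singleton_iff] at hy
      rcases hy with rfl | rfl | rfl | rfl | rfl | rfl
      · rw [x3s]; exact hs
      · rw [x3t]; exact mul_mem (inv_mem hs) (inv_mem ht)
      · rw [x3u]; exact inv_mem hv
      · rw [x3v]; exact inv_mem hu
      · rw [x3w]; exact inv_mem hw
      · rw [x3x1]; exact hx)
    ⟨x₂, hx2, fun hsQ => absurd (good3.fix x₂ hsQ 1 (by decide)) (by decide +kernel), x₂, hx2, x₂, hx2, rel3⟩
  exact h

end Cfsg.Agent.H18.M12Ext
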