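import Cfsg.Agent.H5.SL2
import Cfsg.Agent.H18.PCore
import Cfsg.Prelude.Def_LocalEven
import Cfsg.Prelude.Def_TwoFusion

/-!
# Natural `SL₂` modules in coordinates (helper18)
-/

set_option autoImplicit false
set_option linter.style.haveILetI false
open Cfsg
open scoped commutatorElement Pointwise

namespace Cfsg.Agent.H18

universe u v

open Matrix

/-- coordinates for a natural module -/
structure NatCo {G : Type u} [Group G] (F : Type v) [Field F] (V L T : Subgroup G) where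
  pt : F → F → G
  τ : SpecialLinearGroup (Fin 2) F →* G
  memV : ∀ x, x ∈ V ↔ ∃ a b, pt a b = x
  inj : ∀ a b c d, pt a b = pt c d → a = c ∧ b = d
  mul : ∀ a b c d, pt a b * pt c d = pt (a + c) (b + d)
  memL : ∀ x, x ∈ L ↔ ∃ A, τ A = x
  injτ : Function.Injective τ
  act : ∀ A a b, τ A * pt a b * (τ A)⁻¹ = pt (A.1 0 0 * a + A.1 0 1 * b) (A.1 1 0 * a + A.1 1 1 * b)
  memT : ∀ x, x ∈ T ↔ ∃ t, τ (SpecialLinearGroup.transvection (zero_ne_one (α := Fin 2)) t) = x

theorem exists_natCo {G : Type u} [Group G] [Finite G] {p : ℕ} [Fact p.Prime] {F : Type v} [Field F]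
    [Fintype F] [CharP F p] (V L : Subgroup G) (hnat : Cfsg.IsNaturalSL2Module F V L)
    (hf : L ⊓ Subgroup.centralizer (V : Set G) = ⊥) (S : Sylow p ↥L) (T : Subgroup G)
    (hT : T = ((S : Subgroup ↥L).map L.subtype)) : Nonempty (NatCo F V L T) := by
  obtain ⟨hLN, ρ, ψ, hρ, hker, hact⟩ := hnat
  have hρi : Function.Injective ρ := by
    rw [← MonoidHom.ker_eq_bot_iff, hker, eq_bot_iff]
    intro x hx
    have : (x : G) ∈ L ⊓ Subgroup.centralizer (V : Set G) := ⟨x.2, hx⟩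
    rw [hf, Subgroup.mem_bot] at this
    exact Subtype.ext this
  let e : L ≃* SpecialLinearGroup (Fin 2) F := MulEquiv.ofBijective ρ ⟨hρi, hρ⟩
  obtain ⟨Q, hQ⟩ := H5.exists_sylow_lineStab0 (F := F) p
  obtain ⟨g, hg⟩ := MulAction.exists_smul_eq (SpecialLinearGroup (Fin 2) F) (S.mapSurjective hρ) Q
  have hmem : ∀ l : L, l ∈ (S : Subgroup L) ↔ ∃ t, g * ρ l * g⁻¹ =
      SpecialLinearGroup.transvection (zero_ne_one (α := Fin 2)) t := by
    intro l
    rw [← H5.mem_lineStab0_iff, ← hQ, ← hg, Sylow.coe_subgroup_smul, Sylow.coe_mapSurjective]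
    rw [Subgroup.mem_pointwise_smul_iff_inv_smul_mem]
    have : (MulAut.conj g)⁻¹ • (g * ρ l * g⁻¹) = ρ l := by
      rw [← map_inv, MulAut.smul_def, MulAut.conj_apply]; group
    rw [this, Subgroup.mem_map_iff_mem hρi]
  refine ⟨{ pt := fun a b => ((Additive.toMul (ψ.symm (g⁻¹ • ![a, b])) : V) : G)
            τ := (L.subtype.comp e.symm.toMonoidHom).comp (MulAut.conj g⁻¹).toMonoidHom
            memV := ?_
            inj := ?_
            mul := ?_
            memL := ?_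
            injτ := ?_
            act := ?_
            memT := ?_ }⟩
  · intro x
    constructor
    · intro hx
      refine ⟨(g • ψ (Additive.ofMul ⟨x, hx⟩)) 0, (g • ψ (Additive.ofMul ⟨x, hx⟩)) 1, ?_⟩
      have h1 : ![(g • ψ (Additive.ofMul ⟨x, hx⟩)) 0, (g • ψ (Additive.ofMul ⟨x, hx⟩)) 1] =
          g • ψ (Additive.ofMul ⟨x, hx⟩) := by
        ext i; fin_cases i <;> rfl
      rw [h1, inv_smul_smul, AddEquiv.symm_apply_apply]
      rfl
    · rintro ⟨a, b, rfl⟩
      exact (Additive.toMul (ψ.symm (g⁻¹ • ![a, b]))).2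
  · intro a b c d h
    have h1 := Subtype.ext h
    have h2 := ψ.symm.injective (Additive.toMul.injective h1)
    have h3 : ![a, b] = ![c, d] := MulAction.injective g⁻¹ h2
    exact ⟨congrFun h3 0, congrFun h3 1⟩
  · intro a b c d
    show ((Additive.toMul (ψ.symm (g⁻¹ • ![a, b])) : V) : G) *
      ((Additive.toMul (ψ.symm (g⁻¹ • ![c, d])) : V) : G) = _
    rw [← Subgroup.coe_mul, ← toMul_add, ← map_add, ← smul_add]
    have : ![a, b] + ![c, d] = ![a + c, b + d] := by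
      ext i; fin_cases i <;> rfl
    rw [this]
  · intro x
    constructor
    · intro hx
      refine ⟨g * ρ ⟨x, hx⟩ * g⁻¹, ?_⟩
      show ((e.symm (g⁻¹ * (g * ρ ⟨x, hx⟩ * g⁻¹) * g⁻¹⁻¹) : L) : G) = x
      have : g⁻¹ * (g * ρ ⟨x, hx⟩ * g⁻¹) * g⁻¹⁻¹ = e ⟨x, hx⟩ := by
        show _ = ρ ⟨x, hx⟩
        group
      rw [this, MulEquiv.symm_apply_apply]
    · rintro ⟨A, rfl⟩
      exact (e.symm (g⁻¹ * A * g⁻¹⁻¹)).2
  · exact (L.subtype_injective.comp e.symm.injective).comp (MulAut.conj g⁻¹).injective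
  · intro A a b
    set l : L := e.symm (g⁻¹ * A * g⁻¹⁻¹) with hl
    have hρl : ρ l = g⁻¹ * A * g⁻¹⁻¹ := e.apply_symm_apply _
    obtain ⟨w, hw, hψw⟩ := hact l (Additive.toMul (ψ.symm (g⁻¹ • ![a, b])))
    show (l : G) * _ * (l : G)⁻¹ = _
    rw [← hw]
    congr 1
    have h1 : Additive.ofMul w = ψ.symm (g⁻¹ • ![A.1 0 0 * a + A.1 0 1 * b, A.1 1 0 * a + A.1 1 1 * b]) := by
      rw [AddEquiv.eq_symm_apply, hψw, ofMul_toMul, AddEquiv.apply_symm_apply, ← H5.smul_eq_mulVec, hρl,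
        smul_smul, inv_inv, mul_inv_cancel_right, mul_smul]
      congr 1
      ext i
      rw [H5.smul_eq_mulVec]
      fin_cases i <;> simp [Matrix.mulVec, dotProduct, Fin.sum_univ_two]
    exact congrArg Additive.toMul h1
  · intro x
    rw [hT, Subgroup.mem_map]
    constructor
    · rintro ⟨l, hl, rfl⟩
      obtain ⟨t, ht⟩ := (hmem l).1 hl
      refine ⟨t, ?_⟩
      show ((e.symm (g⁻¹ * _ * g⁻¹⁻¹) : L) : G) = (l : G)
      rw [← ht]
      have : g⁻¹ * (g * ρ l * g⁻¹) * g⁻¹⁻¹ = e l := by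
        show _ = ρ l
        group
      rw [this, MulEquiv.symm_apply_apply]
    · rintro ⟨t, rfl⟩
      refine ⟨e.symm (g⁻¹ * SpecialLinearGroup.transvection (zero_ne_one (α := Fin 2)) t * g⁻¹⁻¹), ?_, rfl⟩
      rw [hmem]
      refine ⟨t, ?_⟩
      have : ρ (e.symm (g⁻¹ * SpecialLinearGroup.transvection (zero_ne_one (α := Fin 2)) t * g⁻¹⁻¹)) =
        g⁻¹ * SpecialLinearGroup.transvection (zero_ne_one (α := Fin 2)) t * g⁻¹⁻¹ := e.apply_symm_apply _
      rw [this]; group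

end Cfsg.Agent.H18
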