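import Cfsg.Agent.H18.NatSL2
import Cfsg.Agent.H10.PBal

/-!
# Natural `SL₂` modules: consequences (helper18)
-/

set_option autoImplicit false
set_option linter.style.haveILetI false
open Cfsg
open scoped commutatorElement Pointwise

namespace Cfsg.Agent.H18

universe u v

open Matrix

namespace NatCo

variable {G : Type u} [Group G] {F : Type v} [Field F] {V L T : Subgroup G} (D : NatCo F V L T)

include D

theorem pt_zero : D.pt 0 0 = 1 := by
  have := D.mul 0 0 0 0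
  rw [add_zero] at this
  exact mul_eq_left.1 this

theorem pt_inv (a b : F) : (D.pt a b)⁻¹ = D.pt (-a) (-b) := by
  rw [inv_eq_iff_mul_eq_one, D.mul, add_neg_cancel, add_neg_cancel, D.pt_zero]

theorem pt_mem (a b : F) : D.pt a b ∈ V := (D.memV _).2 ⟨a, b, rfl⟩

/-- transvections -/
def tr (t : F) : G := D.τ (SpecialLinearGroup.transvection (zero_ne_one (α := Fin 2)) t)

theorem tr_mem (t : F) : D.tr t ∈ T := (D.memT _).2 ⟨t, rfl⟩

theorem tr_act (t a b : F) : D.tr t * D.pt a b * (D.tr t)⁻¹ = D.pt (a + t * b) b := by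
  unfold tr
  rw [D.act]
  congr 1 <;> simp [SpecialLinearGroup.transvection_coe, Matrix.transvection]

theorem tr_zero : D.tr 0 = 1 := by
  unfold tr
  rw [SpecialLinearGroup.transvection_coeff_zero, map_one]

theorem commV {x y : G} (hx : x ∈ V) (hy : y ∈ V) : x * y = y * x := by
  obtain ⟨a, b, rfl⟩ := (D.memV x).1 hx
  obtain ⟨c, d, rfl⟩ := (D.memV y).1 hy
  rw [D.mul, D.mul, add_comm a, add_comm b]

theorem T_le_L : T ≤ L := by
  intro x hx
  obtain ⟨t, rfl⟩ := (D.memT x).1 hx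
  exact (D.memL _).2 ⟨_, rfl⟩

theorem mem_cent_tr {t : F} (ht : t ≠ 0) {a b : F} :
    D.pt a b ∈ Subgroup.centralizer ({D.tr t} : Set G) ↔ b = 0 := by
  rw [Subgroup.mem_centralizer_singleton_iff]
  constructor
  · intro h
    have h1 := D.tr_act t a b
    rw [← h, mul_inv_cancel_right] at h1
    have h2 := (D.inj _ _ _ _ h1).1
    have h3 : t * b = 0 := by linear_combination -h2
    exact (mul_eq_zero.1 h3).resolve_left ht
  · rintro rfl
    have h1 := D.tr_act t a 0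
    rw [mul_zero, add_zero, mul_inv_eq_iff_eq_mul] at h1
    exact h1.symm

theorem mem_cent_T {a b : F} :
    D.pt a b ∈ Subgroup.centralizer (T : Set G) ↔ b = 0 := by
  constructor
  · intro h
    rw [← D.mem_cent_tr one_ne_zero (a := a)]
    exact Subgroup.centralizer_le (Set.singleton_subset_iff.2 (D.tr_mem 1)) h
  · rintro rfl
    rw [Subgroup.mem_centralizer_iff]
    intro x hx
    obtain ⟨t, rfl⟩ := (D.memT x).1 hx
    have h1 := D.tr_act t a 0
    rw [mul_zero, add_zero, mul_inv_eq_iff_eq_mul] at h1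
    exact h1

theorem mem_CV {x : G} : x ∈ V ⊓ Subgroup.centralizer (T : Set G) ↔ ∃ a, D.pt a 0 = x := by
  rw [Subgroup.mem_inf]
  constructor
  · rintro ⟨h1, h2⟩
    obtain ⟨a, b, rfl⟩ := (D.memV x).1 h1
    rw [D.mem_cent_T] at h2
    exact ⟨a, by rw [h2]⟩
  · rintro ⟨a, rfl⟩
    exact ⟨D.pt_mem a 0, D.mem_cent_T.2 rfl⟩

theorem card_V [Finite G] : Nat.card V = Nat.card F ^ 2 := by
  rw [pow_two, ← Nat.card_prod]
  refine (Nat.card_congr (Equiv.ofBijective (fun t : F × F => (⟨D.pt t.1 t.2, D.pt_mem _ _⟩ : V)) ⟨?_, ?_⟩)).symm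
  · rintro ⟨a, b⟩ ⟨c, d⟩ h
    obtain ⟨h1, h2⟩ := D.inj _ _ _ _ (congrArg Subtype.val h)
    exact Prod.ext h1 h2
  · rintro ⟨x, hx⟩
    obtain ⟨a, b, rfl⟩ := (D.memV x).1 hx
    exact ⟨(a, b), rfl⟩

theorem card_CV [Finite G] : Nat.card ↥(V ⊓ Subgroup.centralizer (T : Set G)) = Nat.card F := by
  refine (Nat.card_congr (Equiv.ofBijective (fun t : F => (⟨D.pt t 0, D.mem_CV.2 ⟨t, rfl⟩⟩ :
    ↥(V ⊓ Subgroup.centralizer (T : Set G)))) ⟨?_, ?_⟩)).symm
  · intro a c h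
    exact (D.inj _ _ _ _ (congrArg Subtype.val h)).1
  · rintro ⟨x, hx⟩
    obtain ⟨a, rfl⟩ := D.mem_CV.1 hx
    exact ⟨a, rfl⟩

theorem comm_pt_tr (a b t : F) : ⁅D.pt a b, D.tr t⁆ = D.pt (-(t * b)) 0 := by
  rw [commutatorElement_def]
  have h1 : D.pt a b * D.tr t * (D.pt a b)⁻¹ * (D.tr t)⁻¹ =
      D.pt a b * (D.tr t * (D.pt a b)⁻¹ * (D.tr t)⁻¹) := by group
  rw [h1, D.pt_inv, D.tr_act, D.mul]
  congr 1 <;> ring

theorem comm_V_T_le : ⁅V, T⁆ ≤ V ⊓ Subgroup.centralizer (T : Set G) := by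
  rw [Subgroup.commutator_le]
  intro x hx y hy
  obtain ⟨a, b, rfl⟩ := (D.memV x).1 hx
  obtain ⟨t, rfl⟩ := (D.memT y).1 hy
  exact D.mem_CV.2 ⟨_, (D.comm_pt_tr a b t).symm⟩

theorem comm_V_T_T : ⁅⁅V, T⁆, T⁆ = ⊥ := by
  rw [Subgroup.commutator_eq_bot_iff_le_centralizer]
  exact D.comm_V_T_le.trans inf_le_right

theorem le_comm_V_zpowers {s : G} (hs : s ∈ T) (hs1 : s ≠ 1) :
    V ⊓ Subgroup.centralizer (T : Set G) ≤ ⁅V, Subgroup.zpowers s⁆ := by
  intro x hx
  obtain ⟨a, rfl⟩ := D.mem_CV.1 hx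
  obtain ⟨t, rfl⟩ := (D.memT s).1 hs
  have ht : t ≠ 0 := by
    rintro rfl
    exact hs1 D.tr_zero
  have h1 := D.comm_pt_tr 0 (-(a / t)) t
  have h2 : -(t * -(a / t)) = a := by field_simp
  rw [h2] at h1
  rw [← h1]
  exact Subgroup.commutator_mem_commutator (D.pt_mem _ _) (Subgroup.mem_zpowers _)

theorem closure_eq {v : G} (hv : v ∈ V) (hvT : v ∉ Subgroup.centralizer (T : Set G)) :
    Subgroup.closure {x : G | ∃ t ∈ T, x = v * t * v⁻¹ * t⁻¹} = V ⊓ Subgroup.centralizer (T : Set G) := by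
  obtain ⟨a, b, rfl⟩ := (D.memV v).1 hv
  rw [D.mem_cent_T] at hvT
  apply le_antisymm
  · rw [Subgroup.closure_le]
    rintro _ ⟨y, hy, rfl⟩
    obtain ⟨t, rfl⟩ := (D.memT y).1 hy
    exact D.mem_CV.2 ⟨_, (D.comm_pt_tr a b t).symm⟩
  · intro x hx
    obtain ⟨c, rfl⟩ := D.mem_CV.1 hx
    apply Subgroup.subset_closure
    refine ⟨D.tr (-(c / b)), D.tr_mem _, ?_⟩
    have h1 := D.comm_pt_tr a b (-(c / b))
    have h2 : -(-(c / b) * b) = c := by field_simp
    rw [h2] at h1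
    exact h1.symm

/-- the diagonal element -/
theorem diag_normalizes [Finite G] {A : SpecialLinearGroup (Fin 2) F} (hA : A.1 1 0 = 0) :
    D.τ A ∈ Subgroup.normalizer (T : Set G) := by
  have hdet : A.1 0 0 * A.1 1 1 - A.1 0 1 * A.1 1 0 = 1 := by
    rw [← Matrix.det_fin_two]; exact A.2
  rw [hA, mul_zero, sub_zero] at hdet
  have key : ∀ (B : SpecialLinearGroup (Fin 2) F), B.1 1 0 = 0 → ∀ x ∈ T, D.τ B * x * (D.τ B)⁻¹ ∈ T := by
    intro B hB x hx
    obtain ⟨t, rfl⟩ := (D.memT x).1 hx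
    have hdetB : B.1 0 0 * B.1 1 1 - B.1 0 1 * B.1 1 0 = 1 := by
      rw [← Matrix.det_fin_two]; exact B.2
    rw [hB, mul_zero, sub_zero] at hdetB
    rw [D.memT]
    refine ⟨B.1 0 0 * B.1 0 0 * t, ?_⟩
    rw [← map_inv, ← map_mul, ← map_mul]
    congr 1
    rw [eq_mul_inv_iff_mul_eq]
    apply H5.SL_ext
    show ((1 : Matrix (Fin 2) (Fin 2) F) + Matrix.single 0 1 (B.1 0 0 * B.1 0 0 * t)) * B.1 =
      B.1 * ((1 : Matrix (Fin 2) (Fin 2) F) + Matrix.single 0 1 t)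
    ext i j
    fin_cases i <;> fin_cases j <;>
      simp [Matrix.mul_apply, Fin.sum_univ_two, hB]
    linear_combination (B.1 0 0 * t) * hdetB
  exact H10.mem_normalizer_of_conj_le fun x hx => key A hA x hx

theorem isInternal [Finite G] (g : G) (hg : g ∈ L) (hgT : g ∉ Subgroup.normalizer (T : Set G)) :
    Cfsg.IsInternalDirectProduct (V ⊓ Subgroup.centralizer ((T : Subgroup G) : Set G))
      (V ⊓ Subgroup.centralizer ((T.map (MulAut.conj g).toMonoidHom : Subgroup G) : Set G)) V := by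
  obtain ⟨A, rfl⟩ := (D.memL g).1 hg
  have hA : A.1 1 0 ≠ 0 := fun h => hgT (D.diag_normalizes h)
  have hdet : A.1 0 0 * A.1 1 1 - A.1 0 1 * A.1 1 0 = 1 := by
    rw [← Matrix.det_fin_two]; exact A.2
  have hmem : ∀ x, x ∈ V ⊓ Subgroup.centralizer ((T.map (MulAut.conj (D.τ A)).toMonoidHom : Subgroup G) : Set G) ↔
      ∃ c, D.pt (A.1 0 0 * c) (A.1 1 0 * c) = x := by
    intro x
    have hVn : ∀ (B : SpecialLinearGroup (Fin 2) F) (x : G), x ∈ V → D.τ B * x * (D.τ B)⁻¹ ∈ V := by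
      intro B x hx
      obtain ⟨a, b, rfl⟩ := (D.memV x).1 hx
      rw [D.act]; exact D.pt_mem _ _
    have h1 : x ∈ V ⊓ Subgroup.centralizer ((T.map (MulAut.conj (D.τ A)).toMonoidHom : Subgroup G) : Set G) ↔
        (D.τ A)⁻¹ * x * D.τ A ∈ V ⊓ Subgroup.centralizer (T : Set G) := by
      rw [Subgroup.mem_inf, Subgroup.mem_inf]
      constructor
      · rintro ⟨hx1, hx2⟩
        refine ⟨?_, ?_⟩
        · have := hVn A⁻¹ x hx1
          rwa [map_inv, inv_inv] at this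
        · rw [Subgroup.mem_centralizer_iff] at hx2 ⊢
          intro t ht
          have h2 : D.τ A * t * (D.τ A)⁻¹ * x = x * (D.τ A * t * (D.τ A)⁻¹) :=
            hx2 (D.τ A * t * (D.τ A)⁻¹) ⟨t, ht, rfl⟩
          calc t * ((D.τ A)⁻¹ * x * D.τ A) = (D.τ A)⁻¹ * (D.τ A * t * (D.τ A)⁻¹ * x) * D.τ A := by group
            _ = (D.τ A)⁻¹ * (x * (D.τ A * t * (D.τ A)⁻¹)) * D.τ A := by rw [h2]
            _ = (D.τ A)⁻¹ * x * D.τ A * t := by group
      · rintro ⟨hx1, hx2⟩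
        refine ⟨?_, ?_⟩
        · have := hVn A _ hx1
          have e : D.τ A * ((D.τ A)⁻¹ * x * D.τ A) * (D.τ A)⁻¹ = x := by group
          rwa [e] at this
        · rw [Subgroup.mem_centralizer_iff] at hx2 ⊢
          rintro _ ⟨t, ht, rfl⟩
          have h2 := hx2 t ht
          show D.τ A * t * (D.τ A)⁻¹ * x = x * (D.τ A * t * (D.τ A)⁻¹)
          calc D.τ A * t * (D.τ A)⁻¹ * x = D.τ A * (t * ((D.τ A)⁻¹ * x * D.τ A)) * (D.τ A)⁻¹ := by group
            _ = D.τ A * ((D.τ A)⁻¹ * x * D.τ A * t) * (D.τ A)⁻¹ := by rw [h2]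
            _ = x * (D.τ A * t * (D.τ A)⁻¹) := by group
    rw [h1, D.mem_CV]
    constructor
    · rintro ⟨a, ha⟩
      refine ⟨a, ?_⟩
      have h2 := D.act A a 0
      rw [ha, mul_zero, mul_zero, add_zero, add_zero] at h2
      rw [← h2]; group
    · rintro ⟨c, rfl⟩
      refine ⟨c, ?_⟩
      have h2 := D.act A c 0
      rw [mul_zero, mul_zero, add_zero, add_zero] at h2
      rw [← h2]; group
  refine ⟨inf_le_left, inf_le_left, fun a ha b hb => D.commV (Subgroup.mem_inf.1 ha).1 (Subgroup.mem_inf.1 hb).1, ?_, ?_⟩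
  · rw [eq_bot_iff]
    intro x hx
    obtain ⟨h1, h2⟩ := Subgroup.mem_inf.1 hx
    obtain ⟨a, rfl⟩ := D.mem_CV.1 h1
    obtain ⟨c, hc⟩ := (hmem _).1 h2
    obtain ⟨h3, h4⟩ := D.inj _ _ _ _ hc
    have h5 : c = 0 := (mul_eq_zero.1 h4).resolve_left hA
    rw [h5, mul_zero] at h3
    rw [← h3, D.pt_zero]
    exact Subgroup.one_mem _
  · apply le_antisymm (sup_le inf_le_left inf_le_left)
    intro x hx
    obtain ⟨a, b, rfl⟩ := (D.memV x).1 hx
    have h1 : D.pt a b = D.pt (a - A.1 0 0 * (b / A.1 1 0)) 0 * D.pt (A.1 0 0 * (b / A.1 1 0)) (A.1 1 0 * (b / A.1 1 0)) := by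
      rw [D.mul]
      congr 1
      · ring
      · field_simp
        ring
    rw [h1]
    exact Subgroup.mul_mem_sup (D.mem_CV.2 ⟨_, rfl⟩) ((hmem _).2 ⟨_, rfl⟩)

theorem fixedfree {p : ℕ} [CharP F p] (x : G) (hx : x ∈ L) (hx1 : x ≠ 1) (hxp : (orderOf x).Coprime p) :
    V ⊓ Subgroup.centralizer ({x} : Set G) = ⊥ := by
  obtain ⟨A, rfl⟩ := (D.memL x).1 hx
  rw [eq_bot_iff]
  intro y hy
  obtain ⟨hy1, hy2⟩ := Subgroup.mem_inf.1 hy
  obtain ⟨a, b, rfl⟩ := (D.memV y).1 hy1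
  rw [Subgroup.mem_centralizer_singleton_iff] at hy2
  have h1 := D.act A a b
  rw [← hy2, mul_inv_cancel_right] at h1
  obtain ⟨h2, h3⟩ := D.inj _ _ _ _ h1
  have hdet : A.1 0 0 * A.1 1 1 - A.1 0 1 * A.1 1 0 = 1 := by
    rw [← Matrix.det_fin_two]; exact A.2
  by_contra hne
  rw [Subgroup.mem_bot] at hne
  have hab : a ≠ 0 ∨ b ≠ 0 := by
    by_contra hcon
    push Not at hcon
    exact hne (by rw [hcon.1, hcon.2, D.pt_zero])
  have htr : A.1 0 0 + A.1 1 1 = 2 := by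
    have e1 : (A.1 0 0 - 1) * a + A.1 0 1 * b = 0 := by linear_combination -h2
    have e2 : A.1 1 0 * a + (A.1 1 1 - 1) * b = 0 := by linear_combination -h3
    have e3 : (A.1 0 0 + A.1 1 1 - 2) * a = 0 := by
      linear_combination (-(A.1 1 1 - 1)) * e1 + (A.1 0 1) * e2 + a * hdet
    have e4 : (A.1 0 0 + A.1 1 1 - 2) * b = 0 := by
      linear_combination (A.1 1 0) * e1 + (-(A.1 0 0 - 1)) * e2 + b * hdet
    rcases hab with h | h
    · have := (mul_eq_zero.1 e3).resolve_right h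
      linear_combination this
    · have := (mul_eq_zero.1 e4).resolve_right h
      linear_combination this
  set B : Matrix (Fin 2) (Fin 2) F := A.1 - 1 with hB
  have hBB : B * B = 0 := by
    ext i j
    fin_cases i <;> fin_cases j <;> simp [hB, Matrix.mul_apply, Fin.sum_univ_two]
    · linear_combination (A.1 0 0) * htr - hdet
    · linear_combination (A.1 0 1) * htr
    · linear_combination (A.1 1 0) * htr
    · linear_combination (A.1 1 1) * htr - hdet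
  have hA' : A.1 = 1 + B := by rw [hB]; abel
  have hpow : ∀ k : ℕ, (1 + B) ^ k = 1 + (k : F) • B := by
    intro k
    induction k with
    | zero => simp
    | succ k ih =>
      rw [pow_succ, ih]
      rw [mul_add, mul_one, add_mul, one_mul, Matrix.smul_mul, hBB, smul_zero, add_zero]
      push_cast
      rw [add_smul, one_smul, add_assoc]
  have hAp : A ^ p = 1 := by
    apply H5.SL_ext
    have h6 := hpow p
    rw [← hA'] at h6
    refine h6.trans ?_
    rw [CharP.cast_eq_zero, zero_smul, add_zero]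
    rfl
  have h4 : orderOf (D.τ A) ∣ p := by
    apply orderOf_dvd_of_pow_eq_one
    rw [← map_pow, hAp, map_one]
  have h5 := Nat.eq_one_of_dvd_coprimes hxp dvd_rfl h4
  exact hx1 (orderOf_eq_one_iff.1 h5)

/-- diagonal matrices -/
theorem exists_diag [Finite G] (c : F) (hc : c ≠ 0) : ∃ g ∈ L ⊓ Subgroup.normalizer (T : Set G),
    ∀ a b, g * D.pt a b * g⁻¹ = D.pt (c * a) (c⁻¹ * b) := by
  let A : SpecialLinearGroup (Fin 2) F := ⟨!![c, 0; 0, c⁻¹], by
    rw [Matrix.det_fin_two_of, mul_inv_cancel₀ hc]; ring⟩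
  refine ⟨D.τ A, ⟨(D.memL _).2 ⟨A, rfl⟩, D.diag_normalizes rfl⟩, ?_⟩
  intro a b
  rw [D.act]
  congr 1 <;> simp [A]

theorem irr1 [Finite G] (U : Subgroup G) (hU : U ≤ V ⊓ Subgroup.centralizer (T : Set G))
    (hn : L ⊓ Subgroup.normalizer (T : Set G) ≤ Subgroup.normalizer (U : Set G)) :
    U = ⊥ ∨ U = V ⊓ Subgroup.centralizer (T : Set G) := by
  by_cases h : U = ⊥
  · left; exact h
  · right
    apply le_antisymm hU
    obtain ⟨⟨x, hx⟩, hx1⟩ := (Subgroup.ne_bot_iff_exists_ne_one).1 h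
    obtain ⟨a, rfl⟩ := D.mem_CV.1 (hU hx)
    have ha : a ≠ 0 := by
      rintro rfl
      exact hx1 (Subtype.ext D.pt_zero)
    intro y hy
    obtain ⟨b, rfl⟩ := D.mem_CV.1 hy
    by_cases hb : b = 0
    · rw [hb, D.pt_zero]; exact U.one_mem
    · obtain ⟨g, hg, hgact⟩ := D.exists_diag (b / a) (div_ne_zero hb ha)
      have h1 := (Subgroup.mem_normalizer_iff.1 (hn hg) (D.pt a 0)).1 hx
      rw [hgact, mul_zero, div_mul_cancel₀ _ ha] at h1
      exact h1

theorem irr2 [Finite G] (U : Subgroup G) (hU : V ⊓ Subgroup.centralizer (T : Set G) ≤ U) (hUV : U ≤ V)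
    (hn : L ⊓ Subgroup.normalizer (T : Set G) ≤ Subgroup.normalizer (U : Set G)) :
    U = V ⊓ Subgroup.centralizer (T : Set G) ∨ U = V := by
  by_cases h : U ≤ V ⊓ Subgroup.centralizer (T : Set G)
  · left; exact le_antisymm h hU
  · right
    apply le_antisymm hUV
    rw [SetLike.not_le_iff_exists] at h
    obtain ⟨x, hx, hx1⟩ := h
    obtain ⟨a, b, rfl⟩ := (D.memV x).1 (hUV hx)
    have hb : b ≠ 0 := by
      rintro rfl
      exact hx1 (D.mem_CV.2 ⟨a, rfl⟩)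
    have h0 : ∀ c, D.pt c 0 ∈ U := fun c => hU (D.mem_CV.2 ⟨c, rfl⟩)
    intro y hy
    obtain ⟨c, d, rfl⟩ := (D.memV y).1 hy
    by_cases hd : d = 0
    · rw [hd]; exact h0 c
    · obtain ⟨g, hg, hgact⟩ := D.exists_diag (b / d) (div_ne_zero hb hd)
      have h1 := (Subgroup.mem_normalizer_iff.1 (hn hg) (D.pt a b)).1 hx
      rw [hgact, inv_div, div_mul_cancel₀ _ hb] at h1
      have h2 := U.mul_mem (h0 (c - b / d * a)) h1
      rw [D.mul, zero_add, sub_add_cancel] at h2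
      exact h2

end NatCo

end Cfsg.Agent.H18
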