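import Cfsg.Agent.S1458
import Cfsg.Agent.L.SecTC
import Cfsg.Agent.H18.CN6

/-!
# Minimal simple groups of odd order: `N_G(Z(J(P)))` has no nontrivial `p`-quotient
-/

set_option autoImplicit false
set_option linter.all false

namespace Cfsg.Agent.H18

open Cfsg Subgroup
open scoped Pointwise commutatorElement

universe u v

/-- the functor `Z(J(-))` -/
noncomputable def ZJW (p : ℕ) : ∀ (Q : Type u) [Group Q], Subgroup Q := fun Q _ => centerThompsonOf p (⊤ : Subgroup Q)

theorem induced_ZJW {G : Type u} [Group G] (p : ℕ) (P : Subgroup G) :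
    inducedFunctor (ZJW.{u} p) P = centerThompsonOf p P := by
  have h1 := H2.centerThompsonOf_map_of_injOn (p := p) (U := (⊤ : Subgroup P)) (f := P.subtype)
    (P.subtype_injective.comp (Subgroup.subtype_injective _))
  have h2 : (⊤ : Subgroup P).map P.subtype = P := by
    rw [← MonoidHom.range_eq_map, Subgroup.range_subtype]
  rw [h2] at h1
  exact h1.symm

theorem ZJW_isCharP (p : ℕ) [Fact p.Prime] : IsCharPFunctor.{u} p (ZJW p) := by
  constructor
  · intro Q _ _ hQ hnt
    have h1 : p ∣ Nat.card (⊤ : Subgroup Q) := by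
      rw [Subgroup.card_top]
      obtain ⟨n, hn⟩ := IsPGroup.iff_card.1 hQ
      rw [hn]
      refine dvd_pow_self p ?_
      rintro rfl
      rw [pow_zero] at hn
      have := Finite.one_lt_card (α := Q)
      omega
    have h2 := H2.thompsonSubgroupOf_ne_bot (p := p) h1
    exact cent_ne_bot_of_nil (hQ.to_subgroup _).isNilpotent h2
  · intro Q R _ _ _ hQ φ
    have h1 := H2.centerThompsonOf_map_of_injOn (p := p) (U := (⊤ : Subgroup Q)) (f := φ.toMonoidHom)
      (φ.injective.comp (Subgroup.subtype_injective _))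
    have h2 : (⊤ : Subgroup Q).map φ.toMonoidHom = ⊤ := by
      rw [← MonoidHom.range_eq_map, MonoidHom.range_eq_top.2 φ.surjective]
    rw [h2] at h1
    exact h1.symm

variable {G : Type u} [Group G] [Finite G]

theorem solvable_section (hG : IsMinSimpleOddOrder G) {p : ℕ} [Fact p.Prime] (K R : Subgroup G)
    [hR : (R.subgroupOf K).Normal] (hc : centralizer (pCore p (↥K ⧸ R.subgroupOf K) : Set (↥K ⧸ R.subgroupOf K))
      ≤ pCore p (↥K ⧸ R.subgroupOf K)) : Group.IsSolvable (↥K ⧸ R.subgroupOf K) := by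
  by_cases hK : K = ⊤
  · subst hK
    have e : (↥(⊤ : Subgroup G)) ≃* G := Subgroup.topEquiv
    haveI : IsSimpleGroup (↥(⊤ : Subgroup G)) := by
      haveI := OOT.isSimple hG
      exact e.isSimpleGroup
    rcases hR.eq_bot_or_eq_top with h | h
    · -- `X ≅ G`
      have e2 : (↥(⊤ : Subgroup G) ⧸ R.subgroupOf ⊤) ≃* G :=
        ((QuotientGroup.quotientMulEquivOfEq h).trans QuotientGroup.quotientBot).trans e
      haveI : IsSimpleGroup (↥(⊤ : Subgroup G) ⧸ R.subgroupOf ⊤) := by
        haveI := OOT.isSimple hG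
        exact e2.isSimpleGroup
      exfalso
      rcases (H1.pCore_normal p (↥(⊤ : Subgroup G) ⧸ R.subgroupOf ⊤)).eq_bot_or_eq_top with h1 | h1
      · rw [h1] at hc
        have h2 : (⊤ : Subgroup (↥(⊤ : Subgroup G) ⧸ R.subgroupOf ⊤)) ≤ ⊥ := by
          refine le_trans ?_ hc
          intro x _
          rw [mem_centralizer_iff]
          intro y hy
          rw [SetLike.mem_coe, mem_bot] at hy
          rw [hy]; simp
        exact absurd (le_bot_iff.1 h2) (top_ne_bot)
      · have h2 : IsPGroup p (⊤ : Subgroup (↥(⊤ : Subgroup G) ⧸ R.subgroupOf ⊤)) := by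
          rw [← h1]; exact H1.pCore_isPGroup p _
        have h3 : IsPGroup p G := (h2.of_equiv Subgroup.topEquiv).of_equiv e2
        haveI := h3.isNilpotent
        exact OOT.not_solvable hG inferInstance
    · haveI : Subsingleton (↥(⊤ : Subgroup G) ⧸ R.subgroupOf ⊤) := QuotientGroup.subsingleton_iff.2 h
      infer_instance
  · haveI := OOT.sol hG hK
    infer_instance

theorem ZJW_normal (hG : IsMinSimpleOddOrder G) {p : ℕ} [Fact p.Prime] (K R : Subgroup G)
    [hR : (R.subgroupOf K).Normal] (hc : centralizer (pCore p (↥K ⧸ R.subgroupOf K) : Set (↥K ⧸ R.subgroupOf K))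
      ≤ pCore p (↥K ⧸ R.subgroupOf K)) (T : Sylow p (↥K ⧸ R.subgroupOf K)) :
    (inducedFunctor (ZJW p) (T : Subgroup (↥K ⧸ R.subgroupOf K))).Normal := by
  haveI := solvable_section hG K R hc
  have hodd : Odd (Nat.card (↥K ⧸ R.subgroupOf K)) := by
    have h1 : Nat.card (↥K ⧸ R.subgroupOf K) ∣ Nat.card K := Subgroup.index_dvd_card _
    exact (OOT.odd_sub hG K).of_dvd_nat h1
  have h1 := S1458.result hodd p T
  have h2 : pPrimeCore p (↥K ⧸ R.subgroupOf K) = ⊥ := by
    have h3 := H1.pCore_commute_pPrimeCore (G := (↥K ⧸ R.subgroupOf K)) p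
    have h4 : pPrimeCore p (↥K ⧸ R.subgroupOf K) ≤ pCore p (↥K ⧸ R.subgroupOf K) :=
      (H21.le_cent_comm.1 h3).trans hc
    have h5 := H1.pCore_inf_pPrimeCore (G := (↥K ⧸ R.subgroupOf K)) p
    rw [eq_bot_iff, ← h5]
    exact le_inf h4 le_rfl
  rw [h2, sup_bot_eq] at h1
  rw [induced_ZJW]
  exact h1

/-- `N_G(Z(J(S)))` contains `S` in its derived subgroup. -/
theorem odd_simple_focal (hG : IsMinSimpleOddOrder G) {p : ℕ} [Fact p.Prime] {S : Subgroup G}
    (hS : L.SylIn p S ⊤) : S ≤ ⁅normalizer ((centerThompsonOf p S : Subgroup G) : Set G),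
      normalizer ((centerThompsonOf p S : Subgroup G) : Set G)⁆ := by
  have h𝓦 : ∀ W' ∈ ({ZJW p} : Set (∀ (Q : Type u) [Group Q], Subgroup Q)), IsCharPFunctor.{u} p W' := by
    intro W' hW'; rw [Set.mem_singleton_iff] at hW'; subst hW'; exact ZJW_isCharP p
  have h1 : L.TC p {ZJW.{u} p} G := by
    refine L.tc_of_sections h𝓦 (G := G) ?_ G (L.inv_refl G)
    intro K R hR hc hsub hquot
    obtain ⟨T⟩ : Nonempty (Sylow p (↥K ⧸ R.subgroupOf K)) := inferInstance
    refine L.tc_of_core (ZJW_isCharP p) hsub hquot hc T ?_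
    have h2 := ZJW_normal hG K R hc T
    have h3 : L.nz (inducedFunctor (ZJW p) (T : Subgroup (↥K ⧸ R.subgroupOf K))) = ⊤ :=
      Subgroup.normalizer_eq_top_iff.2 h2
    rw [h3]
    exact inf_le_right
  have h2 := (L.tc_iff h𝓦 hS).1 h1
  have h3 : ⁅(⊤ : Subgroup G), (⊤ : Subgroup G)⁆ = ⊤ := by
    haveI := OOT.isSimple hG
    rcases IsSimpleGroup.eq_bot_or_eq_top_of_normal (⁅(⊤ : Subgroup G), (⊤ : Subgroup G)⁆) inferInstance with h | h
    · exfalso
      apply OOT.not_solvable hG
      apply Group.isSolvable_of_comm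
      intro a b
      have h4 : ⁅a, b⁆ ∈ ⁅(⊤ : Subgroup G), (⊤ : Subgroup G)⁆ := Subgroup.commutator_mem_commutator (Subgroup.mem_top a) (Subgroup.mem_top b)
      rw [h, Subgroup.mem_bot, commutatorElement_eq_one_iff_mul_comm] at h4
      exact h4
    · exact h
  rw [h3, inf_top_eq] at h2
  refine h2.trans ?_
  rw [L.K0]
  refine iSup₂_le ?_
  rintro _ ⟨W, hW, rfl⟩
  rw [Set.mem_singleton_iff] at hW
  subst hW
  show S ⊓ ⁅L.nz (inducedFunctor (ZJW p) S), L.nz (inducedFunctor (ZJW p) S)⁆ ≤ _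
  rw [induced_ZJW]
  exact inf_le_right

end Cfsg.Agent.H18
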