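import Mathlib
import Cfsg.Agent.H18.Zsig

set_option autoImplicit false

namespace Cfsg.Agent.H18.Zsig

open Polynomial

/-- primitive part -/
theorem prim_part {n a : ℕ} (ha : 1 < a) (hn : 2 < n) :
    ∃ m, m ∣ a ^ n - 1 ∧ (∀ i, 1 ≤ i → i < n → Nat.Coprime m (a ^ i - 1)) ∧
      (m = Phi n a ∨ ∃ r, r.Prime ∧ r ∣ n ∧ Phi n a = r * m) := by
  have hdv := Phi_dvd (n := n) ha
  by_cases h : ∃ r, r.Prime ∧ r ∣ n ∧ r ∣ Phi n a
  · obtain ⟨r, hr, hrn, hrP⟩ := h
    obtain ⟨m, hm⟩ := hrP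
    refine ⟨m, (Dvd.intro_left r hm.symm).trans hdv, ?_, Or.inr ⟨r, hr, hrn, hm⟩⟩
    intro i hi hin
    rw [Nat.coprime_iff_gcd_eq_one]
    by_contra hg
    obtain ⟨s, hs, hsd⟩ := Nat.exists_prime_and_dvd hg
    have hsm : s ∣ m := hsd.trans (Nat.gcd_dvd_left _ _)
    have hsi : s ∣ a ^ i - 1 := hsd.trans (Nat.gcd_dvd_right _ _)
    have hsP : s ∣ Phi n a := by rw [hm]; exact hsm.mul_left r
    by_cases hsn : s ∣ n
    · -- s = r
      have hle : ∀ s r : ℕ, s.Prime → r.Prime → s ∣ n → r ∣ n → r ∣ Phi n a → s ≤ r := by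
        intro s r hs hr hsn hrn hrP
        obtain ⟨α, m, he, -, hm1, -, -⟩ := dvd_case ha (by omega) hr hrP hrn
        rw [he, hs.dvd_mul] at hsn
        rcases hsn with h2 | h2
        · exact ((Nat.prime_dvd_prime_iff_eq hs hr).1 (hs.dvd_of_dvd_pow h2)).le
        · have h3 := Nat.le_of_dvd (by have := hr.two_le; omega) (h2.trans hm1)
          omega
      have hsr : s = r := le_antisymm (hle s r hs hr hsn hrn (by rw [hm]; exact dvd_mul_right r m))
        (hle r s hr hs hrn hsn hsP)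
      apply not_sq_dvd ha hn hr (by rw [hm]; exact dvd_mul_right r m) hrn
      rw [hm, sq]
      exact mul_dvd_mul_left r (hsr ▸ hsm)
    · exact primitive_of_not_dvd ha (by omega) hs hsP hsn i hi hin hsi
  · push Not at h
    refine ⟨Phi n a, hdv, ?_, Or.inl rfl⟩
    intro i hi hin
    rw [Nat.coprime_iff_gcd_eq_one]
    by_contra hg
    obtain ⟨s, hs, hsd⟩ := Nat.exists_prime_and_dvd hg
    have hsP : s ∣ Phi n a := hsd.trans (Nat.gcd_dvd_left _ _)
    have hsi : s ∣ a ^ i - 1 := hsd.trans (Nat.gcd_dvd_right _ _)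
    exact primitive_of_not_dvd ha (by omega) hs hsP (fun h' => h s hs h' hsP) i hi hin hsi

theorem sq_le_odd (n : ℕ) : ¬ 2 ∣ n → n ≤ n.totient ^ 2 := by
  induction n using Nat.recOnPosPrimePosCoprime with
  | prime_pow p k hp hk =>
    intro h2
    have hp2 : p ≠ 2 := by
      rintro rfl; exact h2 (dvd_pow_self 2 hk.ne')
    have hp3 : 3 ≤ p := by have := hp.two_le; omega
    rw [Nat.totient_prime_pow hp hk]
    obtain ⟨j, rfl⟩ : ∃ j, k = j + 1 := ⟨k - 1, by omega⟩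
    obtain ⟨t, rfl⟩ : ∃ t, p = t + 3 := ⟨p - 3, by omega⟩
    have e1 : t + 3 - 1 = t + 2 := rfl
    have e2 : j + 1 - 1 = j := rfl
    rw [e1, e2]
    calc (t + 3) ^ (j + 1) = (t + 3) ^ j * (t + 3) := pow_succ _ _
      _ ≤ ((t + 3) ^ j * (t + 3) ^ j) * ((t + 2) ^ 2) := by
        apply Nat.mul_le_mul
        · exact Nat.le_mul_of_pos_right _ (by positivity)
        · nlinarith
      _ = _ := by ring
  | zero => intro h; simp at h
  | one => intro _; simp
  | coprime a b ha hb hab iha ihb =>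
    intro h
    rw [Nat.totient_mul hab, mul_pow]
    exact Nat.mul_le_mul (iha (fun h' => h (h'.mul_right b))) (ihb (fun h' => h (h'.mul_left a)))

theorem le_two_mul_sq (n : ℕ) : n ≤ 2 * n.totient ^ 2 := by
  rcases Nat.eq_zero_or_pos n with rfl | hn
  · simp
  obtain ⟨k, m, hm, he⟩ := Nat.exists_eq_pow_mul_and_not_dvd hn.ne' 2 (by norm_num)
  have h1 := sq_le_odd m hm
  have hcop : Nat.Coprime (2 ^ k) m := by
    apply Nat.Coprime.pow_left
    rw [Nat.Prime.coprime_iff_not_dvd Nat.prime_two]; exact hm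
  rw [he, Nat.totient_mul hcop, mul_pow]
  have h2 : 2 ^ k ≤ 2 * (2 ^ k).totient ^ 2 := by
    rcases Nat.eq_zero_or_pos k with rfl | hk
    · simp
    · rw [Nat.totient_prime_pow Nat.prime_two hk]
      obtain ⟨j, rfl⟩ : ∃ j, k = j + 1 := ⟨k - 1, by omega⟩
      have e2 : j + 1 - 1 = j := rfl
      rw [e2]
      have : 0 < 2 ^ j := by positivity
      rw [pow_succ]
      nlinarith
  calc 2 ^ k * m ≤ (2 * (2 ^ k).totient ^ 2) * m.totient ^ 2 := Nat.mul_le_mul h2 h1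
    _ = _ := by ring

theorem Phi_expand {r c a : ℕ} (hr : r.Prime) (h : r ∣ c) (ha : 1 < a) :
    Phi (c * r) a = Phi c (a ^ r) := by
  have hb : 1 < a ^ r := Nat.one_lt_pow hr.ne_zero ha
  have h1 := cyclotomic_expand_eq_cyclotomic hr h ℤ
  have h2 := congrArg (eval (a : ℤ)) h1
  rw [expand_eval] at h2
  have h4 := cast_Phi (n := c * r) ha
  have h5 := cast_Phi (n := c) hb
  push_cast at h4 h5
  rw [← h4, ← h5] at h2
  exact_mod_cast h2.symm

theorem Phi_expand_mul {r c a : ℕ} (hr : r.Prime) (h : ¬ r ∣ c) (ha : 1 < a) :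
    Phi c (a ^ r) = Phi (c * r) a * Phi c a := by
  have hb : 1 < a ^ r := Nat.one_lt_pow hr.ne_zero ha
  have h1 := cyclotomic_expand_eq_cyclotomic_mul hr h ℤ
  have h2 := congrArg (eval (a : ℤ)) h1
  rw [expand_eval, eval_mul] at h2
  have h4 := cast_Phi (n := c * r) ha
  have h4' := cast_Phi (n := c) ha
  have h5 := cast_Phi (n := c) hb
  push_cast at h4 h4' h5
  rw [← h4, ← h5, ← h4'] at h2
  exact_mod_cast h2

theorem Phi_one {x : ℕ} (hx : 1 < x) : Phi 1 x = x - 1 := by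
  have h := cast_Phi (n := 1) hx
  rw [cyclotomic_one] at h
  simp only [eval_sub, eval_X, eval_one] at h
  omega

theorem Phi_two {x : ℕ} (hx : 1 < x) : Phi 2 x = x + 1 := by
  have h := cast_Phi (n := 2) hx
  rw [cyclotomic_two] at h
  simp only [eval_add, eval_X, eval_one] at h
  omega

theorem Phi_three {x : ℕ} (hx : 1 < x) : Phi 3 x = x ^ 2 + x + 1 := by
  have h := cast_Phi (n := 3) hx
  rw [cyclotomic_three] at h
  simp only [eval_add, eval_X, eval_one, eval_pow] at h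
  exact_mod_cast h

theorem Phi_four {x : ℕ} (hx : 1 < x) : Phi 4 x = x ^ 2 + 1 := by
  have h := Phi_expand (r := 2) (c := 2) Nat.prime_two dvd_rfl hx
  rw [Phi_two (Nat.one_lt_pow (by norm_num) hx)] at h
  exact h

theorem Phi_six {x : ℕ} (hx : 1 < x) : Phi 6 x + x = x ^ 2 + 1 := by
  have h := cast_Phi (n := 6) hx
  rw [cyclotomic_six] at h
  simp only [eval_add, eval_sub, eval_X, eval_one, eval_pow] at h
  have : ((Phi 6 x + x : ℕ) : ℤ) = ((x ^ 2 + 1 : ℕ) : ℤ) := by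
    push_cast; rw [h]; ring
  exact_mod_cast this

theorem Phi_two_pow (i : ℕ) : ∀ {a : ℕ}, 1 < a → Phi (2 ^ (i + 1)) a = a ^ (2 ^ i) + 1 := by
  induction i with
  | zero => intro a ha; simpa using Phi_two ha
  | succ i ih =>
    intro a ha
    rw [pow_succ 2 (i + 1), Phi_expand Nat.prime_two (dvd_pow_self 2 (by omega)) ha,
      ih (Nat.one_lt_pow (by norm_num) ha), ← pow_mul, pow_succ 2 i, mul_comm 2]

theorem Phi_three_pow (j : ℕ) : ∀ {a : ℕ}, 1 < a → Phi (3 ^ (j + 1)) a = Phi 3 (a ^ (3 ^ j)) := by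
  induction j with
  | zero => intro a ha; simp
  | succ j ih =>
    intro a ha
    rw [pow_succ 3 (j + 1), Phi_expand Nat.prime_three (dvd_pow_self 3 (by omega)) ha,
      ih (Nat.one_lt_pow (by norm_num) ha), ← pow_mul, pow_succ 3 j, mul_comm 3]

theorem Phi_six_pow (i j : ℕ) : ∀ {a : ℕ}, 1 < a →
    Phi (2 ^ (i + 1) * 3 ^ (j + 1)) a = Phi 6 (a ^ (2 ^ i * 3 ^ j)) := by
  induction i with
  | zero =>
    induction j with
    | zero => intro a ha; simp
    | succ j ih =>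
      intro a ha
      have e : 2 ^ (0 + 1) * 3 ^ (j + 1 + 1) = (2 ^ (0 + 1) * 3 ^ (j + 1)) * 3 := by ring
      rw [e, Phi_expand Nat.prime_three (Dvd.dvd.mul_left (dvd_pow_self 3 (by omega)) _) ha,
        ih (Nat.one_lt_pow (by norm_num) ha), ← pow_mul]
      congr 2; ring
  | succ i ih =>
    intro a ha
    have e : 2 ^ (i + 1 + 1) * 3 ^ (j + 1) = (2 ^ (i + 1) * 3 ^ (j + 1)) * 2 := by ring
    rw [e, Phi_expand Nat.prime_two (Dvd.dvd.mul_right (dvd_pow_self 2 (by omega)) _) ha,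
      ih (Nat.one_lt_pow (by norm_num) ha), ← pow_mul]
    congr 2; ring

theorem smooth_form {n : ℕ} (hn : 0 < n) (h : ∀ p, p.Prime → p ∣ n → p < 5) :
    ∃ i j, n = 2 ^ i * 3 ^ j := by
  obtain ⟨i, m, hm, he⟩ := Nat.exists_eq_pow_mul_and_not_dvd hn.ne' 2 (by norm_num)
  have hm0 : m ≠ 0 := by rintro rfl; simp at hm
  obtain ⟨j, l, hl, he'⟩ := Nat.exists_eq_pow_mul_and_not_dvd hm0 3 (by norm_num)
  refine ⟨i, j, ?_⟩
  have hl1 : l = 1 := by
    by_contra hl1
    obtain ⟨p, hp, hpl⟩ := Nat.exists_prime_and_dvd hl1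
    have hpm : p ∣ m := he' ▸ hpl.mul_left _
    have h5 := h p hp (he ▸ hpm.mul_left _)
    have := hp.two_le
    interval_cases p
    · exact hm hpm
    · exact hl hpl
    · exact absurd hp (by norm_num)
  rw [he, he', hl1, mul_one]

end Cfsg.Agent.H18.Zsig
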