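import Mathlib
import Cfsg.Agent.H18.Prim1

set_option autoImplicit false

namespace Cfsg.Agent.H18.Zsig

theorem p5 {y : ℕ} (hy : 5 ≤ y) : 6 * y + 1 ≤ 2 ^ y := by
  induction y, hy using Nat.le_induction with
  | base => norm_num
  | succ k hk ih => rw [pow_succ]; omega

theorem p7 {y : ℕ} (hy : 7 ≤ y) : 18 * y + 2 ≤ 2 ^ y := by
  induction y, hy using Nat.le_induction with
  | base => norm_num
  | succ k hk ih => rw [pow_succ]; omega

theorem p10 {f : ℕ} (hf : 4 ≤ f) : 7 * f ^ 2 ≤ 4 * 10 ^ (f - 2) := by
  obtain ⟨t, rfl⟩ : ∃ t, f = t + 4 := ⟨f - 4, by omega⟩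
  have e : t + 4 - 2 = t + 2 := rfl
  rw [e]
  induction t with
  | zero => norm_num
  | succ t ih =>
    have ih' := ih (by omega) rfl
    have h2 : 10 ^ (t + 1 + 2) = 10 ^ (t + 2) * 10 := pow_succ _ _
    rw [h2]
    nlinarith

theorem E2 {r f c : ℕ} (hr : 5 ≤ r) (hf : 2 ≤ f) (hrf : 7 ≤ r ∨ 4 ≤ f) (hf3 : f ≠ 3) (hc : c ≤ 2 * f ^ 2) :
    3 ^ f * ((3 * (c * r) + 1) * r) ≤ (2 ^ r - 1) ^ f := by
  have h1 : (3 * (c * r) + 1) * r ≤ 7 * (f ^ 2 * r ^ 2) := by
    have h2 : c * r ≤ 2 * f ^ 2 * r := Nat.mul_le_mul_right r hc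
    have h3 : 1 ≤ f ^ 2 * r := Nat.one_le_iff_ne_zero.2 (by positivity)
    calc (3 * (c * r) + 1) * r ≤ (3 * (2 * f ^ 2 * r) + f ^ 2 * r) * r := by
          apply Nat.mul_le_mul_right; omega
      _ = 7 * (f ^ 2 * r ^ 2) := by ring
  refine (Nat.mul_le_mul_left _ h1).trans ?_
  rcases Nat.lt_or_ge f 4 with h4 | h4
  · have hf2 : f = 2 := by omega
    have hr7 : 7 ≤ r := by omega
    subst hf2
    have h5 := p7 hr7
    have h6 : 16 * r ≤ 2 ^ r - 1 := by omega
    calc 3 ^ 2 * (7 * (2 ^ 2 * r ^ 2)) ≤ (16 * r) ^ 2 := by nlinarith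
      _ ≤ _ := Nat.pow_le_pow_left h6 2
  · have h5 := p5 hr
    have h6 : 6 * r ≤ 2 ^ r - 1 := by omega
    refine le_trans ?_ (Nat.pow_le_pow_left h6 f)
    have h7 : (6 * r) ^ f = 3 ^ f * (2 * r) ^ f := by
      rw [← mul_pow]; congr 1; ring
    rw [h7]
    apply Nat.mul_le_mul_left
    have h8 : (2 * r) ^ f = (2 * r) ^ (f - 2) * (4 * r ^ 2) := by
      have : f = (f - 2) + 2 := by omega
      conv_lhs => rw [this]
      rw [pow_add]; ring
    rw [h8]
    have h9 := p10 h4
    have h10 : 10 ^ (f - 2) ≤ (2 * r) ^ (f - 2) := Nat.pow_le_pow_left (by omega) _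
    calc 7 * (f ^ 2 * r ^ 2) = (7 * f ^ 2) * r ^ 2 := by ring
      _ ≤ (4 * 10 ^ (f - 2)) * r ^ 2 := Nat.mul_le_mul_right _ h9
      _ ≤ (4 * (2 * r) ^ (f - 2)) * r ^ 2 := by
        apply Nat.mul_le_mul_right; apply Nat.mul_le_mul_left; exact h10
      _ = _ := by ring

theorem tot_two {c : ℕ} (hc : 3 ≤ c) (h : c.totient = 2) : c = 3 ∨ c = 4 ∨ c = 6 := by
  have h1 := le_two_mul_sq c
  rw [h] at h1
  have h2 : c ≤ 8 := by omega
  interval_cases c
  · exact Or.inl rfl
  · exact Or.inr (Or.inl rfl)
  · exact absurd h (by decide)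
  · exact Or.inr (Or.inr rfl)
  · exact absurd h (by decide)
  · exact absurd h (by decide)

theorem tot_even {c : ℕ} (hc : 3 ≤ c) : 2 ≤ c.totient ∧ c.totient ≠ 3 := by
  have h1 := Nat.totient_even (n := c) (by omega)
  have h2 : 0 < c.totient := Nat.totient_pos.2 (by omega)
  obtain ⟨k, hk⟩ := h1
  omega

theorem bound_two_aux {r c : ℕ} (hr : r.Prime) (hc : 3 ≤ c) :
    (2 ^ r - 1) ^ c.totient < Phi (c * r) 2 * 3 ^ c.totient := by
  have hb : 1 < 2 ^ r := Nat.one_lt_pow hr.ne_zero (by norm_num)
  have h1 := lt_Phi (n := c) (a := 2 ^ r) (by omega) hb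
  by_cases h : r ∣ c
  · rw [Phi_expand hr h (by norm_num)]
    exact lt_of_lt_of_le h1 (Nat.le_mul_of_pos_right _ (by positivity))
  · rw [Phi_expand_mul hr h (by norm_num)] at h1
    have h2 := Phi_lt (n := c) (a := 2) hc (by norm_num)
    exact lt_of_lt_of_le h1 (Nat.mul_le_mul_left _ h2.le)

theorem bound_two {n : ℕ} (hn : 2 < n) (h3 : n ≠ 3) (h4 : n ≠ 4) (h6 : n ≠ 6) (h8 : n ≠ 8)
    (h10 : n ≠ 10) (h12 : n ≠ 12) (h18 : n ≠ 18) (h20 : n ≠ 20) :
    3 * n + 1 ≤ Phi n 2 ∧ ∀ r, r.Prime → r ∣ n → r ∣ Phi n 2 → (3 * n + 1) * r ≤ Phi n 2 := by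
  by_cases hsm : ∀ p, p.Prime → p ∣ n → p < 5
  · obtain ⟨i, j, hij⟩ := smooth_form (by omega) hsm
    have hr3 : ∀ r, r.Prime → r ∣ n → r ≤ 3 := by
      intro r hr hrn
      have := hsm r hr hrn
      by_contra h
      have : r = 4 := by omega
      rw [this] at hr
      exact absurd hr (by norm_num)
    rcases i with _ | i
    · -- n = 3 ^ j
      rw [pow_zero, one_mul] at hij
      rcases j with _ | j
      · omega
      rcases j with _ | j
      · omega
      have hy : 3 ≤ 3 ^ (j + 1) := by
        calc 3 = 3 ^ 1 := rfl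
          _ ≤ 3 ^ (j + 1) := Nat.pow_le_pow_right (by norm_num) (by omega)
      set y := 3 ^ (j + 1) with hyd
      have hn3 : n = 3 * y := by rw [hij, hyd]; ring
      have hx : 2 * y + 2 ≤ 2 ^ y := by
        clear_value y
        clear hn3 hyd
        induction y, hy using Nat.le_induction with
        | base => norm_num
        | succ k hk ih => rw [pow_succ]; omega
      have hP : Phi n 2 = (2 ^ y) ^ 2 + 2 ^ y + 1 := by
        rw [hij, Phi_three_pow (j + 1) (by norm_num), Phi_three]
        exact Nat.one_lt_pow (by positivity) (by norm_num)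
      constructor
      · rw [hP, hn3]; nlinarith
      · intro r hr hrn hrP
        exfalso
        have hr3 : r = 3 := by
          rw [hij] at hrn
          exact (Nat.prime_dvd_prime_iff_eq hr Nat.prime_three).1 (hr.dvd_of_dvd_pow hrn)
        subst hr3
        obtain ⟨α, m, he, hm, hm1, hm2, hra⟩ := dvd_case (by norm_num) (by omega) hr hrP hrn
        have hm3 : m ≤ 2 := Nat.le_of_dvd (by norm_num) hm1
        have hm0 : m ≠ 0 := by rintro rfl; simp at hm
        have : m = 1 ∨ m = 2 := by omega
        rcases this with rfl | rfl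
        · norm_num at hm2
        · have h1 : Even n := by rw [he]; exact Even.mul_left even_two _
          have h2 : Odd n := by rw [hij]; exact Odd.pow (by decide)
          exact (Nat.not_even_iff_odd.2 h2) h1
    rcases j with _ | j
    · -- n = 2 ^ (i + 1)
      rw [pow_zero, mul_one] at hij
      have hi : 3 ≤ i := by
        by_contra hi
        have : i = 0 ∨ i = 1 ∨ i = 2 := by omega
        rcases this with rfl | rfl | rfl <;> norm_num at hij <;> omega
      have hP : Phi n 2 = 2 ^ (2 ^ i) + 1 := by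
        rw [hij, Phi_two_pow i (by norm_num)]
      have hy : 5 ≤ 2 ^ i := by
        calc 5 ≤ 2 ^ 3 := by norm_num
          _ ≤ 2 ^ i := Nat.pow_le_pow_right (by norm_num) hi
      have h1 := p5 hy
      constructor
      · rw [hP, hij, pow_succ]; omega
      · intro r hr hrn hrP
        exfalso
        have hr2 : r = 2 := by
          rw [hij] at hrn
          exact (Nat.prime_dvd_prime_iff_eq hr Nat.prime_two).1 (hr.dvd_of_dvd_pow hrn)
        obtain ⟨α, m, he, hm, hm1, hm2, hra⟩ := dvd_case (by norm_num) (by omega) hr hrP hrn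
        exact hra (by rw [hr2])
    · set y := 2 ^ i * 3 ^ j with hyd
      have hn6 : n = 6 * y := by rw [hij, hyd]; ring
      have hy0 : 0 < y := by positivity
      have hy4 : 4 ≤ y := by omega
      have hP : Phi n 2 + 2 ^ y = (2 ^ y) ^ 2 + 1 := by
        rw [hij, Phi_six_pow i j (by norm_num), ← hyd]
        exact Phi_six (Nat.one_lt_pow (by omega) (by norm_num))
      have hx : 4 * y ≤ 2 ^ y := by
        clear_value y
        clear hn6 hyd hP hy0
        induction y, hy4 using Nat.le_induction with
        | base => norm_num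
        | succ k hk ih => rw [pow_succ]; omega
      have h54 : (3 * n + 1) * 3 ≤ Phi n 2 := by
        have e54 : (3 * n + 1) * 3 = 54 * y + 3 := by rw [hn6]; ring
        rw [e54]
        have h15 : 16 ≤ 2 ^ y := by
          calc 16 = 2 ^ 4 := by norm_num
            _ ≤ 2 ^ y := Nat.pow_le_pow_right (by norm_num) hy4
        have hxx : 16 * 2 ^ y ≤ (2 ^ y) ^ 2 := by rw [sq]; exact Nat.mul_le_mul_right _ h15
        omega
      constructor
      · omega
      · intro r hr hrn _
        exact (Nat.mul_le_mul_left _ (hr3 r hr hrn)).trans h54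
  · push Not at hsm
    obtain ⟨p, hp, hpn, hp5⟩ := hsm
    constructor
    · obtain ⟨c, hc⟩ := hpn
      rw [mul_comm] at hc
      have h5 := p5 hp5
      have hb : 1 < 2 ^ p := by omega
      have hc0 : c ≠ 0 := by rintro rfl; omega
      have hcc : c = 1 ∨ c = 2 ∨ 3 ≤ c := by omega
      rcases hcc with rfl | rfl | hc3
      · have h := Phi_expand_mul (r := p) (c := 1) (a := 2) hp (by
          intro h; exact hp.one_lt.ne' (Nat.dvd_one.1 h)) (by norm_num)
        rw [Phi_one hb, Phi_one (by norm_num), ← hc] at h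
        omega
      · have h := Phi_expand_mul (r := p) (c := 2) (a := 2) hp (by
          intro h; have := Nat.le_of_dvd (by norm_num) h; omega) (by norm_num)
        rw [Phi_two hb, Phi_two (by norm_num), ← hc] at h
        have hp7 : 7 ≤ p := by
          by_contra hp7
          have : p = 5 ∨ p = 6 := by omega
          rcases this with rfl | rfl
          · omega
          · exact absurd hp (by norm_num)
        have := p7 hp7
        omega
      · have h := bound_two_aux hp hc3
        rw [← hc] at h
        have hf := tot_even hc3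
        have hc2 := le_two_mul_sq c
        by_contra hcon
        push Not at hcon
        have h6 : (2 ^ p - 1) ^ c.totient < (3 * n + 1) * 3 ^ c.totient :=
          lt_of_lt_of_le h (Nat.mul_le_mul_right _ hcon.le)
        by_cases hcase : 7 ≤ p ∨ 4 ≤ c.totient
        · have h7 := E2 hp5 hf.1 hcase hf.2 hc2
          rw [← hc] at h7
          have h9 : 3 ^ c.totient * (3 * n + 1) ≤ 3 ^ c.totient * ((3 * n + 1) * p) := by
            apply Nat.mul_le_mul_left
            exact Nat.le_mul_of_pos_right _ hp.pos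
          have h10 : 3 ^ c.totient * (3 * n + 1) = (3 * n + 1) * 3 ^ c.totient := mul_comm _ _
          omega
        · push Not at hcase
          have hp5' : p = 5 := by
            have : p = 5 ∨ p = 6 := by omega
            rcases this with h | h
            · exact h
            · rw [h] at hp; exact absurd hp (by norm_num)
          have hf2 : c.totient = 2 := by omega
          rw [hf2, hp5'] at h6
          rw [hp5'] at hc
          rcases tot_two hc3 hf2 with rfl | rfl | rfl <;> norm_num at h6 <;> omega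
    · intro r hr hrn hrP
      obtain ⟨α, m, he, hm, hm1, hm2, hra⟩ := dvd_case (by norm_num) (by omega) hr hrP hrn
      have hr2 := hr.two_le
      have hmr : m ≤ r - 1 := Nat.le_of_dvd (by omega) hm1
      have hpr : p ≤ r := by
        have hpn' := hpn
        rw [he, hp.dvd_mul] at hpn'
        rcases hpn' with h2 | h2
        · exact ((Nat.prime_dvd_prime_iff_eq hp hr).1 (hp.dvd_of_dvd_pow h2)).le
        · have h3 := Nat.le_of_dvd (by omega) (h2.trans hm1)
          omega
      have hr5 : 5 ≤ r := hp5.trans hpr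
      obtain ⟨c, hc⟩ := hrn
      rw [mul_comm] at hc
      have hca : c = r ^ α * m := by
        have h1 : c * r = (r ^ α * m) * r := by rw [← hc, he, pow_succ]; ring
        exact Nat.eq_of_mul_eq_mul_right hr.pos h1
      have hm0 : m ≠ 0 := by rintro rfl; simp at hm
      have hc0 : c ≠ 0 := by rintro rfl; omega
      -- m = 1 or 2 impossible
      have hm3 : 3 ≤ m := by
        by_contra hm3
        have : m = 1 ∨ m = 2 := by omega
        rcases this with rfl | rfl
        · norm_num at hm2; omega
        · have h1 := Nat.le_of_dvd (by norm_num) hm2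
          norm_num at h1; omega
      have hc3 : 3 ≤ c := by
        rw [hca]
        calc 3 ≤ m := hm3
          _ ≤ r ^ α * m := Nat.le_mul_of_pos_left _ (by positivity)
      have h := bound_two_aux hr hc3
      rw [← hc] at h
      have hf := tot_even hc3
      have hc2 := le_two_mul_sq c
      by_cases hcase : 7 ≤ r ∨ 4 ≤ c.totient
      · have h7 := E2 hr5 hf.1 hcase hf.2 hc2
        rw [← hc] at h7
        by_contra hcon
        push Not at hcon
        have h8 : Phi n 2 * 3 ^ c.totient ≤ ((3 * n + 1) * r) * 3 ^ c.totient :=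
          Nat.mul_le_mul_right _ hcon.le
        have h9 : ((3 * n + 1) * r) * 3 ^ c.totient = 3 ^ c.totient * ((3 * n + 1) * r) := mul_comm _ _
        omega
      · exfalso
        push Not at hcase
        have hp5' : r = 5 := by
          have : r = 5 ∨ r = 6 := by omega
          rcases this with h | h
          · exact h
          · rw [h] at hr; exact absurd hr (by norm_num)
        have hf2 : c.totient = 2 := by omega
        subst hp5'
        have hm4 : m ∣ 4 := hm1
        have hml : m ≤ 4 := Nat.le_of_dvd (by norm_num) hm4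
        have : m = 3 ∨ m = 4 := by omega
        rcases this with rfl | rfl
        · exact absurd hm4 (by norm_num)
        · rcases tot_two hc3 hf2 with h' | h' | h'
          · rw [h'] at hca; omega
          · rw [h'] at hc; omega
          · rw [h'] at hca; omega

end Cfsg.Agent.H18.Zsig
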