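import Mathlib
import Cfsg.Agent.H18.Prim2

set_option autoImplicit false

namespace Cfsg.Agent.H18.Zsig

theorem tot_enum : ∀ n < 183, n < 3 ∨ 14 ≤ Nat.totient n ∨
    (n ∈ [3, 4, 6, 5, 7, 8, 9, 10, 12, 14, 15, 16, 18, 20, 24, 30]) ∨
    (Nat.totient n = 10 ∧ n ≤ 22) ∨ (Nat.totient n = 12 ∧ n ≤ 42) := by
  decide +kernel

theorem small_b : ∀ n ∈ [5, 7, 8, 9, 14, 15, 16, 18, 20, 24, 30], ∀ r < n + 1, r.Prime → r ∣ n →
    (3 * n + 1) * r ≤ 3 ^ Nat.totient n := by
  decide +kernel

theorem small_c : ∀ n ∈ [5, 7, 8, 9, 10, 12, 14, 15, 16, 18, 20, 24, 30], 3 * n + 1 ≤ 3 ^ Nat.totient n := by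
  decide +kernel

theorem small_d : ∀ n ∈ [10, 12], ∀ r < n + 1, r.Prime → r ∣ n →
    (3 * n + 1) * r ≤ 4 ^ Nat.totient n := by
  decide +kernel

theorem p601 {f : ℕ} (hf : 10 ≤ f) : 6 * f ^ 2 + 1 ≤ 2 ^ f := by
  induction f, hf using Nat.le_induction with
  | base => norm_num
  | succ k hk ih =>
    have h2 : 2 ^ (k + 1) = 2 ^ k * 2 := pow_succ _ _
    rw [h2]
    nlinarith

theorem p14 {f : ℕ} (hf : 14 ≤ f) : (3 * ((f + 1) * f) + 1) * (f + 1) ≤ 2 ^ f := by
  obtain ⟨t, rfl⟩ : ∃ t, f = t + 14 := ⟨f - 14, by omega⟩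
  clear hf
  induction t with
  | zero => norm_num
  | succ t ih =>
    have h2 : 2 ^ (t + 1 + 14) = 2 ^ (t + 14) * 2 := by rw [← pow_succ]
    rw [h2]
    have h3 : (3 * ((t + 1 + 14 + 1) * (t + 1 + 14)) + 1) * (t + 1 + 14 + 1) ≤
        (3 * ((t + 14 + 1) * (t + 14)) + 1) * (t + 14 + 1) * 2 := by
      ring_nf
      nlinarith [Nat.zero_le t, Nat.zero_le (t ^ 2), Nat.zero_le (t ^ 3)]
    exact h3.trans (Nat.mul_le_mul_right 2 ih)

/-- values at 3 -/
theorem tab3 : Phi 5 3 = 121 ∧ Phi 7 3 = 1093 ∧ Phi 8 3 = 82 ∧ Phi 9 3 = 757 ∧ Phi 10 3 = 61 ∧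
    Phi 12 3 = 73 ∧ Phi 14 3 = 547 ∧ Phi 15 3 = 4561 ∧ Phi 16 3 = 6562 ∧ Phi 18 3 = 703 ∧
    Phi 20 3 = 5905 ∧ Phi 24 3 = 6481 ∧ Phi 30 3 = 8401 ∧ Phi 10 4 = 205 ∧ Phi 12 4 = 241 := by
  have p5 : Nat.Prime 5 := by norm_num
  have p7 : Nat.Prime 7 := by norm_num
  have h5 := Phi_expand_mul (r := 5) (c := 1) (a := 3) p5 (by norm_num) (by norm_num)
  have h7 := Phi_expand_mul (r := 7) (c := 1) (a := 3) p7 (by norm_num) (by norm_num)
  have h8 := Phi_two_pow 2 (a := 3) (by norm_num)
  have h9 := Phi_three_pow 1 (a := 3) (by norm_num)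
  have h10 := Phi_expand_mul (r := 5) (c := 2) (a := 3) p5 (by norm_num) (by norm_num)
  have h10' := Phi_expand_mul (r := 5) (c := 2) (a := 4) p5 (by norm_num) (by norm_num)
  have h12 := Phi_expand (r := 2) (c := 6) (a := 3) Nat.prime_two (by norm_num) (by norm_num)
  have h12' := Phi_expand (r := 2) (c := 6) (a := 4) Nat.prime_two (by norm_num) (by norm_num)
  have h14 := Phi_expand_mul (r := 7) (c := 2) (a := 3) p7 (by norm_num) (by norm_num)
  have h15 := Phi_expand_mul (r := 5) (c := 3) (a := 3) p5 (by norm_num) (by norm_num)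
  have h16 := Phi_two_pow 3 (a := 3) (by norm_num)
  have h18 := Phi_expand (r := 3) (c := 6) (a := 3) Nat.prime_three (by norm_num) (by norm_num)
  have h20 := Phi_expand (r := 2) (c := 10) (a := 3) Nat.prime_two (by norm_num) (by norm_num)
  have h20' := Phi_expand_mul (r := 5) (c := 2) (a := 9) p5 (by norm_num) (by norm_num)
  have h24 := Phi_expand (r := 2) (c := 12) (a := 3) Nat.prime_two (by norm_num) (by norm_num)
  have h24' := Phi_expand (r := 2) (c := 6) (a := 9) Nat.prime_two (by norm_num) (by norm_num)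
  have h30 := Phi_expand_mul (r := 5) (c := 6) (a := 3) p5 (by norm_num) (by norm_num)
  rw [Phi_one (by norm_num), Phi_one (by norm_num)] at h5 h7
  rw [Phi_three (by norm_num)] at h9
  rw [Phi_two (by norm_num), Phi_two (by norm_num)] at h10 h10' h14 h20'
  rw [Phi_three (by norm_num), Phi_three (by norm_num)] at h15
  have s9 := Phi_six (x := 9) (by norm_num)
  have s16 := Phi_six (x := 16) (by norm_num)
  have s27 := Phi_six (x := 27) (by norm_num)
  have s81 := Phi_six (x := 81) (by norm_num)
  have s243 := Phi_six (x := 243) (by norm_num)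
  have s3 := Phi_six (x := 3) (by norm_num)
  norm_num at h5 h7 h8 h9 h10 h10' h12 h12' h14 h15 h16 h18 h20 h20' h24 h24' h30 s9 s16 s27 s81 s243 s3
  have e3 : Phi 6 3 = 7 := by omega
  have e243 : Phi 6 243 = 58807 := by omega
  rw [e3, e243] at h30
  have e81 : Phi 6 81 = 6481 := by omega
  have e9 : Phi 6 9 = 73 := by omega
  have e16 : Phi 6 16 = 241 := by omega
  have e27 : Phi 6 27 = 703 := by omega
  refine ⟨by omega, by omega, by omega, by omega, by omega, by omega, by omega, by omega, by omega,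
    by omega, by omega, by omega, by omega, by omega, by omega⟩

set_option maxHeartbeats 2000000 in
theorem bound_ge3 {n q : ℕ} (hq : 3 ≤ q) (hn : 2 < n) (h34 : ¬ (q = 3 ∧ n = 4)) (h36 : ¬ (q = 3 ∧ n = 6))
    (h56 : ¬ (q = 5 ∧ n = 6)) (h43 : ¬ (q = 4 ∧ n = 3)) (h46 : ¬ (q = 4 ∧ n = 6)) :
    3 * n + 1 ≤ Phi n q ∧ ∀ r, r.Prime → r ∣ n → r ∣ Phi n q → (3 * n + 1) * r ≤ Phi n q := by
  have hq1 : 1 < q := by omega
  have hlow := lt_Phi (n := n) (a := q) (by omega) hq1
  have h2f : 2 ^ n.totient ≤ (q - 1) ^ n.totient := Nat.pow_le_pow_left (by omega) _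
  have hn2 := le_two_mul_sq n
  -- the small cases
  have small : n ∈ [3, 4, 6, 5, 7, 8, 9, 10, 12, 14, 15, 16, 18, 20, 24, 30] →
      3 * n + 1 ≤ Phi n q ∧ ∀ r, r.Prime → r ∣ n → r ∣ Phi n q → (3 * n + 1) * r ≤ Phi n q := by
    intro hL
    by_cases c3 : n = 3
    · subst c3
      have hP := Phi_three (x := q) hq1
      refine ⟨by rw [hP]; nlinarith, fun r hr hrn hrP => ?_⟩
      have hr3 : r = 3 := (Nat.prime_dvd_prime_iff_eq hr Nat.prime_three).1 hrn
      subst hr3
      rw [hP] at hrP ⊢
      rcases Nat.lt_or_ge q 5 with h5 | h5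
      · interval_cases q
        · norm_num at hrP
        · exact absurd ⟨rfl, rfl⟩ h43
      · nlinarith
    by_cases c4 : n = 4
    · subst c4
      have hP := Phi_four (x := q) hq1
      refine ⟨?_, fun r hr hrn hrP => ?_⟩
      · rw [hP]
        have : 4 ≤ q := by
          by_contra h; exact h34 ⟨by omega, rfl⟩
        nlinarith
      · have hr2 : r = 2 := (Nat.prime_dvd_prime_iff_eq hr Nat.prime_two).1 (hr.dvd_of_dvd_pow (n := 2) hrn)
        subst hr2
        rw [hP] at hrP ⊢
        rcases Nat.lt_or_ge q 5 with h5 | h5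
        · interval_cases q
          · exact absurd ⟨rfl, rfl⟩ h34
          · norm_num at hrP
        · nlinarith
    by_cases c6 : n = 6
    · subst c6
      have hP := Phi_six (x := q) hq1
      have h6 : 6 ≤ q := by
        by_contra h
        have : q = 3 ∨ q = 4 ∨ q = 5 := by omega
        rcases this with h | h | h
        · exact h36 ⟨h, rfl⟩
        · exact h46 ⟨h, rfl⟩
        · exact h56 ⟨h, rfl⟩
      refine ⟨?_, fun r hr hrn hrP => ?_⟩
      · nlinarith
      · have hr3 : r ≤ 3 := by
          have := (hr.dvd_mul (m := 2) (n := 3)).1 hrn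
          rcases this with h | h
          · exact (Nat.le_of_dvd (by norm_num) h).trans (by norm_num)
          · exact Nat.le_of_dvd (by norm_num) h
        rcases Nat.lt_or_ge q 8 with h8 | h8
        · exfalso
          have : q = 6 ∨ q = 7 := by omega
          rcases this with rfl | rfl
          · have hP' : Phi 6 6 = 31 := by omega
            rw [hP'] at hrP
            have := Nat.dvd_gcd hrn hrP
            norm_num at this
            exact hr.one_lt.ne' this
          · have hP' : Phi 6 7 = 43 := by omega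
            rw [hP'] at hrP
            have := Nat.dvd_gcd hrn hrP
            norm_num at this
            exact hr.one_lt.ne' this
        · have : (3 * 6 + 1) * r ≤ 57 := by omega
          nlinarith
    have hL' : n ∈ [5, 7, 8, 9, 10, 12, 14, 15, 16, 18, 20, 24, 30] := by
      simp only [List.mem_cons, List.not_mem_nil, or_false] at hL ⊢
      omega
    by_cases q3 : q = 3
    · subst q3
      obtain ⟨t5, t7, t8, t9, t10, t12, t14, t15, t16, t18, t20, t24, t30, -, -⟩ := tab3
      have key : ∀ P, Phi n 3 = P → 3 * n + 1 ≤ P → (3 * n + 1) * Nat.gcd n P ≤ P →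
          3 * n + 1 ≤ Phi n 3 ∧ ∀ r, r.Prime → r ∣ n → r ∣ Phi n 3 → (3 * n + 1) * r ≤ Phi n 3 := by
        intro P hP h1 h2
        rw [hP]
        refine ⟨h1, fun r hr hrn hrP => ?_⟩
        have h3 : r ≤ Nat.gcd n P := Nat.le_of_dvd (Nat.gcd_pos_of_pos_left _ (by omega))
          (Nat.dvd_gcd hrn hrP)
        exact (Nat.mul_le_mul_left _ h3).trans h2
      simp only [List.mem_cons, List.not_mem_nil, or_false] at hL'
      rcases hL' with rfl | rfl | rfl | rfl | rfl | rfl | rfl | rfl | rfl | rfl | rfl | rfl | rfl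
      · exact key _ t5 (by norm_num) (by norm_num)
      · exact key _ t7 (by norm_num) (by norm_num)
      · exact key _ t8 (by norm_num) (by norm_num)
      · exact key _ t9 (by norm_num) (by norm_num)
      · exact key _ t10 (by norm_num) (by norm_num)
      · exact key _ t12 (by norm_num) (by norm_num)
      · exact key _ t14 (by norm_num) (by norm_num)
      · exact key _ t15 (by norm_num) (by norm_num)
      · exact key _ t16 (by norm_num) (by norm_num)
      · exact key _ t18 (by norm_num) (by norm_num)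
      · exact key _ t20 (by norm_num) (by norm_num)
      · exact key _ t24 (by norm_num) (by norm_num)
      · exact key _ t30 (by norm_num) (by norm_num)
    have h3f : 3 ^ n.totient ≤ (q - 1) ^ n.totient := Nat.pow_le_pow_left (by omega) _
    have h1 := small_c n hL'
    refine ⟨by omega, fun r hr hrn hrP => ?_⟩
    have hrn' := Nat.le_of_dvd (by omega) hrn
    by_cases h1012 : n = 10 ∨ n = 12
    · by_cases q4 : q = 4
      · subst q4
        obtain ⟨-, -, -, -, -, -, -, -, -, -, -, -, -, t1, t2⟩ := tab3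
        rcases h1012 with rfl | rfl
        · rw [t1] at hrP ⊢
          have := Nat.le_of_dvd (by norm_num) (Nat.dvd_gcd hrn hrP)
          norm_num at this
          omega
        · rw [t2] at hrP ⊢
          have := Nat.le_of_dvd (by norm_num) (Nat.dvd_gcd hrn hrP)
          norm_num at this
          omega
      · have h4f : 4 ^ n.totient ≤ (q - 1) ^ n.totient := Nat.pow_le_pow_left (by omega) _
        have h2 := small_d n (by
          simp only [List.mem_cons, List.not_mem_nil, or_false]; exact h1012) r (by omega) hr hrn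
        omega
    · have h2 := small_b n (by
          simp only [List.mem_cons, List.not_mem_nil, or_false] at hL' ⊢; omega) r (by omega) hr hrn
      omega
  constructor
  · rcases Nat.lt_or_ge n 183 with h | h
    · rcases tot_enum n h with h1 | h1 | h1 | h1 | h1
      · omega
      · have := p601 (f := n.totient) (by omega)
        omega
      · exact (small h1).1
      · obtain ⟨h1, h2⟩ := h1
        rw [h1] at h2f hlow
        norm_num at h2f
        omega
      · obtain ⟨h1, h2⟩ := h1
        rw [h1] at h2f hlow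
        norm_num at h2f
        omega
    · have h10 : 10 ≤ n.totient := by
        by_contra h10
        have : n.totient ≤ 9 := by omega
        have : n.totient ^ 2 ≤ 9 ^ 2 := Nat.pow_le_pow_left this 2
        omega
      have := p601 h10
      omega
  · intro r hr hrn hrP
    obtain ⟨α, m, he, hm, hm1, hm2, hra⟩ := dvd_case hq1 (by omega) hr hrP hrn
    have hr2 := hr.two_le
    have hmr : m ≤ r - 1 := Nat.le_of_dvd (by omega) hm1
    have hm0 : 0 < m := by
      rcases Nat.eq_zero_or_pos m with rfl | h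
      · simp at hm
      · exact h
    have hcop : Nat.Coprime (r ^ (α + 1)) m := by
      apply Nat.Coprime.pow_left
      rw [Nat.Prime.coprime_iff_not_dvd hr]; exact hm
    have hf : n.totient = r ^ α * (r - 1) * m.totient := by
      conv_lhs => rw [he]
      rw [Nat.totient_mul hcop, Nat.totient_prime_pow hr (by omega)]
      rfl
    have hmt : 0 < m.totient := Nat.totient_pos.2 hm0
    have hra0 : 0 < r ^ α := by positivity
    have h1 : r - 1 ≤ n.totient := by
      rw [hf]
      calc r - 1 ≤ r ^ α * (r - 1) := Nat.le_mul_of_pos_left _ hra0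
        _ ≤ _ := Nat.le_mul_of_pos_right _ hmt
    have h2 : n ≤ r * n.totient := by
      conv_lhs => rw [he]
      rw [hf]
      calc r ^ (α + 1) * m ≤ r ^ (α + 1) * (r - 1) := Nat.mul_le_mul_left _ hmr
        _ = r * (r ^ α * (r - 1)) := by rw [pow_succ]; ring
        _ ≤ r * (r ^ α * (r - 1) * m.totient) := by
          apply Nat.mul_le_mul_left
          exact Nat.le_mul_of_pos_right _ hmt
    set f := n.totient with hfd
    have h3 : r ≤ f + 1 := by omega
    have h4 : n ≤ (f + 1) * f := h2.trans (Nat.mul_le_mul_right _ h3)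
    rcases Nat.lt_or_ge f 14 with h | h
    · have hn183 : n < 183 := by
        have : (f + 1) * f ≤ 14 * 13 := Nat.mul_le_mul (by omega) (by omega)
        omega
      rcases tot_enum n hn183 with h1 | h1 | h1 | h1 | h1
      · omega
      · omega
      · exact (small h1).2 r hr hrn hrP
      · obtain ⟨h1, h2⟩ := h1
        rw [← hfd] at h1
        rw [h1] at h2f hlow h3
        norm_num at h2f
        have : (3 * n + 1) * r ≤ 67 * 11 := Nat.mul_le_mul (by omega) (by omega)
        omega
      · obtain ⟨h1, h2⟩ := h1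
        rw [← hfd] at h1
        rw [h1] at h2f hlow h3
        norm_num at h2f
        have : (3 * n + 1) * r ≤ 127 * 13 := Nat.mul_le_mul (by omega) (by omega)
        omega
    · have h5 := p14 h
      have : (3 * n + 1) * r ≤ (3 * ((f + 1) * f) + 1) * (f + 1) :=
        Nat.mul_le_mul (by omega) h3
      omega

end Cfsg.Agent.H18.Zsig
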