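import Cfsg.Agent.H3.TvE
import Cfsg.Agent.H3.TvB
import Cfsg.Agent.H5.Sp

set_option autoImplicit false
set_option linter.unusedSectionVars false
set_option linter.style.haveILetI false
set_option linter.unusedVariables false

/-! Symplectic transvection groups as abstract root subgroups. -/

namespace Cfsg.Agent.H18.SpRoot

open Matrix Cfsg Cfsg.Agent.H3 Cfsg.Agent.H28 Cfsg.Agent.H5

variable {F : Type*} [Field F] {m : ℕ}

/-- action on vectors -/
def sa (g : symplecticGroup (Fin m) F) (x : Fin m ⊕ Fin m → F) : Fin m ⊕ Fin m → F :=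
  (g : Matrix (Fin m ⊕ Fin m) (Fin m ⊕ Fin m) F) *ᵥ x

theorem sa_mul (g h : symplecticGroup (Fin m) F) (x : Fin m ⊕ Fin m → F) : sa (g * h) x = sa g (sa h x) := by
  unfold sa
  rw [mulVec_mulVec]; rfl

theorem sa_one (x : Fin m ⊕ Fin m → F) : sa (1 : symplecticGroup (Fin m) F) x = x := one_mulVec x

theorem sa_add (g : symplecticGroup (Fin m) F) (x y : Fin m ⊕ Fin m → F) : sa g (x + y) = sa g x + sa g y :=
  mulVec_add _ _ _

theorem sa_smul (g : symplecticGroup (Fin m) F) (c : F) (x : Fin m ⊕ Fin m → F) : sa g (c • x) = c • sa g x :=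
  mulVec_smul _ _ _

theorem sa_ext {g h : symplecticGroup (Fin m) F} (H : ∀ x, sa g x = sa h x) : g = h := by
  apply Subtype.ext
  apply Matrix.ext_of_mulVec_single
  intro i
  exact H _

theorem sa_form (g : symplecticGroup (Fin m) F) (u v : Fin m ⊕ Fin m → F) :
    sympB m F (sa g u) (sa g v) = sympB m F u v := mem_Sp_iff.mp g.2 u v

theorem sa_inv (g : symplecticGroup (Fin m) F) (x : Fin m ⊕ Fin m → F) : sa g⁻¹ (sa g x) = x := by
  rw [← sa_mul, inv_mul_cancel, sa_one]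

theorem sa_inv' (g : symplecticGroup (Fin m) F) (x : Fin m ⊕ Fin m → F) : sa g (sa g⁻¹ x) = x := by
  rw [← sa_mul, mul_inv_cancel, sa_one]

theorem sa_spT (p : Fin m ⊕ Fin m → F) (c : F) (x : Fin m ⊕ Fin m → F) :
    sa (spT p c) x = x + (c * sympB m F x p) • p := sympTransvection_mulVec p c x

/-- the transvection group -/
def TG (p : Fin m ⊕ Fin m → F) : Subgroup ↥(Matrix.symplecticGroup (Fin m) F) :=
  Subgroup.closure {g : ↥(Matrix.symplecticGroup (Fin m) F) | ∃ c : F, ∀ v : Fin m ⊕ Fin m → F,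
          (g : Matrix (Fin m ⊕ Fin m) (Fin m ⊕ Fin m) F) *ᵥ v =
            v + (c * (v ⬝ᵥ (Matrix.J (Fin m) F *ᵥ p))) • p}

theorem mem_TG {p : Fin m ⊕ Fin m → F} {g : symplecticGroup (Fin m) F} :
    g ∈ TG p ↔ ∃ c, ∀ v, sa g v = v + (c * sympB m F v p) • p := by
  have hpp : sympB m F p p = 0 := sympB_isAlt p
  constructor
  · intro hg
    induction hg using Subgroup.closure_induction with
    | mem x hx =>
      obtain ⟨c, hc⟩ := hx
      exact ⟨c, fun v => by rw [sympB_apply]; exact hc v⟩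
    | one => exact ⟨0, fun v => by rw [sa_one, zero_mul, zero_smul, add_zero]⟩
    | mul x y _ _ hx hy =>
      obtain ⟨c, hc⟩ := hx
      obtain ⟨d, hd⟩ := hy
      refine ⟨c + d, fun v => ?_⟩
      rw [sa_mul, hd, hc, map_add, LinearMap.add_apply, map_smul, LinearMap.smul_apply, hpp, smul_zero, add_zero]
      module
    | inv x _ hx =>
      obtain ⟨c, hc⟩ := hx
      refine ⟨-c, fun v => ?_⟩
      have h1 : sa x (v + (-c * sympB m F v p) • p) = v := by
        rw [hc, map_add, LinearMap.add_apply, map_smul, LinearMap.smul_apply, hpp, smul_zero, add_zero]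
        module
      calc sa x⁻¹ v = sa x⁻¹ (sa x (v + (-c * sympB m F v p) • p)) := by rw [h1]
        _ = _ := sa_inv _ _
  · rintro ⟨c, hc⟩
    exact Subgroup.subset_closure ⟨c, fun v => by have := hc v; rwa [sympB_apply] at this⟩

theorem TG_smul {a : F} (ha : a ≠ 0) (p : Fin m ⊕ Fin m → F) : TG (a • p) = TG p := by
  ext g
  rw [mem_TG, mem_TG]
  constructor
  · rintro ⟨c, hc⟩
    refine ⟨c * a * a, fun v => ?_⟩
    rw [hc, map_smul, smul_smul, smul_eq_mul]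
    congr 2; ring
  · rintro ⟨c, hc⟩
    refine ⟨c * (a⁻¹ * a⁻¹), fun v => ?_⟩
    rw [hc, map_smul, smul_smul, smul_eq_mul]
    congr 2
    field_simp

theorem TG_conj (p : Fin m ⊕ Fin m → F) (g : symplecticGroup (Fin m) F) : conjBy (TG p) g = TG (sa g p) := by
  ext h
  rw [mem_conjBy, mem_TG, mem_TG]
  constructor
  · rintro ⟨c, hc⟩
    refine ⟨c, fun v => ?_⟩
    have h1 := hc (sa g⁻¹ v)
    rw [sa_mul, sa_mul, sa_inv'] at h1
    have h2 := congrArg (sa g) h1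
    rw [sa_inv', sa_add, sa_inv', sa_smul] at h2
    rw [h2]
    have h3 := sa_form g (sa g⁻¹ v) p
    rw [sa_inv'] at h3
    rw [h3]
  · rintro ⟨c, hc⟩
    refine ⟨c, fun v => ?_⟩
    rw [sa_mul, sa_mul, hc, sa_add, sa_inv, sa_smul, sa_inv, sa_form]

theorem TG_cm {p r : Fin m ⊕ Fin m → F} (h : sympB m F p r = 0) : Cm (TG p) (TG r) := by
  have h' : sympB m F r p = 0 := by rw [sympB_neg, h, neg_zero]
  intro A hA B hB
  obtain ⟨c, hc⟩ := mem_TG.mp hA
  obtain ⟨d, hd⟩ := mem_TG.mp hB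
  apply sa_ext
  intro x
  rw [sa_mul, sa_mul, hc, hd, hc, hd, map_add, LinearMap.add_apply, map_smul, LinearMap.smul_apply, map_add,
    LinearMap.add_apply, map_smul, LinearMap.smul_apply, h, h']
  module

theorem exists_ne {p : Fin m ⊕ Fin m → F} (hp : p ≠ 0) : ∃ x, sympB m F p x ≠ 0 := by
  by_contra hcon
  push Not at hcon
  exact hp (sympB_nondegenerate.1 p hcon)

theorem TG_ne_bot {p : Fin m ⊕ Fin m → F} (hp : p ≠ 0) : TG p ≠ ⊥ := by
  intro hbot
  obtain ⟨x, hx⟩ := exists_ne hp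
  have h1 : spT p 1 ∈ TG p := mem_TG.mpr ⟨1, fun v => sa_spT p 1 v⟩
  rw [hbot, Subgroup.mem_bot] at h1
  have h2 := sa_spT p 1 x
  rw [h1, sa_one, left_eq_add, smul_eq_zero, one_mul] at h2
  rcases h2 with h2 | h2
  · apply hx; rw [sympB_neg, h2, neg_zero]
  · exact hp h2

theorem exists_opp {p r : Fin m ⊕ Fin m → F} (hp : p ≠ 0) (hr : r ≠ 0) :
    ∃ s, sympB m F p s ≠ 0 ∧ sympB m F r s ≠ 0 := by
  obtain ⟨s1, h1⟩ := exists_ne hp
  obtain ⟨s2, h2⟩ := exists_ne hr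
  by_cases h3 : sympB m F r s1 = 0
  · by_cases h4 : sympB m F p s2 = 0
    · refine ⟨s1 + s2, ?_, ?_⟩
      · rw [map_add, h4, add_zero]; exact h1
      · rw [map_add, h3, zero_add]; exact h2
    · exact ⟨s2, h4, h2⟩
  · exact ⟨s1, h1, h3⟩

/-- opposite transvection groups generate `SL₂` -/
theorem TG_ro {p r : Fin m ⊕ Fin m → F} (hpr : sympB m F p r ≠ 0) :
    IsRankOnePair (TG p) (TG r) ∧ IsPSL2PairOver F (TG p) (TG r) := by
  have hrp : sympB m F r p ≠ 0 := by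
    rw [sympB_neg]; exact neg_ne_zero.mpr hpr
  obtain ⟨s, hs⟩ : ∃ s, s = (sympB m F r p)⁻¹ • r := ⟨_, rfl⟩
  have hsp : sympB m F s p = 1 := by
    rw [hs, map_smul, LinearMap.smul_apply, smul_eq_mul, inv_mul_cancel₀ hrp]
  have hps : sympB m F p s = -1 := by rw [sympB_neg, hsp]
  have hTs : TG s = TG r := by rw [hs]; exact TG_smul (inv_ne_zero hrp) r
  rw [← hTs]
  have hdot : ∀ x y : Fin m ⊕ Fin m → F, (J (Fin m) F *ᵥ y) ⬝ᵥ x = sympB m F x y := by
    intro x y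
    rw [dotProduct_comm, sympB_apply]; rfl
  have e1 : (J (Fin m) F *ᵥ p) ⬝ᵥ p = 0 := by rw [hdot]; exact sympB_isAlt p
  have e2 : (-(J (Fin m) F *ᵥ s)) ⬝ᵥ s = 0 := by
    rw [neg_dotProduct, hdot, neg_eq_zero]; exact sympB_isAlt s
  have e3 : (J (Fin m) F *ᵥ p) ⬝ᵥ s = 1 := by rw [hdot, hsp]
  have e4 : (-(J (Fin m) F *ᵥ s)) ⬝ᵥ p = 1 := by rw [neg_dotProduct, hdot, hps, neg_neg]
  have hPQ := rows_cols e1 e2 e3 e4
  obtain ⟨Φ, hΦ⟩ : ∃ Φ, Φ = embSL _ _ hPQ := ⟨_, rfl⟩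
  have hx : ∀ (t : F) (x : Fin m ⊕ Fin m → F), (Φ (xU t) : Matrix (Fin m ⊕ Fin m) (Fin m ⊕ Fin m) F) *ᵥ x =
      x + (t * sympB m F x p) • p := by
    intro t x
    rw [hΦ]
    show embM _ _ (xU t : Matrix (Fin 2) (Fin 2) F) *ᵥ x = _
    rw [emb_xU, add_mulVec, one_mulVec, smul_mulVec, vecMulVec_mulVec, hdot]
    congr 1
    ext i
    simp only [Pi.smul_apply, smul_eq_mul, MulOpposite.smul_eq_mul_unop, MulOpposite.unop_op]
    ring
  have hy : ∀ (t : F) (x : Fin m ⊕ Fin m → F), (Φ (yL t) : Matrix (Fin m ⊕ Fin m) (Fin m ⊕ Fin m) F) *ᵥ x =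
      x + ((-t) * sympB m F x s) • s := by
    intro t x
    rw [hΦ]
    show embM _ _ (yL t : Matrix (Fin 2) (Fin 2) F) *ᵥ x = _
    rw [emb_yL, add_mulVec, one_mulVec, smul_mulVec, vecMulVec_mulVec, neg_dotProduct, hdot]
    congr 1
    ext i
    simp only [Pi.smul_apply, smul_eq_mul, MulOpposite.smul_eq_mul_unop, MulOpposite.unop_op]
    ring
  have hform : ∀ (q : Fin m ⊕ Fin m → F) (c : F) (u v : Fin m ⊕ Fin m → F),
      sympB m F (u + (c * sympB m F u q) • q) (v + (c * sympB m F v q) • q) = sympB m F u v := by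
    intro q c u v
    have h1 := sa_form (spT q c) u v
    rwa [sa_spT, sa_spT] at h1
  let K : Subgroup (SpecialLinearGroup (Fin 2) F) :=
    { carrier := {M | ∀ u v, sympB m F ((Φ M : Matrix (Fin m ⊕ Fin m) (Fin m ⊕ Fin m) F) *ᵥ u)
          ((Φ M : Matrix (Fin m ⊕ Fin m) (Fin m ⊕ Fin m) F) *ᵥ v) = sympB m F u v}
      mul_mem' := by
        intro M N hM hN u v
        have h1 : ∀ w, (Φ (M * N) : Matrix (Fin m ⊕ Fin m) (Fin m ⊕ Fin m) F) *ᵥ w =
            (Φ M : Matrix (Fin m ⊕ Fin m) (Fin m ⊕ Fin m) F) *ᵥ ((Φ N : Matrix (Fin m ⊕ Fin m) (Fin m ⊕ Fin m) F) *ᵥ w) := by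
          intro w
          rw [map_mul, mulVec_mulVec]; rfl
        rw [h1, h1, hM, hN]
      one_mem' := by
        intro u v
        rw [map_one]
        show sympB m F ((1 : Matrix (Fin m ⊕ Fin m) (Fin m ⊕ Fin m) F) *ᵥ u) ((1 : Matrix (Fin m ⊕ Fin m) (Fin m ⊕ Fin m) F) *ᵥ v) = _
        rw [one_mulVec, one_mulVec]
      inv_mem' := by
        intro M hM u v
        have h1 : ∀ w, (Φ M : Matrix (Fin m ⊕ Fin m) (Fin m ⊕ Fin m) F) *ᵥ
            ((Φ M⁻¹ : Matrix (Fin m ⊕ Fin m) (Fin m ⊕ Fin m) F) *ᵥ w) = w := by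
          intro w
          have h2 : Φ M * Φ M⁻¹ = 1 := by rw [← map_mul, mul_inv_cancel, map_one]
          have h3 := congrArg (fun z : SpecialLinearGroup (Fin m ⊕ Fin m) F => (z : Matrix (Fin m ⊕ Fin m) (Fin m ⊕ Fin m) F)) h2
          rw [mulVec_mulVec]
          have h4 : (Φ M : Matrix (Fin m ⊕ Fin m) (Fin m ⊕ Fin m) F) * (Φ M⁻¹ : Matrix (Fin m ⊕ Fin m) (Fin m ⊕ Fin m) F) = 1 := h3
          rw [h4, one_mulVec]
        rw [← hM, h1, h1] }
  have hmem : ∀ M, (Φ M : Matrix (Fin m ⊕ Fin m) (Fin m ⊕ Fin m) F) ∈ symplecticGroup (Fin m) F := by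
    have htop : (⊤ : Subgroup (SpecialLinearGroup (Fin 2) F)) ≤ K := by
      rw [← lower_sup_upper]
      apply sup_le
      · intro M hM
        obtain ⟨t, rfl⟩ := mem_lower.1 hM
        intro u v
        rw [hy, hy, hform]
      · intro M hM
        obtain ⟨t, rfl⟩ := mem_upper.1 hM
        intro u v
        rw [hx, hx, hform]
    exact fun M => mem_Sp_iff.mpr (htop (Subgroup.mem_top M))
  let Ψ : SpecialLinearGroup (Fin 2) F →* symplecticGroup (Fin m) F :=
    { toFun := fun M => ⟨(Φ M : Matrix (Fin m ⊕ Fin m) (Fin m ⊕ Fin m) F), hmem M⟩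
      map_one' := by
        apply Subtype.ext
        show ((Φ 1 : SpecialLinearGroup (Fin m ⊕ Fin m) F) : Matrix (Fin m ⊕ Fin m) (Fin m ⊕ Fin m) F) = 1
        rw [map_one]; rfl
      map_mul' := by
        intro M N
        apply Subtype.ext
        show ((Φ (M * N) : SpecialLinearGroup (Fin m ⊕ Fin m) F) : Matrix (Fin m ⊕ Fin m) (Fin m ⊕ Fin m) F) = _
        rw [map_mul]; rfl }
  have hΨx : ∀ t x, sa (Ψ (xU t)) x = x + (t * sympB m F x p) • p := hx
  have hΨy : ∀ t x, sa (Ψ (yL t)) x = x + ((-t) * sympB m F x s) • s := hy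
  have hinj : Function.Injective Ψ := by
    intro M N hMN
    have h0 : ((Ψ M : symplecticGroup (Fin m) F) : Matrix (Fin m ⊕ Fin m) (Fin m ⊕ Fin m) F) =
        ((Ψ N : symplecticGroup (Fin m) F) : Matrix (Fin m ⊕ Fin m) (Fin m ⊕ Fin m) F) := by rw [hMN]
    have h1 : Φ M = Φ N := Subtype.ext h0
    rw [hΦ] at h1
    exact embSL_inj hPQ h1
  apply pair_of_inj Ψ hinj
  · ext A
    rw [Subgroup.mem_map, mem_TG]
    constructor
    · rintro ⟨M, hM, rfl⟩
      obtain ⟨t, rfl⟩ := mem_upper.1 hM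
      exact ⟨t, hΨx t⟩
    · rintro ⟨c, hc⟩
      refine ⟨xU c, mem_upper.2 ⟨c, rfl⟩, ?_⟩
      apply sa_ext
      intro x
      rw [hΨx, hc]
  · ext A
    rw [Subgroup.mem_map, mem_TG]
    constructor
    · rintro ⟨M, hM, rfl⟩
      obtain ⟨t, rfl⟩ := mem_lower.1 hM
      exact ⟨-t, hΨy t⟩
    · rintro ⟨c, hc⟩
      refine ⟨yL (-c), mem_lower.2 ⟨-c, rfl⟩, ?_⟩
      apply sa_ext
      intro x
      rw [hΨy, hc, neg_neg]

/-- the set of symplectic transvection groups -/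
def SS (m : ℕ) (F : Type*) [Field F] : Set (Subgroup ↥(Matrix.symplecticGroup (Fin m) F)) :=
  {A | ∃ p : Fin m ⊕ Fin m → F, p ≠ 0 ∧ A = TG p}

theorem SS_opp : ∀ A ∈ SS m F, ∀ B ∈ SS m F, ∃ C ∈ SS m F, IsRankOnePair A C ∧ IsRankOnePair B C := by
  rintro A ⟨p, hp, rfl⟩ B ⟨r, hr, rfl⟩
  obtain ⟨s, h1, h2⟩ := exists_opp hp hr
  refine ⟨TG s, ⟨s, ?_, rfl⟩, (TG_ro h1).1, (TG_ro h2).1⟩
  rintro rfl
  exact h1 (map_zero _)

theorem SS_pair : ∀ A ∈ SS m F, ∀ B ∈ SS m F, Cm A B ∨ (IsRankOnePair A B ∧ IsPSL2PairOver F A B) := by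
  rintro A ⟨p, hp, rfl⟩ B ⟨r, hr, rfl⟩
  by_cases h : sympB m F p r = 0
  · exact Or.inl (TG_cm h)
  · exact Or.inr (TG_ro h)

theorem SS_root : IsRootSubgroupSet (SS m F) where
  commutative := by
    rintro A ⟨p, hp, rfl⟩
    exact ⟨⟨fun a b => Subtype.ext (TG_cm (sympB_isAlt p) a a.2 b b.2)⟩⟩
  ne_bot := by
    rintro A ⟨p, hp, rfl⟩
    exact TG_ne_bot hp
  generates := by
    rw [eq_top_iff, ← spTgroup_eq_top]
    unfold spTgroup
    rw [Subgroup.closure_le]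
    rintro A ⟨w, c, hA⟩
    by_cases hw : w = 0
    · have : A = 1 := by
        apply sa_ext
        intro x
        have h1 : sa A x = x + (c * sympB m F x w) • w := by
          unfold sa; rw [hA]; exact sympTransvection_mulVec w c x
        rw [h1, hw, smul_zero, add_zero, sa_one]
      rw [this]; exact one_mem _
    · have h1 : A ∈ TG w := by
        rw [mem_TG]
        refine ⟨c, fun v => ?_⟩
        unfold sa; rw [hA]; exact sympTransvection_mulVec w c v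
      exact le_iSup_mem (S := SS m F) ⟨w, hw, rfl⟩ h1
  conj_mem := by
    rintro A ⟨p, hp, rfl⟩ g
    refine ⟨sa g p, ?_, TG_conj p g⟩
    intro h0
    apply hp
    rw [← sa_inv g p, h0]
    exact mulVec_zero _
  pair := by
    intro A hA B hB
    rcases SS_pair A hA B hB with h | h
    · exact Or.inl (cm_iff.1 h)
    · exact Or.inr (Or.inl h.1)

theorem SS_kroot : IsKRootSubgroupSet F (SS m F) := by
  refine ⟨SS_root, fun A hA B hB h => ?_⟩
  rcases SS_pair A hA B hB with h1 | h1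
  · exfalso
    rcases hA with ⟨p, hp, rfl⟩
    rcases hB with ⟨r, hr, rfl⟩
    obtain ⟨a, ha, ha1⟩ := exists_ne_one_of_ne_bot (TG_ne_bot hp)
    obtain ⟨b, hb, -, hab⟩ := h.cond_left a ha ha1
    apply h.ne
    have e1 : conjBy (TG p) b⁻¹ = TG p := by
      rw [← mem_normalizer_iff_conjBy]
      apply Subgroup.centralizer_le_normalizer
      rw [Subgroup.mem_centralizer_iff]
      intro x hx
      exact h1 x hx _ (inv_mem hb)
    have e2 : conjBy (TG r) a⁻¹ = TG r := by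
      rw [← mem_normalizer_iff_conjBy]
      apply Subgroup.centralizer_le_normalizer
      rw [Subgroup.mem_centralizer_iff]
      intro x hx
      exact (h1 _ (inv_mem ha) x hx).symm
    rw [← e1, hab, e2]
  · exact h1.2

theorem SS_deg : IsDegenerateRootSet (SS m F) := by
  intro A hA B hB hrc
  rcases SS_pair A hA B hB with h | h
  · exact rc_ne SS_root hrc (cm_iff.1 h)
  · exact rc_not_ro SS_root hB hrc h.1

theorem SS_class (m : ℕ) : IsRootSubgroupClass (SS (m + 1) F) := by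
  refine ⟨SS_root, ⟨TG (Pi.single (Sum.inl 0) 1), Pi.single (Sum.inl 0) 1, ?_, rfl⟩, ?_⟩
  · intro h
    have := congrFun h (Sum.inl 0)
    simp at this
  · intro A hA B hB
    obtain ⟨C, -, h1, h2⟩ := SS_opp A hA B hB
    obtain ⟨x, -, hx⟩ := ro_mem_right h1
    obtain ⟨y, -, hy⟩ := ro_mem_right (rankOne_symm h2)
    exact ⟨y * x, by rw [hy, hx, conjBy_conjBy]⟩

end Cfsg.Agent.H18.SpRoot
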