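import Mathlib
import Cfsg.Agent.H18.TTN2

/-! An involution with the 3-transposition property normalizes a Sylow 3-subgroup (S5356), general case. -/

set_option autoImplicit false
open Subgroup

namespace Cfsg.Agent.H18.TTN

/-- the elements of order at most two in the center of `O` -/
def omegaZ {G : Type*} [Group G] (O : Subgroup G) : Subgroup G where
  carrier := {x | x ∈ O ∧ (∀ y ∈ O, x * y = y * x) ∧ x * x = 1}
  mul_mem' := by
    rintro a b ⟨ha, ha', ha''⟩ ⟨hb, hb', hb''⟩
    refine ⟨O.mul_mem ha hb, fun y hy => ?_, ?_⟩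
    · rw [mul_assoc, hb' y hy, ← mul_assoc, ha' y hy, mul_assoc]
    · calc a * b * (a * b) = a * (b * a) * b := by group
        _ = a * (a * b) * b := by rw [hb' a ha]
        _ = (a * a) * (b * b) := by group
        _ = 1 := by rw [ha'', hb'', one_mul]
  one_mem' := ⟨one_mem _, fun y _ => by simp, one_mul 1⟩
  inv_mem' := by
    rintro a ⟨ha, ha', ha''⟩
    have : a⁻¹ = a := inv_eq_of_mul_eq_one_left ha''
    show a⁻¹ ∈ O ∧ _
    rw [this]
    exact ⟨ha, ha', ha''⟩

theorem omegaZ_normal {G : Type*} [Group G] (O : Subgroup G) [hO : O.Normal] : (omegaZ O).Normal := by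
  refine ⟨?_⟩
  rintro x ⟨hx, hx', hx''⟩ g
  refine ⟨hO.conj_mem x hx g, fun y hy => ?_, ?_⟩
  · have h1 := hx' _ (hO.conj_mem y hy g⁻¹)
    rw [inv_inv] at h1
    calc g * x * g⁻¹ * y = g * (x * (g⁻¹ * y * g)) * g⁻¹ := by group
      _ = g * ((g⁻¹ * y * g) * x) * g⁻¹ := by rw [h1]
      _ = y * (g * x * g⁻¹) := by group
  · calc g * x * g⁻¹ * (g * x * g⁻¹) = g * (x * x) * g⁻¹ := by group
      _ = 1 := by rw [hx'']; group

theorem omegaZ_ne_bot {G : Type*} [Group G] [Finite G] {O : Subgroup G} (hO : IsPGroup 2 O) (hne : O ≠ ⊥) :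
    omegaZ O ≠ ⊥ := by
  haveI : Fact (Nat.Prime 2) := ⟨Nat.prime_two⟩
  haveI : Nontrivial O := (Subgroup.nontrivial_iff_ne_bot O).2 hne
  haveI := hO.center_nontrivial
  have h1 : 2 ∣ Nat.card (center O) := by
    obtain ⟨k, hk⟩ := IsPGroup.iff_card.1 (hO.to_subgroup (center O))
    rcases Nat.eq_zero_or_pos k with rfl | hk0
    · have := Finite.one_lt_card (α := center O)
      omega
    · rw [hk]; exact dvd_pow_self 2 hk0.ne'
  obtain ⟨z, hz⟩ := exists_prime_orderOf_dvd_card' 2 h1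
  intro h2
  have h3 : (((z : O)) : G) ∈ omegaZ O := by
    refine ⟨(z : O).2, fun y hy => ?_, ?_⟩
    · have := Subgroup.mem_center_iff.1 z.2 ⟨y, hy⟩
      exact (congrArg Subtype.val this).symm
    · have h4 : z ^ 2 = 1 := orderOf_dvd_iff_pow_eq_one.1 hz.dvd
      rw [pow_two] at h4
      exact congrArg (fun w : center O => ((w : O) : G)) h4
  rw [h2, mem_bot] at h3
  have h5 : z = 1 := Subtype.ext (Subtype.ext h3)
  rw [h5, orderOf_one] at hz
  norm_num at hz

universe u

set_option maxHeartbeats 2000000 in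
theorem exists_normalizer (n : ℕ) : ∀ (G : Type u) [Group G] [Finite G] (O P : Subgroup G) [O.Normal] (d : G),
    Nat.card O ≤ n → IsPGroup 2 O → IsPGroup 3 P → d * d = 1 → (∀ x ∈ P, d * x * d⁻¹ ∈ O ⊔ P) →
    (∃ x ∈ P, d * x * d⁻¹ * x⁻¹ ∉ O) →
    (∀ g : G, Commute d (g * d * g⁻¹) ∨ (d * (g * d * g⁻¹)) ^ 3 = 1) →
    ∃ o ∈ O, d ∈ normalizer ((P.map (MulAut.conj o).toMonoidHom : Subgroup G) : Set G) := by
  induction n with
  | zero =>
    intro G _ _ O P _ d hn
    have := Nat.card_pos (α := O)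
    omega
  | succ n ih =>
    intro G _ _ O P hOn d hn hO hP hd hdP hne h3t
    by_cases hOb : O = ⊥
    · refine ⟨1, one_mem _, mem_normalizer_of_forall ?_⟩
      have h1 : P.map (MulAut.conj (1 : G)).toMonoidHom = P := by
        ext x
        constructor
        · rintro ⟨y, hy, rfl⟩
          show 1 * y * 1⁻¹ ∈ P
          simpa using hy
        · intro hx
          exact ⟨x, hx, by show 1 * x * 1⁻¹ = x; simp⟩
      rw [h1]
      intro x hx
      have := hdP x hx
      rwa [hOb, bot_sup_eq] at this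
    haveI hWn := omegaZ_normal O
    have hWb := omegaZ_ne_bot hO hOb
    set W := omegaZ O with hWdef
    have hWO : W ≤ O := fun x hx => hx.1
    let π := QuotientGroup.mk' W
    have hπ : Function.Surjective π := QuotientGroup.mk'_surjective W
    haveI : (O.map π).Normal := hOn.map π hπ
    have hker : π.ker = W := QuotientGroup.ker_mk' W
    have hcard : Nat.card (O.map π) ≤ n := by
      have h1 : W.relIndex O = Nat.card (O.map π) := by
        have h0 := Subgroup.relIndex_ker (K := O) π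
        rwa [hker] at h0
      have h2 := H1.card_mul_relIndex hWO
      rw [h1] at h2
      have h3 : 2 ≤ Nat.card W := by
        by_contra h4
        have h5 := Nat.card_pos (α := W)
        exact hWb (Subgroup.card_eq_one.1 (by omega))
      have h4 := Nat.card_pos (α := O.map π)
      nlinarith
    obtain ⟨_, ⟨o, ho, rfl⟩, hnorm⟩ := ih (G ⧸ W) (O.map π) (P.map π) (π d) hcard (hO.map π) (hP.map π)
      (by rw [← map_mul, hd, map_one])
      (by
        rintro _ ⟨x, hx, rfl⟩
        rw [← Subgroup.map_sup, ← map_inv, ← map_mul, ← map_mul]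
        exact mem_map_of_mem _ (hdP x hx))
      (by
        obtain ⟨x, hx, hxO⟩ := hne
        refine ⟨π x, mem_map_of_mem _ hx, ?_⟩
        rw [← map_inv, ← map_inv, ← map_mul, ← map_mul, ← map_mul]
        rintro ⟨y, hy, hxy⟩
        apply hxO
        have h1 : y⁻¹ * (d * x * d⁻¹ * x⁻¹) ∈ W := QuotientGroup.eq.1 hxy
        have h2 := O.mul_mem hy (hWO h1)
        rwa [mul_inv_cancel_left] at h2)
      (by
        intro g
        obtain ⟨g, rfl⟩ := hπ g
        rcases h3t g with h1 | h1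
        · left
          rw [← map_inv, ← map_mul, ← map_mul]
          exact h1.map π
        · right
          rw [← map_inv, ← map_mul, ← map_mul, ← map_mul, ← map_pow, h1, map_one])
    set P' := P.map (MulAut.conj o).toMonoidHom with hP'
    have hmapP' : (P.map π).map (MulAut.conj (π o)).toMonoidHom = P'.map π := by
      ext x
      constructor
      · rintro ⟨_, ⟨y, hy, rfl⟩, rfl⟩
        exact ⟨o * y * o⁻¹, ⟨y, hy, rfl⟩, by
          show π (o * y * o⁻¹) = π o * π y * (π o)⁻¹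
          rw [map_mul, map_mul, map_inv]⟩
      · rintro ⟨_, ⟨y, hy, rfl⟩, rfl⟩
        exact ⟨π y, ⟨y, hy, rfl⟩, by
          show π o * π y * (π o)⁻¹ = π (o * y * o⁻¹)
          rw [map_mul, map_mul, map_inv]⟩
    rw [hmapP'] at hnorm
    obtain ⟨w, hw, hwn⟩ := abelian_case W P' (fun x hx => hx.2.2) (hP.map _) hd
      (by
        intro x hx
        have h1 := (mem_normalizer_iff.1 hnorm (π x)).1 (mem_map_of_mem _ hx)
        rw [← map_inv, ← map_mul, ← map_mul] at h1
        obtain ⟨y, hy, hxy⟩ := h1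
        have h2 : y⁻¹ * (d * x * d⁻¹) ∈ W := QuotientGroup.eq.1 hxy
        have h3 : d * x * d⁻¹ = (y * (y⁻¹ * (d * x * d⁻¹)) * y⁻¹) * y := by group
        rw [h3]
        exact mul_mem ((le_sup_left : W ≤ _) (hWn.conj_mem _ h2 y)) ((le_sup_right : P' ≤ _) hy))
      (by
        obtain ⟨x, hx, hxO⟩ := hne
        refine ⟨o * x * o⁻¹, ⟨x, hx, rfl⟩, fun h1 => hxO ?_⟩
        have h2 := hWO h1
        -- d o x o⁻¹ d⁻¹ o x⁻¹ o⁻¹ ∈ O
        have h3 : d * x * d⁻¹ * x⁻¹ = (d * o⁻¹ * d⁻¹) * (d * (o * x * o⁻¹) * d⁻¹ * (o * x * o⁻¹)⁻¹) *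
            ((o * x * o⁻¹) * (d * o * d⁻¹) * (o * x * o⁻¹)⁻¹) * (o * (x * o⁻¹ * x⁻¹)) := by group
        rw [h3]
        exact mul_mem (mul_mem (mul_mem (hOn.conj_mem _ (inv_mem ho) d) h2) (hOn.conj_mem _ (hOn.conj_mem _ ho d) _))
          (mul_mem ho (hOn.conj_mem _ (inv_mem ho) x)))
      h3t
    refine ⟨w * o, mul_mem (hWO hw) ho, ?_⟩
    have h1 : P.map (MulAut.conj (w * o)).toMonoidHom = P'.map (MulAut.conj w).toMonoidHom := by
      rw [hP', Subgroup.map_map]
      congr 1
      ext x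
      show w * o * x * (w * o)⁻¹ = w * (o * x * o⁻¹) * w⁻¹
      group
    rw [h1]
    exact hwn

end Cfsg.Agent.H18.TTN
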