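import Cfsg.Agent.H10.OddConstr
import Cfsg.Agent.H18.Coprime

/-!
# Invariant `p'`-subgroups of `p`-constrained groups, the normal case (helper18)
-/

set_option autoImplicit false
set_option linter.style.haveILetI false
open Cfsg
open scoped commutatorElement

namespace Cfsg.Agent.H18

open Cfsg.Agent.H10

variable {G : Type*} [Group G]

theorem conj_closure_aux {F A Q D : Subgroup G} (hDF : D ≤ F)
    (hAF : A ≤ Subgroup.normalizer (F : Set G)) (hQF : Q ≤ Subgroup.normalizer (F : Set G))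
    (hQD : Q ≤ Subgroup.normalizer (D : Set G)) (h : ⁅F, A⁆ ≤ D) : ⁅F, ⁅Q, A⁆⁆ ≤ D := by
  set s : Set G := {x | ∃ q ∈ Q, ∃ a ∈ A, x = q * a * q⁻¹} with hs
  have h1 : ⁅Q, A⁆ ≤ Subgroup.closure s := by
    rw [Subgroup.commutator_le]
    intro q hq a ha
    have e : ⁅q, a⁆ = (q * a * q⁻¹) * a⁻¹ := by rw [commutatorElement_def]
    rw [e]
    refine mul_mem (Subgroup.subset_closure ⟨q, hq, a, ha, rfl⟩) (inv_mem ?_)
    exact Subgroup.subset_closure ⟨1, one_mem _, a, ha, by group⟩
  refine (Subgroup.commutator_mono le_rfl h1).trans ?_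
  apply commutator_le_of_closure hDF
  · rintro _ ⟨q, hq, a, ha, rfl⟩
    exact mul_mem (mul_mem (hQF hq) (hAF ha)) (inv_mem (hQF hq))
  · rintro _ ⟨q, hq, a, ha, rfl⟩ u hu
    have e : ⁅u, q * a * q⁻¹⁆ = q * ⁅q⁻¹ * u * q, a⁆ * q⁻¹ := by
      simp only [commutatorElement_def]; group
    rw [e]
    refine (Subgroup.mem_normalizer_iff.1 (hQD hq) _).1 (h ?_)
    refine Subgroup.commutator_mem_commutator ?_ ha
    have := (Subgroup.mem_normalizer_iff.1 (inv_mem (hQF hq)) u).1 hu
    simpa using this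

theorem scn_invariant_aux [Finite G] {p : ℕ} [hp : Fact p.Prime]
    (hchar : Subgroup.centralizer (pCore p G : Set G) ≤ pCore p G) {A : Subgroup G}
    (hAp : IsPGroup p A)
    (hΩ : pCore p G ⊓ Subgroup.centralizer (A : Set G) ≤ A) (hn : ⁅pCore p G, A⁆ ≤ A)
    {Q : Subgroup G}
    (hQ : (Nat.card Q).Coprime p) (hAQ : A ≤ Subgroup.normalizer (Q : Set G)) : Q = ⊥ := by
  have hFn := pCore_normal p G
  have hFp := pCore_isPGroup p G
  have htop : ∀ H : Subgroup G, H ≤ Subgroup.normalizer ((pCore p G : Subgroup G) : Set G) := by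
    intro H
    rw [Subgroup.normalizer_eq_top]; exact le_top
  have hFQ : pCore p G ⊓ Q = ⊥ := by
    rw [eq_bot_iff]
    intro y hy
    obtain ⟨k, hk⟩ := hFp ⟨y, hy.1⟩
    exact eq_one_of_isPElt_of_mem ⟨k, congrArg Subtype.val hk⟩ hQ hy.2
  have hAFQ : ⁅A ⊓ pCore p G, Q⁆ = ⊥ := by
    rw [eq_bot_iff, ← hFQ]
    exact commutator_le_inf_of_normalizes inf_le_right (htop Q) (inf_le_left.trans hAQ)
  have hfin : ∀ Q' : Subgroup G, Q' ≤ Q → ⁅pCore p G, Q'⁆ = ⊥ → Q' = ⊥ := by
    intro Q' hQ' h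
    have h1 : Q' ≤ Subgroup.centralizer (pCore p G : Set G) := by
      rw [← Subgroup.commutator_eq_bot_iff_le_centralizer, Subgroup.commutator_comm]; exact h
    rw [eq_bot_iff, ← hFQ]
    exact le_inf (h1.trans hchar) hQ'
  have hcopAQ : (Nat.card A).Coprime (Nat.card Q) := by
    obtain ⟨n, hn⟩ := IsPGroup.iff_card.1 hAp
    rw [hn]; exact Nat.Coprime.pow_left n hQ.symm
  have hAs : Group.IsSolvable A := by
    have := hAp.isNilpotent
    infer_instance
  -- the fixed points
  have hQ₀ : Q ⊓ Subgroup.centralizer (A : Set G) = ⊥ := by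
    apply hfin _ inf_le_left
    refine axb_coprime (B := A) ?_ hAp (hQ.coprime_dvd_left (Subgroup.card_dvd_of_le inf_le_left))
      hFp (htop _) (htop _) ?_
    · rw [Subgroup.commutator_eq_bot_iff_le_centralizer]; exact inf_le_right
    · rw [← le_bot_iff, ← hAFQ]
      exact Subgroup.commutator_mono (le_inf hΩ inf_le_left) inf_le_left
  have h1 := H23.commutator_sup_centralizer hAQ hcopAQ (Or.inl hAs)
  rw [hQ₀, sup_bot_eq] at h1
  -- the main part
  set D := pCore p G ⊓ Subgroup.centralizer (Q : Set G) with hD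
  have hFA : ⁅pCore p G, A⁆ ≤ D := by
    have h2 : ⁅pCore p G, A⁆ ≤ A ⊓ pCore p G :=
      le_inf hn (H23.commutator_le_of_le_normalizer (htop A))
    refine le_inf (h2.trans inf_le_right) (h2.trans ?_)
    rw [← Subgroup.commutator_eq_bot_iff_le_centralizer]
    exact hAFQ
  have hQD : Q ≤ Subgroup.normalizer (D : Set G) := by
    intro x hx
    have e1 := Subgroup.mem_normalizer_iff.1 (htop Q hx)
    have e2 := Subgroup.mem_normalizer_iff.1 (normalizer_le_normalizer_centralizer Q
      (Subgroup.le_normalizer hx))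
    rw [Subgroup.mem_normalizer_iff]
    intro y
    exact and_congr (e1 y) (e2 y)
  have h3 := conj_closure_aux inf_le_left (htop A) (htop Q) hQD hFA
  rw [h1] at h3
  have h4 : ⁅⁅pCore p G, Q⁆, Q⁆ = ⊥ := by
    rw [Subgroup.commutator_eq_bot_iff_le_centralizer]
    exact h3.trans inf_le_right
  have hcop : (Nat.card Q).Coprime (Nat.card (pCore p G)) := by
    obtain ⟨n, hn⟩ := IsPGroup.iff_card.1 hFp
    rw [hn]; exact Nat.Coprime.pow_right n hQ
  rw [H23.commutator_commutator_eq (htop Q) hcop] at h4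
  exact hfin Q le_rfl h4

/-- an `A`-invariant `p'`-subgroup lies in `O_{p'}`, when `A` is normal in a Sylow subgroup and contains
all `p`-elements of its centralizer. -/
theorem scn_invariant [Finite G] {p : ℕ} [hp : Fact p.Prime]
    (hG : IsPConstrained p G) {A T : Subgroup G} (hT : IsPGroup p T) (hTi : ¬ p ∣ T.index)
    (hAp : IsPGroup p A) (hTA : T ≤ Subgroup.normalizer (A : Set G))
    (hΩ : ∀ x ∈ Subgroup.centralizer (A : Set G), IsPElt p x → x ∈ A) {Q : Subgroup G}
    (hQ : (Nat.card Q).Coprime p) (hAQ : A ≤ Subgroup.normalizer (Q : Set G)) :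
    Q ≤ pPrimeCore p G := by
  have hOn := pPrimeCore_normal p G
  rw [isPConstrained_iff] at hG
  set O := pPrimeCore p G with hO
  set f := QuotientGroup.mk' O with hf
  have hfs : Function.Surjective f := QuotientGroup.mk'_surjective O
  have hOc : (Nat.card O).Coprime p := pPrimeCore_coprime p G
  have hAO : (Nat.card A).Coprime (Nat.card O) := by
    obtain ⟨m, hm⟩ := IsPGroup.iff_card.mp hAp
    rw [hm]; exact Nat.Coprime.pow_left m hOc.symm
  have hAs : Group.IsSolvable A := by
    have := hAp.isNilpotent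
    infer_instance
  have hFp : IsPGroup p (pCore p (G ⧸ O)) := pCore_isPGroup p _
  have hFT : pCore p (G ⧸ O) ≤ T.map f := by
    have h1 : ¬ p ∣ (T.map f).index := fun h => hTi (h.trans (Subgroup.index_map_dvd _ hfs))
    exact H1.pCore_le_sylow ((hT.map f).toSylow h1)
  have h1 := scn_invariant_aux hG (A := A.map f) (hAp.map _) (by
      rintro y ⟨hyF, hyC⟩
      have h1 := H23.map_inf_centralizer (A := A) (G := ⊤) (N := O) hAO (Or.inl hAs) le_top
      have h2 : (⊤ : Subgroup G).map f = ⊤ := by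
        rw [← MonoidHom.range_eq_map]
        exact MonoidHom.range_eq_top.mpr hfs
      rw [h2, top_inf_eq, top_inf_eq] at h1
      rw [← h1] at hyC
      obtain ⟨k, hk⟩ := hFp ⟨y, hyF⟩
      obtain ⟨x, hx, hxp, hxy⟩ := exists_isPElt_lift f p hyC ⟨k, congrArg Subtype.val hk⟩
      exact ⟨x, hΩ x hx hxp, hxy⟩) (by
      refine (Subgroup.commutator_mono hFT le_rfl).trans ?_
      rw [← Subgroup.map_commutator]
      apply Subgroup.map_mono
      rw [Subgroup.commutator_comm]
      exact H23.commutator_le_of_le_normalizer hTA)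
    (Q := Q.map f)
    (Nat.Coprime.coprime_dvd_left (Subgroup.card_map_dvd (f := f) (H := Q)) hQ) (by
      rintro _ ⟨a, ha, rfl⟩
      apply mem_normalizer_of_conj_le
      rintro _ ⟨q, hq, rfl⟩
      exact ⟨a * q * a⁻¹, (Subgroup.mem_normalizer_iff.mp (hAQ ha) q).mp hq, by simp⟩)
  rw [Subgroup.map_eq_bot_iff, QuotientGroup.ker_mk'] at h1
  exact h1

end Cfsg.Agent.H18
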