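import Cfsg.Agent.H18.Trans1
import Cfsg.Agent.H10.Sig2
import Cfsg.Agent.H10.OE1
import Cfsg.Agent.H23.Nilp

/-!
# The transitivity theorem (helper18)
-/

set_option autoImplicit false
set_option linter.style.haveILetI false
set_option linter.unusedVariables false
open Cfsg
open scoped commutatorElement Pointwise

namespace Cfsg.Agent.H18

open Cfsg.Agent.H10

variable {G : Type*} [Group G]

theorem maxI_pgroup [Finite G] {q : ℕ} [Fact q.Prime] {E Q : Subgroup G}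
    (h : Q ∈ maxInvSubgroups ⊤ E {q}) : IsPGroup q Q := OOT.isPGroup_of_isPiSub h.1.2.1

theorem maxI_inv [Finite G] {q : ℕ} {E Q : Subgroup G}
    (h : Q ∈ maxInvSubgroups ⊤ E {q}) : E ≤ Subgroup.normalizer (Q : Set G) := h.1.2.2

theorem maxI_max [Finite G] {q : ℕ} [Fact q.Prime] {E Q R : Subgroup G}
    (h : Q ∈ maxInvSubgroups ⊤ E {q}) (hR : IsPGroup q R) (hE : E ≤ Subgroup.normalizer (R : Set G))
    (hQR : Q ≤ R) : R = Q :=
  h.2 R ⟨le_top, OOT.isPiSub_of_isPGroup (Set.mem_singleton q) hR, hE⟩ hQR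

theorem maxI_smul [Finite G] {q : ℕ} {E Q : Subgroup G} {c : G}
    (hc : c ∈ Subgroup.centralizer (E : Set G)) (h : Q ∈ maxInvSubgroups ⊤ E {q}) :
    MulAut.conj c • Q ∈ maxInvSubgroups ⊤ E {q} :=
  cj_maxInv_of_normalizer (Subgroup.centralizer_le_normalizer _ hc) h

theorem transitivity_aux [Finite G] {p q : ℕ} [hp : Fact p.Prime] [hq : Fact q.Prime] (hqp : q ≠ p)
    {E B K : Subgroup G} (hEp : IsPGroup p E)
    (hB : IsElementaryAbelian p B) (hBE : B ≤ E) (hBc : p ^ 3 ≤ Nat.card B)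
    (hKc : K ≤ Subgroup.centralizer (E : Set G))
    (hK : ∀ Y : Subgroup G, (Nat.card Y).Coprime p → Y ≤ Subgroup.centralizer (E : Set G) → Y ≤ K)
    (hloc : ∀ D ≤ B, Nat.card D = p → ∃ O : Subgroup G, (Nat.card O).Coprime p ∧
      E ≤ Subgroup.normalizer (O : Set G) ∧ ∀ Y : Subgroup G, IsPGroup q Y →
        Y ≤ Subgroup.centralizer (D : Set G) → E ≤ Subgroup.normalizer (Y : Set G) → Y ≤ O)
    (hEc : ∀ a ∈ E, ∀ b ∈ E, a * b = b * a)
    {Q₁ Q₂ : Subgroup G} (hQ₁ : Q₁ ∈ maxInvSubgroups ⊤ E {q})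
    (hQ₂ : Q₂ ∈ maxInvSubgroups ⊤ E {q}) :
    ∃ c ∈ K, MulAut.conj c • Q₁ = Q₂ := by
  by_contra hcon
  obtain ⟨⟨Q₁, Q₂⟩, ⟨hQ₁, hQ₂, hcon⟩, hmax⟩ := Set.Finite.exists_maximalFor
    (fun P : Subgroup G × Subgroup G => Nat.card (P.1 ⊓ P.2 : Subgroup G))
    {P : Subgroup G × Subgroup G | P.1 ∈ maxInvSubgroups ⊤ E {q} ∧ P.2 ∈ maxInvSubgroups ⊤ E {q} ∧
      ¬ ∃ c ∈ K, MulAut.conj c • P.1 = P.2} (Set.toFinite _) ⟨(Q₁, Q₂), hQ₁, hQ₂, hcon⟩
  simp only at hQ₁ hQ₂ hcon hmax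
  set D₀ := Q₁ ⊓ Q₂ with hD₀
  have hbig : ∀ R S : Subgroup G, R ∈ maxInvSubgroups ⊤ E {q} → S ∈ maxInvSubgroups ⊤ E {q} →
      D₀ < R ⊓ S → ∃ c ∈ K, MulAut.conj c • R = S := by
    intro R S hR hS hlt
    by_contra hne
    have h1 := @hmax (R, S) ⟨hR, hS, hne⟩ (Nat.le_of_dvd Nat.card_pos
      (Subgroup.card_dvd_of_le hlt.le))
    simp only at h1
    exact hlt.ne (Subgroup.eq_of_le_of_card_ge hlt.le h1)
  have hD₁ : D₀ < Q₁ := by
    refine lt_of_le_of_ne inf_le_left ?_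
    intro h1
    have h2 : Q₁ ≤ Q₂ := by rw [← h1]; exact inf_le_right
    have h3 := maxI_max hQ₁ (maxI_pgroup hQ₂) (maxI_inv hQ₂) h2
    exact hcon ⟨1, Subgroup.one_mem _, by rw [map_one, one_smul, h3]⟩
  have hD₂ : D₀ < Q₂ := by
    refine lt_of_le_of_ne inf_le_right ?_
    intro h1
    have h2 : Q₂ ≤ Q₁ := by rw [← h1]; exact inf_le_left
    have h3 := maxI_max hQ₂ (maxI_pgroup hQ₁) (maxI_inv hQ₁) h2
    exact hcon ⟨1, Subgroup.one_mem _, by rw [map_one, one_smul, h3]⟩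
  have hAD : E ≤ Subgroup.normalizer (D₀ : Set G) := by
    intro a ha
    apply mem_normalizer_of_conj_le
    intro x hx
    exact ⟨(Subgroup.mem_normalizer_iff.mp (maxI_inv hQ₁ ha) x).mp hx.1,
      (Subgroup.mem_normalizer_iff.mp (maxI_inv hQ₂ ha) x).mp hx.2⟩
  have hD₀q : IsPGroup q D₀ := isPGroup_of_le inf_le_left (maxI_pgroup hQ₁)
  obtain ⟨D, hD, hDk, h₁, h₂⟩ := exists_common_cent (k := 1) hqp hB hBc (maxI_pgroup hQ₁)
    (maxI_pgroup hQ₂) (hBE.trans (maxI_inv hQ₁)) (hBE.trans (maxI_inv hQ₂)) hD₁ hD₂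
    (hBE.trans hAD)
  rw [pow_one] at hDk
  obtain ⟨O, hOc, hEO, hO⟩ := hloc D hD hDk
  have hED : E ≤ Subgroup.centralizer (D : Set G) := by
    intro a ha
    rw [Subgroup.mem_centralizer_iff]
    intro d hd
    exact hEc d (hBE (hD hd)) a ha
  -- the group `H`
  set H := O ⊓ Subgroup.normalizer (D₀ : Set G) with hH
  have hAH : E ≤ Subgroup.normalizer (H : Set G) := by
    intro a ha
    apply mem_normalizer_of_conj_le
    intro x hx
    exact ⟨(Subgroup.mem_normalizer_iff.mp (hEO ha) x).mp hx.1,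
      Subgroup.mul_mem _ (Subgroup.mul_mem _ (hAD ha) hx.2) (Subgroup.inv_mem _ (hAD ha))⟩
  have hHp : (Nat.card H).Coprime p := hOc.coprime_dvd_left (Subgroup.card_dvd_of_le inf_le_left)
  have hHcop : (Nat.card E).Coprime (Nat.card H) := by
    obtain ⟨n, hn⟩ := IsPGroup.iff_card.1 hEp
    rw [hn]; exact Nat.Coprime.pow_left n hHp.symm
  have hEs : Group.IsSolvable E := by
    have := hEp.isNilpotent
    infer_instance
  have hstep : ∀ Q : Subgroup G, Q ∈ maxInvSubgroups ⊤ E {q} →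
      ∃ R, H23.IsSylowOf q R H ∧ E ≤ Subgroup.normalizer (R : Set G) ∧
        Subgroup.normalizer (D₀ : Set G) ⊓ Q ⊓ Subgroup.centralizer (D : Set G) ≤ R := by
    intro Q hQ
    have hinv : E ≤ Subgroup.normalizer
        ((Subgroup.normalizer (D₀ : Set G) ⊓ Q ⊓ Subgroup.centralizer (D : Set G) :
          Subgroup G) : Set G) := by
      intro a ha
      apply mem_normalizer_of_conj_le
      intro x hx
      refine ⟨⟨Subgroup.mul_mem _ (Subgroup.mul_mem _ (hAD ha) hx.1.1)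
          (Subgroup.inv_mem _ (hAD ha)),
        (Subgroup.mem_normalizer_iff.mp (maxI_inv hQ ha) x).mp hx.1.2⟩, ?_⟩
      exact Subgroup.mul_mem _ (Subgroup.mul_mem _ (hED ha) hx.2) (Subgroup.inv_mem _ (hED ha))
    have hpg : IsPGroup q (Subgroup.normalizer (D₀ : Set G) ⊓ Q ⊓
        Subgroup.centralizer (D : Set G) : Subgroup G) :=
      isPGroup_of_le (inf_le_left.trans inf_le_right) (maxI_pgroup hQ)
    have hle : Subgroup.normalizer (D₀ : Set G) ⊓ Q ⊓ Subgroup.centralizer (D : Set G) ≤ H :=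
      le_inf (hO _ hpg inf_le_right hinv) (inf_le_left.trans inf_le_left)
    exact H23.exists_invariant_sylow_ge hAH hHcop (Or.inl hEs) hle hpg hinv
  obtain ⟨R₁, hR₁, hAR₁, hle₁⟩ := hstep Q₁ hQ₁
  obtain ⟨R₂, hR₂, hAR₂, hle₂⟩ := hstep Q₂ hQ₂
  obtain ⟨x, hx, hxR⟩ := H23.invariant_sylow_conj hAH hHcop (Or.inl hEs) hR₁ hR₂ hAR₁ hAR₂
  have hxC : x ∈ K := hK (H ⊓ Subgroup.centralizer (E : Set G))
    (hHp.coprime_dvd_left (Subgroup.card_dvd_of_le inf_le_left)) inf_le_right hx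
  -- the members `D₀ R_i`
  have hDR : ∀ R, H23.IsSylowOf q R H → E ≤ Subgroup.normalizer (R : Set G) →
      ∃ S ∈ maxInvSubgroups ⊤ E {q}, D₀ ⊔ R ≤ S := by
    intro R hR hAR
    have hn : R ≤ Subgroup.normalizer (D₀ : Set G) := hR.le.trans inf_le_right
    apply exists_maxInv_q
    · have h1 := H1.card_sup_dvd_of_le_normalizer R D₀ hn
      obtain ⟨m, hm⟩ := IsPGroup.iff_card.mp hR.isPGroup
      obtain ⟨m', hm'⟩ := IsPGroup.iff_card.mp hD₀q
      rw [hm, hm', ← pow_add] at h1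
      rw [sup_comm]
      obtain ⟨j, -, hj⟩ := (Nat.dvd_prime_pow hq.out).mp h1
      exact IsPGroup.of_card hj
    · intro a ha
      have e1 := mem_normalizer_iff_map.1 (hAD ha)
      have e2 := mem_normalizer_iff_map.1 (hAR ha)
      rw [mem_normalizer_iff_map, Subgroup.map_sup, e1, e2]
  obtain ⟨S₁, hS₁, hDS₁⟩ := hDR R₁ hR₁ hAR₁
  obtain ⟨S₂, hS₂, hDS₂⟩ := hDR R₂ hR₂ hAR₂
  have hlt : ∀ Q R S : Subgroup G, D₀ ≤ Q →
      ¬ (Subgroup.normalizer (D₀ : Set G) ⊓ Q ⊓ Subgroup.centralizer (D : Set G) ≤ D₀) →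
      Subgroup.normalizer (D₀ : Set G) ⊓ Q ⊓ Subgroup.centralizer (D : Set G) ≤ R →
      D₀ ⊔ R ≤ S → D₀ < Q ⊓ S := by
    intro Q R S hDQ h1 h2 h3
    refine lt_of_le_of_ne (le_inf hDQ (le_sup_left.trans h3)) ?_
    intro h4
    apply h1
    refine le_trans (le_inf (inf_le_left.trans inf_le_right) (h2.trans (le_sup_right.trans h3))) ?_
    exact h4.ge
  obtain ⟨c₁, hc₁, hc₁'⟩ := hbig Q₁ S₁ hQ₁ hS₁ (hlt Q₁ R₁ S₁ hD₁.le h₁ hle₁ hDS₁)
  obtain ⟨c₂, hc₂, hc₂'⟩ := hbig Q₂ S₂ hQ₂ hS₂ (hlt Q₂ R₂ S₂ hD₂.le h₂ hle₂ hDS₂)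
  have hxS : MulAut.conj x • S₁ ∈ maxInvSubgroups ⊤ E {q} := maxI_smul (hKc hxC) hS₁
  have hlt3 : D₀ < MulAut.conj x • S₁ ⊓ S₂ := by
    have h1 : D₀ ⊔ R₂ ≤ MulAut.conj x • S₁ := by
      have h2 : D₀ ≤ MulAut.conj x • S₁ := by
        have h3 : MulAut.conj x • D₀ = D₀ := by
          rw [smul_eq_map]; exact mem_normalizer_iff_map.mp hx.1.2
        rw [← h3]
        exact Subgroup.pointwise_smul_le_pointwise_smul_iff.mpr (le_sup_left.trans hDS₁)
      have h4 : R₂ ≤ MulAut.conj x • S₁ := by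
        rw [← hxR]
        exact Subgroup.pointwise_smul_le_pointwise_smul_iff.mpr (le_sup_right.trans hDS₁)
      exact sup_le h2 h4
    have h2 : D₀ < D₀ ⊔ R₂ := by
      refine lt_of_le_of_ne le_sup_left ?_
      intro h3
      apply h₂
      refine hle₂.trans ?_
      rw [h3]; exact le_sup_right
    exact lt_of_lt_of_le h2 (le_inf h1 hDS₂)
  obtain ⟨c₃, hc₃, hc₃'⟩ := hbig _ S₂ hxS hS₂ hlt3
  apply hcon
  refine ⟨c₂⁻¹ * (c₃ * (x * c₁)), ?_, ?_⟩
  · exact Subgroup.mul_mem _ (Subgroup.inv_mem _ hc₂) (Subgroup.mul_mem _ hc₃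
      (Subgroup.mul_mem _ hxC hc₁))
  · rw [map_mul, map_mul, map_mul, mul_smul, mul_smul, mul_smul, hc₁', hc₃', ← hc₂', map_inv,
      inv_smul_smul]

/-- if `E` contains all `p`-elements of `C_G(E)`, then `O_{p'}(C_G(E))` contains all `p'`-subgroups. -/
theorem le_core_centralizer [Finite G] {p : ℕ} [hp : Fact p.Prime] {E : Subgroup G}
    (hEp : IsPGroup p E) (hEc : ∀ a ∈ E, ∀ b ∈ E, a * b = b * a)
    (hfull : ∀ x ∈ Subgroup.centralizer (E : Set G), IsPGroup p (Subgroup.zpowers x) → x ∈ E)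
    {Y : Subgroup G} (hY : (Nat.card Y).Coprime p) (hYC : Y ≤ Subgroup.centralizer (E : Set G)) :
    Y ≤ piCoreOf (primesNotDvd p) (Subgroup.centralizer (E : Set G)) := by
  set C := Subgroup.centralizer (E : Set G) with hC
  have hEC : E ≤ C := by
    intro a ha
    rw [hC, Subgroup.mem_centralizer_iff]
    intro b hb
    exact hEc b hb a ha
  set E' := E.subgroupOf C with hE'
  have hE'p : IsPGroup p E' := isPGroup_subgroupOf hEp
  haveI hE'n : E'.Normal := by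
    constructor
    intro e he c
    rw [Subgroup.mem_subgroupOf] at he ⊢
    have h1 := Subgroup.mem_centralizer_iff.1 c.2 e he
    have h2 : ((c * e * c⁻¹ : C) : G) = e := by
      push_cast
      rw [← h1]; group
    rw [h2]; exact he
  -- `E'` is a Sylow subgroup
  have hE'i : ¬ p ∣ E'.index := by
    obtain ⟨S, hS⟩ := hE'p.exists_le_sylow
    have h1 : (S : Subgroup C) = E' := by
      apply le_antisymm _ hS
      intro s hs
      rw [hE', Subgroup.mem_subgroupOf]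
      exact hfull _ s.2 (H23.isPGroup_zpowers_subtype.2 (H23.isPGroup_zpowers_of_mem S.isPGroup' hs))
    rw [← h1]
    exact Sylow.not_dvd_index S
  have hcop : (Nat.card E').Coprime E'.index := by
    obtain ⟨n, hn⟩ := IsPGroup.iff_card.1 hE'p
    rw [hn]
    exact Nat.Coprime.pow_left n ((Nat.Prime.coprime_iff_not_dvd hp.out).2 hE'i)
  obtain ⟨W, hW⟩ := Subgroup.exists_right_complement'_of_coprime hcop
  have hWcard : (Nat.card W).Coprime p := by
    rw [← hW.symm.index_eq_card] at *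
    exact ((Nat.Prime.coprime_iff_not_dvd hp.out).2 hE'i).symm
  have hWn : W.Normal := by
    constructor
    intro w hw c
    obtain ⟨⟨⟨e, he⟩, ⟨v, hv⟩⟩, hev⟩ := hW.2 c
    simp only at hev
    have h1 : ∀ y : C, e * y = y * e := by
      intro y
      exact Subtype.ext (Subgroup.mem_centralizer_iff.1 y.2 e (Subgroup.mem_subgroupOf.1 he))
    have h2 : c * w * c⁻¹ = v * w * v⁻¹ := by
      rw [← hev, mul_inv_rev]
      calc e * v * w * (v⁻¹ * e⁻¹) = (e * (v * w * v⁻¹)) * e⁻¹ := by group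
        _ = (v * w * v⁻¹) * e * e⁻¹ := by rw [h1]
        _ = v * w * v⁻¹ := by group
    rw [h2]
    exact mul_mem (mul_mem hv hw) (inv_mem hv)
  have hYW : Y.subgroupOf C ≤ W := by
    intro y hy
    haveI := hWn
    rw [← QuotientGroup.eq_one_iff]
    have h1 : orderOf (QuotientGroup.mk' W y) ∣ Nat.card (C ⧸ W) := orderOf_dvd_natCard _
    have h2 : Nat.card (C ⧸ W) = Nat.card E' := hW.index_eq_card
    have h3 : orderOf (QuotientGroup.mk' W y) ∣ Nat.card Y := by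
      refine (orderOf_map_dvd _ y).trans ?_
      rw [← Subgroup.orderOf_coe]
      exact Subgroup.orderOf_dvd_natCard Y (Subgroup.mem_subgroupOf.1 hy)
    rw [h2] at h1
    have h4 : (Nat.card E').Coprime (Nat.card Y) := by
      obtain ⟨n, hn⟩ := IsPGroup.iff_card.1 hE'p
      rw [hn]; exact Nat.Coprime.pow_left n hY.symm
    have h5 := Nat.eq_one_of_dvd_coprimes h4 h1 h3
    exact orderOf_eq_one_iff.1 h5
  have hWpi : H14.IsPiSub (primesNotDvd p) W := by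
    intro r hr hrd
    refine ⟨hr, fun h => ?_⟩
    have h1 := (Nat.prime_dvd_prime_iff_eq hr hp.out).1 h
    subst h1
    exact (Nat.Prime.coprime_iff_not_dvd hr).1 hWcard.symm hrd
  have h1 : W ≤ piCore (primesNotDvd p) C := H14.le_piCore hWn hWpi
  intro y hy
  exact ⟨⟨y, hYC hy⟩, h1 (hYW (Subgroup.mem_subgroupOf.2 hy)), rfl⟩

end Cfsg.Agent.H18
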