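import Mathlib
import Cfsg.Prelude.Def_Solvable
import Cfsg.Agent.H1.FrobComp
import Cfsg.Agent.H1.Cores
import Cfsg.Agent.H21.Frob
import Cfsg.Agent.H20.Fpf2
import Cfsg.Agent.H25.FrobSylow
import Cfsg.Agent.H22.FrobFixed
import Cfsg.Agent.H9.RankOneD
import Cfsg.Agent.H18.CN5
import Cfsg.Agent.H13.Invol

/-! 2-Frobenius groups (S4001). -/

set_option autoImplicit false
set_option linter.all false
open Subgroup

namespace Cfsg.Agent.H18.TwoFrob

open Cfsg
open scoped Pointwise

theorem frob_noncomm {L : Type*} [Group L] {C : Subgroup L} (hC : IsFrobeniusComplement C) {u v : L}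
    (hu : u ∈ frobeniusKernel C) (hu1 : u ≠ 1) (hv : v ∉ frobeniusKernel C) : u * v ≠ v * u := by
  intro h
  obtain ⟨hv1, g, hg⟩ := H21.frob_not_mem_kernel hv
  have hg' : v ∈ MulAut.conj g • C := by
    rw [Subgroup.mem_pointwise_smul_iff_inv_smul_mem, ← map_inv, MulAut.smul_def, MulAut.conj_apply, inv_inv]
    exact hg
  have h1 := H21.frob_commute_mem (H1.frob_conj hC g) hg' hv1 h
  rcases hu with h2 | h2
  · exact hu1 h2
  · exact h2 g h1

theorem exists_central_prime {X : Type*} [Group X] [Finite X] (hX : Group.IsNilpotent X) {p : ℕ} [hp : Fact p.Prime]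
    (h : p ∣ Nat.card X) : ∃ z ∈ center X, orderOf z = p := by
  haveI := hX
  obtain ⟨P⟩ : Nonempty (Sylow p X) := inferInstance
  haveI : (P : Subgroup X).Normal := by
    exact (Group.isNilpotent_of_finite_tfae.out 0 3 rfl rfl).1 hX p hp P
  have hPb : (P : Subgroup X) ≠ ⊥ := by
    intro h1
    apply P.not_dvd_index
    rw [h1, Subgroup.index_bot]; exact h
  obtain ⟨z, hzP, hzc, hz1⟩ := H9.RankOne.exists_center_mem (P : Subgroup X) hPb
  obtain ⟨k, hk⟩ := (IsPGroup.iff_orderOf.1 P.2) ⟨z, hzP⟩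
  rw [Subgroup.orderOf_mk] at hk
  have hk0 : k ≠ 0 := by
    rintro rfl
    rw [pow_zero, orderOf_eq_one_iff] at hk
    exact hz1 hk
  refine ⟨z ^ p ^ (k - 1), pow_mem hzc _, ?_⟩
  have h2 : z ^ p ^ (k - 1) ≠ 1 := by
    intro h3
    have h4 := orderOf_dvd_of_pow_eq_one h3
    rw [hk, Nat.pow_dvd_pow_iff_le_right hp.out.one_lt] at h4
    omega
  apply orderOf_eq_prime _ h2
  rw [← pow_mul, ← pow_succ, Nat.sub_add_cancel (Nat.one_le_iff_ne_zero.2 hk0), ← hk, pow_orderOf_eq_one]

theorem exists_order_lift {G X : Type*} [Group G] [Finite G] [Group X] (f : G →* X) {g : G} {n : ℕ} (hn : orderOf (f g) = n) (hn0 : 0 < n) :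
    ∃ x : G, orderOf x = n := by
  have h1 : n ∣ orderOf g := by rw [← hn]; exact orderOf_map_dvd f g
  obtain ⟨m, hm⟩ := h1
  have hg := orderOf_pos g
  have hm0 : m ≠ 0 := by rintro rfl; omega
  refine ⟨g ^ m, ?_⟩
  rw [orderOf_pow_of_dvd hm0 (Dvd.intro_left n hm.symm), hm, Nat.mul_div_cancel _ (Nat.pos_of_ne_zero hm0)]

theorem exists_order_cyclic {X : Type*} [Group X] [Finite X] (hX : IsCyclic X) {n : ℕ} (hn : n ∣ Nat.card X) (hn0 : 0 < n) :
    ∃ x : X, orderOf x = n := by
  obtain ⟨g, hg⟩ := hX.exists_generator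
  have h1 : orderOf g = Nat.card X := orderOf_eq_card_of_forall_mem_zpowers hg
  obtain ⟨m, hm⟩ := hn
  have hm0 : m ≠ 0 := by
    rintro rfl
    rw [mul_zero] at hm
    exact Nat.card_pos.ne' hm
  refine ⟨g ^ m, ?_⟩
  rw [orderOf_pow_of_dvd hm0 (by rw [h1, hm]; exact Dvd.intro_left n rfl), h1, hm,
    Nat.mul_div_cancel _ (Nat.pos_of_ne_zero hm0)]

theorem sup_zpowers_comm {L : Type*} [Group L] {a b : L} (h : a * b = b * a) :
    ∀ x ∈ zpowers a ⊔ zpowers b, ∀ y ∈ zpowers a ⊔ zpowers b, x * y = y * x := by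
  have g1 : zpowers a ⊔ zpowers b ≤ centralizer ({a} : Set L) := by
    rw [sup_le_iff, zpowers_le, zpowers_le, mem_centralizer_singleton_iff, mem_centralizer_singleton_iff]
    exact ⟨rfl, h.symm⟩
  have g2 : zpowers a ⊔ zpowers b ≤ centralizer ({b} : Set L) := by
    rw [sup_le_iff, zpowers_le, zpowers_le, mem_centralizer_singleton_iff, mem_centralizer_singleton_iff]
    exact ⟨h, rfl⟩
  intro x hx
  have g3 : zpowers a ⊔ zpowers b ≤ centralizer ({x} : Set L) := by
    rw [sup_le_iff, zpowers_le, zpowers_le, mem_centralizer_singleton_iff, mem_centralizer_singleton_iff]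
    exact ⟨(mem_centralizer_singleton_iff.1 (g1 hx)).symm, (mem_centralizer_singleton_iff.1 (g2 hx)).symm⟩
  intro y hy
  exact (mem_centralizer_singleton_iff.1 (g3 hy)).symm

/-- odd order of a nilpotent group which is both a Frobenius complement and a Frobenius kernel -/
theorem odd_of_both {L M : Type*} [Group L] [Finite L] [Group M] [Finite M] {C : Subgroup L} (hC : IsFrobeniusComplement C)
    {D N : Subgroup M} (hD : IsFrobeniusComplement D) (hN : frobeniusKernel D = (N : Set M)) (hNn : N.Normal)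
    (hnil : Group.IsNilpotent N) (e : N ≃* C) : Odd (Nat.card N) := by
  haveI : Fact (Nat.Prime 2) := ⟨Nat.prime_two⟩
  rw [← Nat.not_even_iff_odd]
  intro hev
  obtain ⟨z, hz, hz2⟩ := exists_central_prime hnil (p := 2) (even_iff_two_dvd.1 hev)
  obtain ⟨⟨d, hd⟩, hd1⟩ := (Subgroup.ne_bot_iff_exists_ne_one (H := D)).mp hD.1
  have hd1' : d ≠ 1 := fun h => hd1 (Subtype.ext h)
  have hz1 : z ≠ 1 := by rintro rfl; rw [orderOf_one] at hz2; norm_num at hz2
  -- the conjugate of `z`
  let z' : N := ⟨d * z * d⁻¹, hNn.conj_mem z z.2 d⟩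
  have hz' : z'  = z := by
    by_contra hne
    -- two distinct commuting involutions in `C`
    have hz'2 : z' * z' = 1 := by
      apply Subtype.ext
      have h1 : (z : M) * z = 1 := by
        have : z ^ 2 = 1 := orderOf_dvd_iff_pow_eq_one.1 hz2.dvd
        rw [pow_two] at this
        exact congrArg Subtype.val this
      show d * (z : M) * d⁻¹ * (d * z * d⁻¹) = 1
      calc d * (z : M) * d⁻¹ * (d * z * d⁻¹) = d * (z * z) * d⁻¹ := by group
        _ = 1 := by rw [h1]; group
    have hzz : z * z = 1 := by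
      have : z ^ 2 = 1 := orderOf_dvd_iff_pow_eq_one.1 hz2.dvd
      rwa [pow_two] at this
    have hcomm : z * z' = z' * z := (Subgroup.mem_center_iff.1 hz z').symm
    have hz'1 : z' ≠ 1 := by
      intro h1
      apply hz1
      have h2 : d * (z : M) * d⁻¹ = 1 := congrArg Subtype.val h1
      apply Subtype.ext
      show (z : M) = 1
      have h3 : (z : M) = d⁻¹ * (d * z * d⁻¹) * d := by group
      rw [h3, h2]; group
    obtain ⟨a, ha⟩ : ∃ a : L, a = ((e z : C) : L) := ⟨_, rfl⟩
    obtain ⟨b, hb⟩ : ∃ b : L, b = ((e z' : C) : L) := ⟨_, rfl⟩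
    have hab : a * b = b * a := by
      have := congrArg (fun w => ((e w : C) : L)) hcomm
      rw [ha, hb]
      simpa using this
    have hA : ∀ x ∈ zpowers a ⊔ zpowers b, ∀ y ∈ zpowers a ⊔ zpowers b, x * y = y * x := sup_zpowers_comm hab
    have hAC : zpowers a ⊔ zpowers b ≤ C := by
      rw [sup_le_iff, zpowers_le, zpowers_le]
      exact ⟨by rw [ha]; exact (e z).2, by rw [hb]; exact (e z').2⟩
    have hcyc := H25.frob_isCyclic_of_comm hC hAC ⟨⟨fun x y => Subtype.ext (hA x x.2 y y.2)⟩⟩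
    have haA : a ∈ zpowers a ⊔ zpowers b := (le_sup_left : zpowers a ≤ _) (mem_zpowers a)
    have hbA : b ∈ zpowers a ⊔ zpowers b := (le_sup_right : zpowers b ≤ _) (mem_zpowers b)
    have hoz' : orderOf z' = 2 := orderOf_eq_prime (by rw [pow_two]; exact hz'2) hz'1
    have h5 := H13.cyclic_unique_involution (x := (⟨a, haA⟩ : (zpowers a ⊔ zpowers b : Subgroup L))) (y := ⟨b, hbA⟩)
      (by rw [Subgroup.orderOf_mk, ha, Subgroup.orderOf_coe, MulEquiv.orderOf_eq, hz2])
      (by rw [Subgroup.orderOf_mk, hb, Subgroup.orderOf_coe, MulEquiv.orderOf_eq, hoz'])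
    have h6 : a = b := congrArg Subtype.val h5
    rw [ha, hb] at h6
    exact hne (e.injective (Subtype.ext h6)).symm
  have h1 : (z : M) * d = d * z := by
    have h2 : d * (z : M) * d⁻¹ = z := congrArg Subtype.val hz'
    calc (z : M) * d = (d * z * d⁻¹) * d := by rw [h2]
      _ = d * z := by group
  refine frob_noncomm hD (u := (z : M)) (v := d) ?_ (fun h => hz1 (Subtype.ext h)) ?_ h1
  · rw [hN]; exact z.2
  · rintro (h | h)
    · exact hd1' h
    · have := h 1
      rw [map_one, one_smul] at this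
      exact this hd

end Cfsg.Agent.H18.TwoFrob
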