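import Mathlib
import Cfsg.Agent.H18.TwoFrob

/-! 2-Frobenius groups (S4001): the main argument. -/

set_option autoImplicit false
set_option linter.all false
open Subgroup

namespace Cfsg.Agent.H18.TwoFrob

open Cfsg
open scoped Pointwise

universe u

/-- central elements of `H` of exponent `p` -/
def omegaP {G : Type*} [Group G] (p : ℕ) (H : Subgroup G) : Subgroup G where
  carrier := {x | x ∈ H ∧ (∀ y ∈ H, x * y = y * x) ∧ x ^ p = 1}
  mul_mem' := by
    rintro a b ⟨ha, ha', ha''⟩ ⟨hb, hb', hb''⟩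
    refine ⟨H.mul_mem ha hb, fun y hy => ?_, ?_⟩
    · rw [mul_assoc, hb' y hy, ← mul_assoc, ha' y hy, mul_assoc]
    · have hc : Commute a b := ha' b hb
      rw [hc.mul_pow, ha'', hb'', one_mul]
  one_mem' := ⟨one_mem _, fun y _ => by simp, one_pow p⟩
  inv_mem' := by
    rintro a ⟨ha, ha', ha''⟩
    refine ⟨H.inv_mem ha, fun y hy => ?_, by rw [inv_pow, ha'', inv_one]⟩
    have := ha' y hy
    calc a⁻¹ * y = a⁻¹ * (y * a) * a⁻¹ := by group
      _ = a⁻¹ * (a * y) * a⁻¹ := by rw [this]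
      _ = y * a⁻¹ := by group

theorem omegaP_normal {G : Type*} [Group G] (p : ℕ) (H : Subgroup G) [hO : H.Normal] : (omegaP p H).Normal := by
  refine ⟨?_⟩
  rintro x ⟨hx, hx', hx''⟩ g
  refine ⟨hO.conj_mem x hx g, fun y hy => ?_, ?_⟩
  · have h1 := hx' _ (hO.conj_mem y hy g⁻¹)
    rw [inv_inv] at h1
    calc g * x * g⁻¹ * y = g * (x * (g⁻¹ * y * g)) * g⁻¹ := by group
      _ = g * ((g⁻¹ * y * g) * x) * g⁻¹ := by rw [h1]
      _ = y * (g * x * g⁻¹) := by group
  · rw [conj_pow, hx'']; group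

/-- the basic data -/
structure Data {G : Type u} [Group G] [Finite G] (H K : Subgroup G) [H.Normal] [K.Normal] : Prop where
  le : H ≤ K
  nilH : Group.IsNilpotent H
  m1 : H.relIndex K ≠ 1
  F1 : ∀ u v : G, u ∈ H → u ≠ 1 → v ∈ K → v ∉ H → u * v ≠ v * u
  F2 : ∀ u v : G, u ∈ K → u ∉ H → v ∉ K → u * v ≠ v * u
  copH : (H.relIndex K).Coprime (Nat.card H)
  copG : (H.relIndex K).Coprime K.index
  odd : Odd (H.relIndex K)
  cycK : IsCyclic (K ⧸ H.subgroupOf K)
  cycG : IsCyclic (G ⧸ K)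

set_option maxHeartbeats 1000000 in
theorem data_of {G : Type u} [Group G] [Finite G] (H K : Subgroup G) [hHn : H.Normal] [hKn : K.Normal] (hlt : H < K)
    {C₁ : Subgroup ↥K} (hC₁ : IsFrobeniusComplement C₁) (hk₁ : frobeniusKernel C₁ = (H.subgroupOf K : Set ↥K))
    {C₂ : Subgroup (G ⧸ H)} (hC₂ : IsFrobeniusComplement C₂)
    (hk₂ : frobeniusKernel C₂ = (K.map (QuotientGroup.mk' H) : Set (G ⧸ H))) : Data H K := by
  have hHK : H ≤ K := hlt.le
  let π := QuotientGroup.mk' H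
  have hπ : Function.Surjective π := QuotientGroup.mk'_surjective H
  have hπk : ∀ x : G, π x = 1 ↔ x ∈ H := fun x => QuotientGroup.eq_one_iff (N := H) x
  have hkm : ∀ x : G, π x ∈ K.map π ↔ x ∈ K := by
    intro x
    constructor
    · rintro ⟨y, hy, hxy⟩
      have h1 : y⁻¹ * x ∈ H := QuotientGroup.eq.1 hxy
      have h2 := K.mul_mem hy (hHK h1)
      rwa [mul_inv_cancel_left] at h2
    · exact fun h => mem_map_of_mem _ h
  haveI hN₂n : (K.map π).Normal := hKn.map π hπ
  obtain ⟨N₁, hN₁, hN₁n, hcomp₁⟩ := H25.frobenius_kernel hC₁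
  have hN₁e : N₁ = H.subgroupOf K := SetLike.coe_injective (hN₁.trans hk₁)
  subst hN₁e
  obtain ⟨N₂, hN₂, -, hcomp₂⟩ := H25.frobenius_kernel hC₂
  have hN₂e : N₂ = K.map π := SetLike.coe_injective (hN₂.trans hk₂)
  subst hN₂e
  obtain ⟨N₁, hN₁, -, hnil₁⟩ := H20.Fpf.frobenius_nilpotent hC₁
  have hN₁e : N₁ = H.subgroupOf K := SetLike.coe_injective (hN₁.trans hk₁)
  subst hN₁e
  obtain ⟨N₂, hN₂, -, hnil₂⟩ := H20.Fpf.frobenius_nilpotent hC₂
  have hN₂e : N₂ = K.map π := SetLike.coe_injective (hN₂.trans hk₂)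
  subst hN₂e
  have hcC₁ : Nat.card C₁ = H.relIndex K := hcomp₁.symm.index_eq_card.symm
  have hcH : Nat.card (H.subgroupOf K) = Nat.card H := Nat.card_congr (Subgroup.subgroupOfEquivOfLe hHK).toEquiv
  have hcC₁i : C₁.index = Nat.card H := by rw [← hcH]; exact hcomp₁.index_eq_card
  have hcC₂ : Nat.card C₂ = K.index := by
    rw [← hcomp₂.symm.index_eq_card]
    exact Subgroup.index_map_eq K hπ (by rw [show π.ker = H from QuotientGroup.ker_mk' H]; exact hHK)
  have hcN₂ : Nat.card (K.map π) = H.relIndex K := by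
    have := Subgroup.relIndex_ker (K := K) π
    rw [show π.ker = H from QuotientGroup.ker_mk' H] at this
    exact this.symm
  have hcC₂i : C₂.index = H.relIndex K := by rw [← hcN₂]; exact hcomp₂.index_eq_card
  -- the isomorphism
  have e : (K.map π) ≃* C₁ := by
    let f : C₁ →* (K.map π) := (π.comp (K.subtype.comp C₁.subtype)).codRestrict (K.map π)
      (fun c => mem_map_of_mem _ (c : K).2)
    have hf : Function.Injective f := by
      rw [injective_iff_map_eq_one]
      intro c hc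
      have h1 : π ((c : K) : G) = 1 := congrArg Subtype.val hc
      rw [hπk] at h1
      have h2 : (c : K) ∈ H.subgroupOf K ⊓ C₁ := ⟨h1, c.2⟩
      rw [hcomp₁.disjoint.eq_bot, mem_bot] at h2
      exact Subtype.ext h2
    have hb : Function.Bijective f := (Nat.bijective_iff_injective_and_card f).2 ⟨hf, by rw [hcC₁, hcN₂]⟩
    exact (MulEquiv.ofBijective f hb).symm
  have hodd : Odd (H.relIndex K) := by
    rw [← hcN₂]
    exact odd_of_both hC₁ hC₂ hk₂ hN₂n hnil₂ e
  have hC₁nil : Group.IsNilpotent C₁ := by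
    haveI := hnil₂
    exact Group.nilpotent_of_mulEquiv e
  have hC₁cyc : IsCyclic C₁ := by
    rcases frobcompl_struct hC₁ hC₁nil with h1 | ⟨C, Q, hCQ, -, -, -, n, ⟨eQ⟩⟩
    · exact h1
    · exfalso
      have h2 : Nat.card Q ∣ Nat.card C₁ := Subgroup.card_dvd_of_le (by rw [← hCQ]; exact le_sup_right)
      rw [Nat.card_congr eQ.toEquiv, hcC₁] at h2
      have h3 : Nat.card (QuaternionGroup (2 ^ n)) = 4 * 2 ^ n := by
        rw [Nat.card_eq_fintype_card, QuaternionGroup.card]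
      rw [h3] at h2
      have h4 : 2 ∣ H.relIndex K := (Dvd.intro _ (by ring : 2 * (2 * 2 ^ n) = 4 * 2 ^ n)).trans h2
      exact (Nat.not_even_iff_odd.2 hodd) (even_iff_two_dvd.2 h4)
  have hF2' : ∀ u v : G, u ∈ K → u ∉ H → v ∉ K → u * v ≠ v * u := by
    intro u v hu hu' hv h
    refine frob_noncomm hC₂ (u := π u) (v := π v) ?_ (fun h1 => hu' ((hπk u).1 h1)) ?_ ?_
    · rw [hk₂]; exact mem_map_of_mem _ hu
    · rw [hk₂]; exact fun h1 => hv ((hkm v).1 h1)
    · rw [← map_mul, ← map_mul, h]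
  -- `C₂` is cyclic
  have hC₂cyc : IsCyclic C₂ := by
    haveI : IsCyclic (K.map π) := (MulEquiv.isCyclic e).2 hC₁cyc
    have hcomm : ∀ a ∈ C₂, ∀ b ∈ C₂, a * b = b * a := by
      intro a ha b hb
      by_contra hab
      have hne : (a * b) * (b * a)⁻¹ ≠ 1 := by
        intro h1
        rw [mul_inv_eq_one] at h1
        exact hab h1
      have hpow : ∀ g : G ⧸ H, ∃ i : ℤ, ∀ n ∈ K.map π, g * n * g⁻¹ = n ^ i := by
        intro g
        obtain ⟨i, hi⟩ := MonoidHom.map_cyclic (MulAut.conjNormal g : MulAut (K.map π)).toMonoidHom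
        refine ⟨i, fun n hn => ?_⟩
        exact congrArg Subtype.val (hi ⟨n, hn⟩)
      obtain ⟨i, hi⟩ := hpow a
      obtain ⟨j, hj⟩ := hpow b
      -- a nontrivial element of the kernel
      obtain ⟨⟨n, hn⟩, hn1⟩ : ∃ n : K.map π, n ≠ 1 := by
        by_contra hall
        push Not at hall
        have h1 : Nat.card (K.map π) = 1 := Nat.card_eq_one_iff_unique.2 ⟨⟨fun x y => by rw [hall x, hall y]⟩, ⟨1⟩⟩
        rw [hcN₂] at h1
        exact hlt.not_ge (Subgroup.relIndex_eq_one.1 h1)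
      have hn1' : n ≠ 1 := fun h => hn1 (Subtype.ext h)
      refine frob_noncomm hC₂ (u := n) (v := (a * b) * (b * a)⁻¹) (by rw [hk₂]; exact hn) hn1' ?_ ?_
      · rintro (h1 | h1)
        · exact hne h1
        · have := h1 1
          rw [map_one, one_smul] at this
          exact this (mul_mem (mul_mem ha hb) (inv_mem (mul_mem hb ha)))
      · have h1 : ∀ n ∈ K.map π, (a * b) * n * (a * b)⁻¹ = (b * a) * n * (b * a)⁻¹ := by
          intro n hn
          calc (a * b) * n * (a * b)⁻¹ = a * (b * n * b⁻¹) * a⁻¹ := by group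
            _ = (n ^ j) ^ i := by rw [hj n hn, hi _ (zpow_mem hn j)]
            _ = (n ^ i) ^ j := by rw [← zpow_mul, ← zpow_mul, mul_comm]
            _ = b * (a * n * a⁻¹) * b⁻¹ := by rw [hi n hn, hj _ (zpow_mem hn i)]
            _ = (b * a) * n * (b * a)⁻¹ := by group
        have h2 : (b * a)⁻¹ * n * (b * a) ∈ K.map π := by
          have := hN₂n.conj_mem n hn (b * a)⁻¹
          rwa [inv_inv] at this
        have h3 := h1 _ h2
        have h4 : (a * b) * (b * a)⁻¹ * n = n * ((a * b) * (b * a)⁻¹) := by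
          calc (a * b) * (b * a)⁻¹ * n = ((a * b) * ((b * a)⁻¹ * n * (b * a)) * (a * b)⁻¹) * (a * b) * (b * a)⁻¹ := by group
            _ = ((b * a) * ((b * a)⁻¹ * n * (b * a)) * (b * a)⁻¹) * (a * b) * (b * a)⁻¹ := by rw [h3]
            _ = n * ((a * b) * (b * a)⁻¹) := by group
        exact h4.symm
    exact H25.frob_isCyclic_of_comm hC₂ le_rfl ⟨⟨fun x y => Subtype.ext (hcomm x x.2 y y.2)⟩⟩
  refine ⟨hHK, ?_, fun h => hlt.not_ge (Subgroup.relIndex_eq_one.1 h), ?_, hF2', ?_, ?_, hodd, ?_, ?_⟩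
  · haveI := hnil₁
    exact Group.nilpotent_of_mulEquiv (Subgroup.subgroupOfEquivOfLe hHK)
  · intro u v hu hu1 hv hv' h
    refine frob_noncomm hC₁ (u := ⟨u, hHK hu⟩) (v := ⟨v, hv⟩) ?_ (fun h1 => hu1 (congrArg Subtype.val h1)) ?_ (Subtype.ext h)
    · rw [hk₁]; exact hu
    · rw [hk₁]; exact hv'
  · have := H1.frob_coprime hC₁
    rwa [hcC₁, hcC₁i] at this
  · have := H1.frob_coprime hC₂
    rw [hcC₂, hcC₂i] at this
    exact this.symm
  · -- K/H cyclic
    let f : C₁ →* (K ⧸ H.subgroupOf K) := (QuotientGroup.mk' (H.subgroupOf K)).comp C₁.subtype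
    have hf : Function.Surjective f := by
      intro x
      obtain ⟨k, rfl⟩ := QuotientGroup.mk_surjective x
      obtain ⟨⟨n, c⟩, hnc⟩ := (hcomp₁ : IsComplement _ _).2 k
      refine ⟨c, ?_⟩
      have hnc' : (n : K) * c = k := hnc
      show (QuotientGroup.mk (c : K) : K ⧸ H.subgroupOf K) = QuotientGroup.mk k
      rw [← hnc', QuotientGroup.mk_mul, (QuotientGroup.eq_one_iff (n : K)).2 n.2, one_mul]
    haveI := hC₁cyc
    exact isCyclic_of_surjective f hf
  · -- G/K cyclic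
    let φ : (G ⧸ H) →* (G ⧸ K) := QuotientGroup.map H K (MonoidHom.id G) hHK
    let f : C₂ →* (G ⧸ K) := φ.comp C₂.subtype
    have hf : Function.Surjective f := by
      intro x
      obtain ⟨g, rfl⟩ := QuotientGroup.mk_surjective x
      obtain ⟨⟨⟨n, hn⟩, c⟩, hnc⟩ := (hcomp₂ : IsComplement _ _).2 (π g)
      refine ⟨c, ?_⟩
      have hnc' : n * c = π g := hnc
      obtain ⟨k, hk, rfl⟩ := hn
      have h1 : φ (π k * c) = φ (π g) := by rw [hnc']
      have h2 : φ (π k) = 1 := (QuotientGroup.eq_one_iff (N := K) k).2 hk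
      rw [map_mul, h2, one_mul] at h1
      exact h1
    haveI := hC₂cyc
    exact isCyclic_of_surjective f hf

end Cfsg.Agent.H18.TwoFrob
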