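import Mathlib

set_option autoImplicit false
set_option linter.all false

/-!
# Partial transfers (helper18), for Yoshida's theorems
-/

namespace Cfsg.Agent.H18.Yo

open Subgroup

section reindex

variable {R X A : Type*} [Group R] [MulAction R X] [CommGroup A]

theorem reindex (Δ : Finset X) (h : R) (hh : ∀ ω ∈ Δ, h • ω ∈ Δ) (F : X → A) :
    ∏ ω ∈ Δ, F (h • ω) = ∏ ω ∈ Δ, F ω := by
  classical
  have h1 : Δ.image (fun ω => h • ω) = Δ := by
    apply Finset.eq_of_subset_of_card_le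
    · intro ω hω
      obtain ⟨ω', hω', rfl⟩ := Finset.mem_image.1 hω
      exact hh ω' hω'
    · rw [Finset.card_image_of_injective _ (MulAction.injective h)]
  conv_rhs => rw [← h1]
  rw [Finset.prod_image (fun x _ y _ hxy => MulAction.injective h hxy)]

/-- a nontrivial product over an invariant set has a nontrivial product over some orbit -/
theorem exists_orbit [Finite X] (F : X → A) (Γ : Finset X) (inv : ∀ g : R, ∀ ω ∈ Γ, g • ω ∈ Γ)
    (h : ∏ ω ∈ Γ, F ω ≠ 1) : ∃ ω ∈ Γ, ∃ O : Finset X, (∀ x, x ∈ O ↔ x ∈ MulAction.orbit R ω) ∧ O ⊆ Γ ∧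
      ∏ ω ∈ O, F ω ≠ 1 := by
  classical
  haveI := Fintype.ofFinite X
  by_contra hcon
  push Not at hcon
  apply h
  clear h
  induction hn : Γ.card using Nat.strong_induction_on generalizing Γ with
  | _ n ih =>
    rcases Γ.eq_empty_or_nonempty with rfl | ⟨ω, hω⟩
    · simp
    set O : Finset X := Finset.univ.filter (fun x => x ∈ MulAction.orbit R ω) with hO
    have hOm : ∀ x, x ∈ O ↔ x ∈ MulAction.orbit R ω := by intro x; simp [hO]
    have hsub : O ⊆ Γ := by
      intro x hx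
      rw [hOm] at hx
      obtain ⟨g, rfl⟩ := hx
      exact inv g ω hω
    have h1 := hcon ω hω O hOm hsub
    rw [← Finset.prod_sdiff hsub, h1, mul_one]
    refine ih (Γ \ O).card ?_ (Γ \ O) ?_ ?_ rfl
    · rw [← hn]
      apply Finset.card_lt_card
      refine Finset.ssubset_iff_subset_ne.2 ⟨Finset.sdiff_subset, ?_⟩
      intro h2
      have : ω ∈ Γ \ O := by rw [h2]; exact hω
      exact (Finset.mem_sdiff.1 this).2 ((hOm ω).2 (MulAction.mem_orbit_self ω))
    · intro g x hx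
      obtain ⟨hx1, hx2⟩ := Finset.mem_sdiff.1 hx
      refine Finset.mem_sdiff.2 ⟨inv g x hx1, fun h2 => hx2 ?_⟩
      rw [hOm] at h2 ⊢
      obtain ⟨k, hk⟩ := h2
      refine ⟨g⁻¹ * k, ?_⟩
      show (g⁻¹ * k) • ω = x
      have hk' : k • ω = g • x := hk
      rw [mul_smul, hk', inv_smul_smul]
    · intro x hx O' hO' hO's
      exact hcon x (Finset.mem_sdiff.1 hx).1 O' hO' (hO's.trans Finset.sdiff_subset)

end reindex

variable {G : Type*} [Group G] {N : Subgroup G}

/-- a section of `G → G ⧸ N` -/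
def IsSec (r : G ⧸ N → G) : Prop := ∀ ω, ((r ω : G) : G ⧸ N) = ω

theorem isSec_out : IsSec (N := N) Quotient.out := fun ω => QuotientGroup.out_eq' ω

theorem coc_mem {r : G ⧸ N → G} (hr : IsSec r) (g : G) (ω : G ⧸ N) :
    (r (g • ω))⁻¹ * g * r ω ∈ N := by
  rw [mul_assoc, ← QuotientGroup.eq, hr]
  conv_lhs => rw [← hr ω]
  rfl

/-- the cocycle -/
def coc {r : G ⧸ N → G} (hr : IsSec r) (g : G) (ω : G ⧸ N) : N := ⟨_, coc_mem hr g ω⟩

theorem coc_mul {r : G ⧸ N → G} (hr : IsSec r) (g h : G) (ω : G ⧸ N) :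
    coc hr (g * h) ω = coc hr g (h • ω) * coc hr h ω := by
  apply Subtype.ext
  show (r ((g * h) • ω))⁻¹ * (g * h) * r ω = ((r (g • h • ω))⁻¹ * g * r (h • ω)) * ((r (h • ω))⁻¹ * h * r ω)
  rw [mul_smul]; group

variable {A : Type*} [CommGroup A]

/-- the partial transfer -/
def V {r : G ⧸ N → G} (hr : IsSec r) (lam : N →* A) (Δ : Finset (G ⧸ N)) (g : G) : A :=
  ∏ ω ∈ Δ, lam (coc hr g ω)

theorem V_mul {r : G ⧸ N → G} (hr : IsSec r) (lam : N →* A) (Δ : Finset (G ⧸ N)) (g h : G)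
    (hh : ∀ ω ∈ Δ, h • ω ∈ Δ) : V hr lam Δ (g * h) = V hr lam Δ g * V hr lam Δ h := by
  unfold V
  simp only [coc_mul, map_mul, Finset.prod_mul_distrib]
  congr 1
  exact reindex Δ h hh (fun ω => lam (coc hr g ω))

theorem V_lam_mul {r : G ⧸ N → G} (hr : IsSec r) (lam mu : N →* A) (Δ : Finset (G ⧸ N)) (g : G) :
    V hr (lam * mu) Δ g = V hr lam Δ g * V hr mu Δ g := by
  unfold V
  simp only [MonoidHom.mul_apply, Finset.prod_mul_distrib]

theorem V_lam_pow {r : G ⧸ N → G} (hr : IsSec r) (lam : N →* A) (Δ : Finset (G ⧸ N)) (g : G) (n : ℕ) :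
    V hr (lam ^ n) Δ g = V hr lam Δ g ^ n := by
  unfold V
  simp only [MonoidHom.pow_apply, Finset.prod_pow]

theorem V_lam_comp {B : Type*} [CommGroup B] {r : G ⧸ N → G} (hr : IsSec r) (lam : N →* A) (f : A →* B)
    (Δ : Finset (G ⧸ N)) (g : G) : V hr (f.comp lam) Δ g = f (V hr lam Δ g) := by
  unfold V
  rw [map_prod]
  rfl

theorem V_indep {r r' : G ⧸ N → G} (hr : IsSec r) (hr' : IsSec r') (lam : N →* A)
    (Δ : Finset (G ⧸ N)) (g : G) (hg : ∀ ω ∈ Δ, g • ω ∈ Δ) : V hr lam Δ g = V hr' lam Δ g := by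
  have hn : ∀ ω, (r ω)⁻¹ * r' ω ∈ N := by
    intro ω
    rw [← QuotientGroup.eq, hr, hr']
  let n : G ⧸ N → N := fun ω => ⟨_, hn ω⟩
  have h1 : ∀ ω, coc hr' g ω = (n (g • ω))⁻¹ * coc hr g ω * n ω := by
    intro ω
    apply Subtype.ext
    show (r' (g • ω))⁻¹ * g * r' ω = ((r (g • ω))⁻¹ * r' (g • ω))⁻¹ * ((r (g • ω))⁻¹ * g * r ω) * ((r ω)⁻¹ * r' ω)
    group
  unfold V
  simp only [h1, map_mul, map_inv, Finset.prod_mul_distrib, Finset.prod_inv_distrib]
  rw [reindex Δ g hg (fun ω => lam (n ω))]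
  rw [mul_right_comm, inv_mul_cancel, one_mul]

theorem V_conj {r : G ⧸ N → G} (hr : IsSec r) (lam : N →* A) [DecidableEq (G ⧸ N)]
    (Δ : Finset (G ⧸ N)) (g h : G) (hg : ∀ ω ∈ Δ, g • ω ∈ Δ) :
    V hr lam (Δ.image (fun ω => h • ω)) (h * g * h⁻¹) = V hr lam Δ g := by
  let r' : G ⧸ N → G := fun ω => h * r (h⁻¹ • ω)
  have hr' : IsSec r' := by
    intro ω
    show ((h * r (h⁻¹ • ω) : G) : G ⧸ N) = ω
    have h1 : ((h * r (h⁻¹ • ω) : G) : G ⧸ N) = h • ((r (h⁻¹ • ω) : G) : G ⧸ N) := rfl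
    rw [h1, hr, smul_inv_smul]
  rw [V_indep hr hr' lam _ (h * g * h⁻¹)]
  · unfold V
    rw [Finset.prod_image (fun x _ y _ hxy => MulAction.injective h hxy)]
    apply Finset.prod_congr rfl
    intro ω _
    congr 1
    apply Subtype.ext
    show (h * r (h⁻¹ • (h * g * h⁻¹) • h • ω))⁻¹ * (h * g * h⁻¹) * (h * r (h⁻¹ • h • ω)) =
      (r (g • ω))⁻¹ * g * r ω
    have e1 : h⁻¹ • (h * g * h⁻¹) • h • ω = g • ω := by
      rw [← mul_smul, ← mul_smul]; congr 1; group
    rw [e1, inv_smul_smul]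
    group
  · intro ω hω
    obtain ⟨ω', hω', rfl⟩ := Finset.mem_image.1 hω
    refine Finset.mem_image.2 ⟨g • ω', hg ω' hω', ?_⟩
    show h • g • ω' = (h * g * h⁻¹) • h • ω'
    rw [← mul_smul, ← mul_smul]; congr 1; group

theorem V_union {r : G ⧸ N → G} (hr : IsSec r) (lam : N →* A) [DecidableEq (G ⧸ N)] {ι : Type*}
    (s : Finset ι) (Δ : ι → Finset (G ⧸ N)) (hd : ∀ i ∈ s, ∀ j ∈ s, i ≠ j → Disjoint (Δ i) (Δ j)) (g : G) :
    V hr lam (s.biUnion Δ) g = ∏ i ∈ s, V hr lam (Δ i) g := by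
  unfold V
  rw [Finset.prod_biUnion]
  intro i hi j hj hij
  exact hd i hi j hj hij

/-- cycles -/
theorem prod_cycle {r : G ⧸ N → G} (hr : IsSec r) (lam : N →* A) (y : G) (ω : G ⧸ N) (f : ℕ) :
    ∏ i ∈ Finset.range f, lam (coc hr y (y ^ i • ω)) = lam (coc hr (y ^ f) ω) := by
  induction f with
  | zero =>
    rw [Finset.range_zero, Finset.prod_empty]
    have : coc hr (y ^ 0) ω = 1 := by
      apply Subtype.ext
      show (r (y ^ 0 • ω))⁻¹ * y ^ 0 * r ω = 1
      rw [pow_zero, one_smul]; group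
    rw [this, map_one]
  | succ f ih =>
    rw [Finset.prod_range_succ, ih, pow_succ', coc_mul, map_mul, mul_comm]

theorem V_res [Fintype (G ⧸ N)] {r : G ⧸ N → G} (hr : IsSec r) (φ : G →* A) (g : G) :
    V hr (φ.comp N.subtype) Finset.univ g = φ g ^ N.index := by
  unfold V
  have h1 : ∀ ω, (φ.comp N.subtype) (coc hr g ω) = (φ (r (g • ω)))⁻¹ * φ g * φ (r ω) := by
    intro ω
    show φ ((r (g • ω))⁻¹ * g * r ω) = _
    rw [map_mul, map_mul, map_inv]
  simp only [h1, Finset.prod_mul_distrib, Finset.prod_inv_distrib]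
  rw [reindex Finset.univ g (fun ω _ => Finset.mem_univ _) (fun ω => φ (r ω)), mul_right_comm,
    inv_mul_cancel, one_mul, Finset.prod_const, Finset.card_univ, Subgroup.index,
    Nat.card_eq_fintype_card]

/-- for a cyclic orbit the partial transfer is the value at a power -/
theorem V_zpowers_orbit {r : G ⧸ N → G} (hr : IsSec r) [Finite G] (lam : N →* A) (y : G) (ω : G ⧸ N)
    (O : Finset (G ⧸ N)) (hO : ∀ x, x ∈ O ↔ x ∈ MulAction.orbit (zpowers y) ω) :
    ∃ f : ℕ, 0 < f ∧ y ^ f • ω = ω ∧ (f = 1 ∨ ¬ y • ω = ω) ∧ f ∣ orderOf y ∧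
      V hr lam O y = lam (coc hr (y ^ f) ω) := by
  classical
  set f := Function.minimalPeriod (fun x : G ⧸ N => y • x) ω with hf
  have hit : ∀ n : ℕ, ∀ x : G ⧸ N, (fun x : G ⧸ N => y • x)^[n] x = y ^ n • x := by
    intro n
    induction n with
    | zero => intro x; simp
    | succ n ih => intro x; rw [Function.iterate_succ_apply', ih, pow_succ', mul_smul]
  have hper : Function.IsPeriodicPt (fun x : G ⧸ N => y • x) (orderOf y) ω := by
    show (fun x : G ⧸ N => y • x)^[orderOf y] ω = ω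
    rw [hit, pow_orderOf_eq_one, one_smul]
  have hfpos : 0 < f := Function.IsPeriodicPt.minimalPeriod_pos (orderOf_pos y) hper
  have hfy : y ^ f • ω = ω := by
    have := Function.iterate_minimalPeriod (f := fun x : G ⧸ N => y • x) (x := ω)
    rw [hit] at this
    exact this
  refine ⟨f, hfpos, hfy, ?_, hper.minimalPeriod_dvd, ?_⟩
  · by_cases h : y • ω = ω
    · left
      have h1 : Function.IsPeriodicPt (fun x : G ⧸ N => y • x) 1 ω := by
        show (fun x : G ⧸ N => y • x)^[1] ω = ω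
        rw [hit, pow_one, h]
      have := h1.minimalPeriod_dvd
      exact Nat.dvd_one.1 this
    · right; exact h
  · have hO' : O = (Finset.range f).image (fun i => y ^ i • ω) := by
      ext x
      rw [hO, Finset.mem_image]
      constructor
      · rintro ⟨⟨_, ⟨k, rfl⟩⟩, rfl⟩
        have hfz : (0 : ℤ) < f := by exact_mod_cast hfpos
        refine ⟨(k % f).toNat, ?_, ?_⟩
        · rw [Finset.mem_range]
          have := Int.emod_lt_of_pos k hfz
          have := Int.emod_nonneg k hfz.ne'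
          omega
        · show y ^ (k % (f : ℤ)).toNat • ω = (y ^ k : G) • ω
          have h2 := Int.emod_nonneg k hfz.ne'
          have h3 : y ^ (k % (f : ℤ)).toNat = y ^ (k % (f : ℤ)) := by
            rw [← zpow_natCast, Int.toNat_of_nonneg h2]
          have h4 : y ^ k = y ^ (k % (f : ℤ)) * (y ^ f) ^ (k / (f : ℤ)) := by
            rw [← zpow_natCast y f, ← zpow_mul, ← zpow_add, Int.emod_add_mul_ediv]
          have h5 : ∀ m : ℤ, (y ^ f) ^ m • ω = ω := by
            intro m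
            have : (y ^ f) ∈ MulAction.stabilizer G ω := hfy
            exact (MulAction.stabilizer G ω).zpow_mem this m
          rw [h3, h4, mul_smul, h5]
      · rintro ⟨i, -, rfl⟩
        exact ⟨⟨y ^ i, pow_mem (mem_zpowers y) i⟩, rfl⟩
    unfold V
    rw [hO', Finset.prod_image, prod_cycle]
    intro i hi j hj hij
    rw [Finset.coe_range, Set.mem_Iio] at hi hj
    have h1 : (fun x : G ⧸ N => y • x)^[i] ω = (fun x : G ⧸ N => y • x)^[j] ω := by
      rw [hit, hit]; exact hij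
    exact Function.iterate_injOn_Iio_minimalPeriod hi hj h1

end Cfsg.Agent.H18.Yo
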