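import Mathlib
import Cfsg.Agent.H18.Yosh1

set_option autoImplicit false
set_option linter.all false

namespace Cfsg.Agent.H18.Yo

open Subgroup

variable {G : Type*} [Group G] [Finite G] {N : Subgroup G}

/-- Step 1: a linear character of `p`-power order of `N`, with trivial transfer, nontrivial at `x`. -/
theorem exists_lam_complex {p : ℕ} [hp : Fact p.Prime] (hpN : ¬ p ∣ N.index) {x : G} (hxN : x ∈ N)
    (hxp : ∃ k, x ^ p ^ k = 1) (hxG : x ∈ _root_.commutator G) (hxN' : x ∉ ⁅N, N⁆)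
    [Fintype (G ⧸ N)] {r : G ⧸ N → G} (hr : IsSec r) :
    ∃ (lam : N →* ℂˣ) (a : ℕ), (∀ n, lam n ^ p ^ a = 1) ∧ lam ⟨x, hxN⟩ ≠ 1 ∧
      ∀ g, V hr lam Finset.univ g = 1 := by
  classical
  -- a character of N nontrivial at x
  obtain ⟨k, hk⟩ := hxp
  let x' : N := ⟨x, hxN⟩
  have hx1 : (Abelianization.of x' : Abelianization N) ≠ 1 := by
    intro h
    have h1 : x' ∈ _root_.commutator N := by
      rw [← Abelianization.ker_of]
      exact h
    apply hxN'
    have h2 : x ∈ (_root_.commutator N).map N.subtype := ⟨x', h1, rfl⟩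
    rw [_root_.commutator_def, map_commutator, ← MonoidHom.range_eq_map, N.range_subtype] at h2
    exact h2
  obtain ⟨χ₀, hχ₀⟩ := CommGroup.exists_apply_ne_one_of_hasEnoughRootsOfUnity (Abelianization N) ℂ hx1
  set χ₁ : N →* ℂˣ := χ₀.comp Abelianization.of with hχ₁
  have hχ₁x : χ₁ x' ≠ 1 := hχ₀
  -- p-part
  have hcard : Nat.card N ≠ 0 := Nat.card_pos.ne'
  obtain ⟨a, m, hm, hc⟩ := Nat.exists_eq_pow_mul_and_not_dvd hcard p hp.out.ne_one
  let χ : N →* ℂˣ := (powMonoidHom m).comp χ₁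
  have hχm : ∀ n, χ n = χ₁ n ^ m := fun n => rfl
  have hχp : ∀ n, χ n ^ p ^ a = 1 := by
    intro n
    rw [hχm, ← pow_mul, mul_comm, ← hc, ← map_pow, pow_card_eq_one', map_one]
  have hcop : Nat.Coprime m (p ^ k) := by
    apply Nat.Coprime.pow_right
    exact ((Nat.Prime.coprime_iff_not_dvd hp.out).2 hm).symm
  have hχx : χ x' ≠ 1 := by
    intro h
    have h1 : χ₁ x' ^ m = 1 := h
    have h2 : χ₁ x' ^ p ^ k = 1 := by
      rw [← map_pow]
      have : x' ^ p ^ k = 1 := Subtype.ext hk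
      rw [this, map_one]
    have h3 : orderOf (χ₁ x') ∣ Nat.gcd m (p ^ k) :=
      Nat.dvd_gcd (orderOf_dvd_of_pow_eq_one h1) (orderOf_dvd_of_pow_eq_one h2)
    rw [hcop.gcd_eq_one, Nat.dvd_one, orderOf_eq_one_iff] at h3
    exact hχ₁x h3
  -- the transfer as a hom
  let W : G →* ℂˣ :=
    { toFun := fun g => V hr χ Finset.univ g
      map_one' := by
        have := V_mul hr χ Finset.univ 1 1 (fun ω _ => Finset.mem_univ _)
        rw [one_mul] at this
        exact (mul_eq_left.1 this.symm)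
      map_mul' := fun g h => V_mul hr χ Finset.univ g h (fun ω _ => Finset.mem_univ _) }
  have hWx : W x = 1 := by
    have h1 : _root_.commutator G ≤ W.ker := Abelianization.commutator_subset_ker W
    exact h1 hxG
  have hWp : ∀ g, W g ^ p ^ a = 1 := by
    intro g
    show V hr χ Finset.univ g ^ p ^ a = 1
    unfold V
    rw [← Finset.prod_pow]
    exact Finset.prod_eq_one (fun ω _ => hχp _)
  -- c * index ≡ 1
  have hcop2 : Nat.Coprime N.index (p ^ a) := by
    apply Nat.Coprime.pow_right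
    exact ((Nat.Prime.coprime_iff_not_dvd hp.out).2 hpN).symm
  obtain ⟨c, hc1⟩ : ∃ c : ℕ, N.index * c ≡ 1 [MOD p ^ a] := by
    rcases Nat.eq_zero_or_pos a with rfl | ha
    · exact ⟨0, by rw [pow_zero]; exact Nat.modEq_one⟩
    · obtain ⟨c, -, hc⟩ := Nat.exists_mul_mod_eq_one_of_coprime hcop2 (Nat.one_lt_pow ha.ne' hp.out.one_lt)
      refine ⟨c, ?_⟩
      show N.index * c % p ^ a = 1 % p ^ a
      rw [hc, Nat.mod_eq_of_lt (Nat.one_lt_pow ha.ne' hp.out.one_lt)]
  let W' : N →* ℂˣ := (powMonoidHom c).comp (W.comp N.subtype)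
  have hW' : ∀ n : N, W' n = W (n : G) ^ c := fun n => rfl
  let lam : N →* ℂˣ := χ * W'⁻¹
  have hlam : ∀ n, lam n = χ n * (W' n)⁻¹ := fun n => rfl
  refine ⟨lam, a, ?_, ?_, ?_⟩
  · intro n
    rw [hlam, mul_pow, hχp, one_mul, inv_pow, inv_eq_one, hW', ← pow_mul, mul_comm, pow_mul, hWp, one_pow]
  · rw [hlam, hW']
    have : W ((⟨x, hxN⟩ : N) : G) = 1 := hWx
    rw [this, one_pow, inv_one, mul_one]
    exact hχx
  · intro g
    have h1 : V hr lam Finset.univ g * V hr W' Finset.univ g =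
        V hr χ Finset.univ g := by
      rw [← V_lam_mul]
      congr 1
      ext n
      show ((χ n * (W' n)⁻¹ * W' n : ℂˣ) : ℂ) = (χ n : ℂ)
      rw [inv_mul_cancel_right]
    have h0 : V hr W' Finset.univ g = (W g ^ N.index) ^ c := by
      rw [← V_res hr W g]
      exact V_lam_comp hr (W.comp N.subtype) (powMonoidHom c) Finset.univ g
    have h2 : (W g ^ N.index) ^ c = W g := by
      rw [← pow_mul]
      have h3 : W g ^ (N.index * c) = W g ^ 1 := by
        rw [pow_eq_pow_iff_modEq]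
        exact hc1.of_dvd (orderOf_dvd_of_pow_eq_one (hWp g))
      rw [h3, pow_one]
    rw [h0, h2] at h1
    exact mul_eq_right.1 h1

/-- Step 2: a homomorphism to the group of order `p` with trivial transfer. -/
theorem exists_lam {p : ℕ} [hp : Fact p.Prime] (hpN : ¬ p ∣ N.index) {x : G} (hxN : x ∈ N)
    (hxp : ∃ k, x ^ p ^ k = 1) (hxG : x ∈ _root_.commutator G) (hxN' : x ∉ ⁅N, N⁆)
    [Fintype (G ⧸ N)] {r : G ⧸ N → G} (hr : IsSec r) :
    ∃ (lam : N →* Multiplicative (ZMod p)), (∃ n, lam n ≠ 1) ∧ ∀ g, V hr lam Finset.univ g = 1 := by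
  classical
  obtain ⟨lam, a, h1, h2, h3⟩ := exists_lam_complex hpN hxN hxp hxG hxN' hr
  have hex : ∃ j, ∀ n, lam n ^ p ^ j = 1 := ⟨a, h1⟩
  set j := Nat.find hex with hj
  have hj1 : ∀ n, lam n ^ p ^ j = 1 := Nat.find_spec hex
  have hj0 : j ≠ 0 := by
    intro h
    rw [h] at hj1
    apply h2
    have := hj1 ⟨x, hxN⟩
    rwa [pow_zero, pow_one] at this
  obtain ⟨i, hi⟩ := Nat.exists_eq_succ_of_ne_zero hj0
  have hi1 : ¬ ∀ n, lam n ^ p ^ i = 1 := Nat.find_min hex (by omega)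
  let mu : N →* ℂˣ := (powMonoidHom (p ^ i)).comp lam
  have hmu : ∀ n, mu n = lam n ^ p ^ i := fun n => rfl
  have hmup : ∀ n, mu n ^ p = 1 := by
    intro n
    rw [hmu, ← pow_mul, ← pow_succ]
    have := hj1 n
    rw [hi] at this
    exact this
  obtain ⟨n, hn⟩ : ∃ n, mu n ≠ 1 := by
    by_contra hcon
    push Not at hcon
    exact hi1 hcon
  let mu' : N →* rootsOfUnity p ℂ := mu.codRestrict (rootsOfUnity p ℂ) (fun n => (mem_rootsOfUnity p _).2 (hmup n))
  have hcr : Nat.card (rootsOfUnity p ℂ) = p := by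
    haveI : NeZero p := ⟨hp.out.ne_zero⟩
    exact Complex.card_rootsOfUnity p
  have hcz : Nat.card (Multiplicative (ZMod p)) = p := by simp
  let e : rootsOfUnity p ℂ ≃* Multiplicative (ZMod p) := mulEquivOfPrimeCardEq hcr hcz
  refine ⟨e.toMonoidHom.comp mu', ⟨n, ?_⟩, ?_⟩
  · intro h
    apply hn
    have h4 : e (mu' n) = 1 := h
    rw [map_eq_one_iff e e.injective] at h4
    exact congrArg Subtype.val h4
  · intro g
    rw [V_lam_comp]
    have h4 : V hr mu' Finset.univ g = 1 := by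
      apply (rootsOfUnity p ℂ).subtype_injective
      rw [← V_lam_comp, map_one]
      have h5 : (rootsOfUnity p ℂ).subtype.comp mu' = (powMonoidHom (p ^ i)).comp lam := by ext n; rfl
      rw [h5, V_lam_comp, h3, map_one]
    rw [h4, map_one]

end Cfsg.Agent.H18.Yo
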