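import Mathlib
import Cfsg.Prelude
import Cfsg.Agent.H18.Yosh2
import Cfsg.Agent.H18.MinOver
import Cfsg.Agent.H1.MinNonNil
import Cfsg.Agent.H1.Cores

set_option autoImplicit false
set_option linter.all false

namespace Cfsg.Agent.H18.Yo

open Subgroup Pointwise

variable {G : Type*} [Group G] [Finite G]

/-- p-elements of `N` are conjugate into the Sylow subgroup -/
theorem exists_conj_sylow {p : ℕ} [hp : Fact p.Prime] (S : Sylow p G) {N : Subgroup G}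
    (hSN : (S : Subgroup G) ≤ N) {A : Type*} [CommGroup A] (lam : N →* A) (u : N)
    (hu : ∃ k, u ^ p ^ k = 1) :
    ∃ s, ∃ hs : s ∈ (S : Subgroup G), orderOf s = orderOf u ∧ lam ⟨s, hSN hs⟩ = lam u := by
  have hpu : IsPGroup p (zpowers u) := by
    obtain ⟨k, hk⟩ := hu
    rintro ⟨_, ⟨j, rfl⟩⟩
    refine ⟨k, Subtype.ext ?_⟩
    show ((u ^ j) ^ p ^ k : N) = 1
    rw [← zpow_natCast, ← zpow_mul, mul_comm, zpow_mul, zpow_natCast, hk, one_zpow]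
  obtain ⟨Q, hQ⟩ := hpu.exists_le_sylow
  obtain ⟨g, hg⟩ := MulAction.exists_smul_eq N (S.subtype hSN) Q
  have h1 : u ∈ (Q : Subgroup N) := hQ (mem_zpowers u)
  rw [← hg] at h1
  have h2 : g⁻¹ * u * g ∈ (S.subtype hSN : Subgroup N) := by
    have h3 : u ∈ MulAut.conj g • (S.subtype hSN : Subgroup N) := h1
    rw [Subgroup.mem_pointwise_smul_iff_inv_smul_mem] at h3
    have h4 : (MulAut.conj g)⁻¹ • u = g⁻¹ * u * g := by
      rw [← map_inv]; simp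
    rw [h4] at h3
    exact h3
  have h3 : ((g⁻¹ * u * g : N) : G) ∈ (S : Subgroup G) := h2
  refine ⟨_, h3, ?_, ?_⟩
  · rw [Subgroup.orderOf_coe]
    have : g⁻¹ * u * g = MulAut.conj g⁻¹ u := by simp
    rw [this]
    exact MulEquiv.orderOf_eq _ _
  · have : (⟨((g⁻¹ * u * g : N) : G), hSN h3⟩ : N) = g⁻¹ * u * g := Subtype.ext rfl
    rw [this, map_mul, map_mul, map_inv, mul_comm, mul_inv_cancel_left]

set_option maxHeartbeats 1000000 in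
theorem main {p : ℕ} [hp : Fact p.Prime] (S : Sylow p G) (W : Subgroup G)
    (hW : Cfsg.IsWeaklyClosed W (S : Subgroup G)) {x : G} (hxS : x ∈ (S : Subgroup G))
    (hxG : x ∈ _root_.commutator G) (hxN : x ∉ ⁅normalizer (W : Set G), normalizer (W : Set G)⁆) :
    ∃ (y z : G) (S₁ M₁ : Subgroup G) (T : G → Multiplicative (ZMod p)), S₁ ≤ S ∧ W ≤ S₁ ∧ M₁ ≤ S₁ ∧
      S₁ = M₁ ⊔ W ∧ M₁.relIndex S₁ = p ∧ S₁ ≤ normalizer (M₁ : Set G) ∧ y ∈ M₁ ∧ z ∈ W ∧ z ∉ M₁ ∧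
      (∀ m ∈ M₁, ∀ m' ∈ M₁, T (m * m') = T m * T m') ∧
      (∀ s ∈ S₁, ∃ i < p, (z ^ i)⁻¹ * s ∈ M₁) ∧
      ∏ i ∈ Finset.range p, T ((z ^ i)⁻¹ * y * z ^ i) ≠ 1 := by
  classical
  set N : Subgroup G := normalizer (W : Set G) with hN
  have hSN : (S : Subgroup G) ≤ N := by
    intro s hs
    have h1 : W.map (MulAut.conj s).toMonoidHom ≤ (S : Subgroup G) := by
      rintro _ ⟨w, hw, rfl⟩
      exact mul_mem (mul_mem hs (hW.1 hw)) (inv_mem hs)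
    have h2 := hW.2 s h1
    rw [hN, mem_normalizer_iff]
    intro w
    constructor
    · intro hw
      rw [← h2]
      exact ⟨w, hw, rfl⟩
    · intro hw
      rw [← h2] at hw
      obtain ⟨w', hw', h3⟩ := hw
      have h4 : s * w' * s⁻¹ = s * w * s⁻¹ := h3
      have h5 : w' = w := by
        have := mul_right_cancel h4
        exact mul_left_cancel this
      rw [← h5]; exact hw'
  have hidx : ¬ p ∣ N.index := by
    intro h
    exact S.not_dvd_index (h.trans (index_dvd_of_le hSN))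
  haveI : Fintype (G ⧸ N) := Fintype.ofFinite _
  let r : G ⧸ N → G := Quotient.out
  have hr : IsSec r := isSec_out
  have hxp : ∃ k, x ^ p ^ k = 1 := by
    obtain ⟨k, hk⟩ := S.isPGroup' ⟨x, hxS⟩
    exact ⟨k, congrArg Subtype.val hk⟩
  obtain ⟨lam, ⟨n₀, hn₀⟩, hV⟩ := exists_lam hidx (hSN hxS) hxp hxG hxN hr
  have hAp : ∀ a : Multiplicative (ZMod p), a ^ p = 1 := by
    intro a
    have h0 : Nat.card (Multiplicative (ZMod p)) = p := by simp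
    have h : a ^ Nat.card (Multiplicative (ZMod p)) = 1 := pow_card_eq_one'
    rw [h0] at h
    exact h
  -- a p-element
  have hex : ∃ k, ∃ u : N, (∃ j, u ^ p ^ j = 1) ∧ lam u ≠ 1 ∧ orderOf u = k := by
    obtain ⟨a, m, hm, hc⟩ := Nat.exists_eq_pow_mul_and_not_dvd (orderOf_pos n₀).ne' p hp.out.ne_one
    refine ⟨_, n₀ ^ m, ⟨a, ?_⟩, ?_, rfl⟩
    · rw [← pow_mul, mul_comm, ← hc, pow_orderOf_eq_one]
    · intro h
      rw [map_pow] at h
      have h3 : orderOf (lam n₀) ∣ Nat.gcd m p :=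
        Nat.dvd_gcd (orderOf_dvd_of_pow_eq_one h) (orderOf_dvd_of_pow_eq_one (hAp _))
      have h4 : Nat.gcd m p = 1 := ((Nat.Prime.coprime_iff_not_dvd hp.out).2 hm).symm
      rw [h4, Nat.dvd_one, orderOf_eq_one_iff] at h3
      exact hn₀ h3
  obtain ⟨u₀, hu₀p, hu₀, hu₀o⟩ := Nat.find_spec hex
  obtain ⟨y, hyS, hyo, hyl⟩ := exists_conj_sylow S hSN lam u₀ hu₀p
  have hyl' : lam ⟨y, hSN hyS⟩ ≠ 1 := by rw [hyl]; exact hu₀
  have hmin : ∀ u : N, (∃ j, u ^ p ^ j = 1) → orderOf u < orderOf y → lam u = 1 := by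
    intro u hu ho
    by_contra hne
    rw [hyo, hu₀o] at ho
    exact Nat.find_min hex ho ⟨u, hu, hne, rfl⟩
  have hWS := hW.1
  have hWN : W ≤ N := hWS.trans hSN
  set ω₀ : G ⧸ N := ((1 : G) : G ⧸ N) with hω₀
  have hfix0 : ∀ g ∈ N, g • ω₀ = ω₀ := by
    intro g hg
    show ((g * 1 : G) : G ⧸ N) = ((1 : G) : G ⧸ N)
    rw [mul_one, QuotientGroup.eq, mul_one]
    exact inv_mem hg
  let F : G ⧸ N → Multiplicative (ZMod p) := fun ω => lam (coc hr y ω)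
  have hF0 : F ω₀ = lam ⟨y, hSN hyS⟩ := by
    have hr0 : r ω₀ ∈ N := by
      have h1 := hr ω₀
      rw [hω₀, QuotientGroup.eq] at h1
      rw [mul_one] at h1
      exact inv_mem_iff.1 h1
    have h1 : coc hr y ω₀ = (⟨r ω₀, hr0⟩ : N)⁻¹ * ⟨y, hSN hyS⟩ * ⟨r ω₀, hr0⟩ := by
      apply Subtype.ext
      show (r (y • ω₀))⁻¹ * y * r ω₀ = (r ω₀)⁻¹ * y * r ω₀
      rw [hfix0 y (hSN hyS)]
    show lam (coc hr y ω₀) = _
    rw [h1, map_mul, map_mul, map_inv, mul_comm, mul_inv_cancel_left]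
  have htot : ∏ ω, F ω = 1 := hV y
  have h1 : ∏ ω ∈ Finset.univ.erase ω₀, F ω ≠ 1 := by
    intro h
    rw [← Finset.mul_prod_erase Finset.univ F (Finset.mem_univ ω₀), h, mul_one, hF0] at htot
    exact hyl' htot
  set R : Subgroup G := W ⊔ zpowers y with hR
  have hRS : R ≤ (S : Subgroup G) := sup_le hWS (zpowers_le.2 hyS)
  obtain ⟨ω, hω, O, hO, hOsub, hOprod⟩ := exists_orbit (R := R) F (Finset.univ.erase ω₀) (by
    rintro ⟨g, hg⟩ ω hω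
    rw [Finset.mem_erase] at hω ⊢
    refine ⟨fun h => hω.1 ?_, Finset.mem_univ _⟩
    have h2 : g • ω = ω₀ := h
    have h3 : ω = g⁻¹ • ω₀ := by rw [← h2, inv_smul_smul]
    rw [h3]
    exact hfix0 _ (inv_mem (hSN (hRS hg)))) h1
  have hOinv : ∀ g ∈ R, ∀ ω' ∈ O, g • ω' ∈ O := by
    intro g hg ω' hω'
    rw [hO] at hω' ⊢
    obtain ⟨k, hk⟩ := hω'
    refine ⟨⟨g, hg⟩ * k, ?_⟩
    have hk' : k • ω = ω' := hk
    show (⟨g, hg⟩ * k : R) • ω = g • ω'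
    rw [mul_smul, hk']; rfl
  obtain ⟨ω₁, hω₁, O₁, hO₁, hO₁sub, hO₁prod⟩ := exists_orbit (R := zpowers y) F O (by
    rintro ⟨g, hg⟩ ω hω
    exact hOinv g ((le_sup_right : zpowers y ≤ R) hg) ω hω) hOprod
  obtain ⟨f, hf0, hfω, hfc, hfd, hfV⟩ := V_zpowers_orbit hr lam y ω₁ O₁ hO₁
  have hyp : ∃ k, y ^ p ^ k = 1 := by
    obtain ⟨k, hk⟩ := S.isPGroup' ⟨y, hyS⟩
    exact ⟨k, congrArg Subtype.val hk⟩
  have hyω : y • ω₁ = ω₁ := by
    by_contra hne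
    have hf1 : f ≠ 1 := by
      rintro rfl
      rw [pow_one] at hfω
      exact hne hfω
    apply hO₁prod
    have h2 : ∏ ω ∈ O₁, F ω = lam (coc hr (y ^ f) ω₁) := hfV
    rw [h2]
    have h3 : ((coc hr (y ^ f) ω₁ : N) : G) = (r ω₁)⁻¹ * y ^ f * r ω₁ := by
      show (r (y ^ f • ω₁))⁻¹ * y ^ f * r ω₁ = _
      rw [hfω]
    have h4 : orderOf (coc hr (y ^ f) ω₁) = orderOf (y ^ f) := by
      rw [← Subgroup.orderOf_coe, h3]
      have : (r ω₁)⁻¹ * y ^ f * r ω₁ = MulAut.conj (r ω₁)⁻¹ (y ^ f) := by simp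
      rw [this]
      exact MulEquiv.orderOf_eq _ _
    apply hmin
    · obtain ⟨k, hk⟩ := hyp
      refine ⟨k, ?_⟩
      rw [← orderOf_dvd_iff_pow_eq_one, h4, orderOf_dvd_iff_pow_eq_one, ← pow_mul, mul_comm, pow_mul, hk,
        one_pow]
    · rw [h4, orderOf_pow_of_dvd hf0.ne' hfd]
      exact Nat.div_lt_self (orderOf_pos y) (by omega)
  have hω₁0 : ω₁ ≠ ω₀ := (Finset.mem_erase.1 (hOsub hω₁)).1
  have hWn : (S : Subgroup G) ≤ normalizer (W : Set G) := hSN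
  -- the orbit is the W-orbit of ω₁
  have hOW : ∀ x, x ∈ O ↔ ∃ w ∈ W, w • ω₁ = x := by
    intro x
    constructor
    · intro hx
      rw [hO] at hx
      obtain ⟨g, hg⟩ := hx
      have hω₁' := (hO ω₁).1 hω₁
      obtain ⟨g', hg'⟩ := hω₁'
      have e1 : (g : G) • ω = x := hg
      have e2 : (g' : G) • ω = ω₁ := hg'
      have e3 : ((g : G) * (g' : G)⁻¹) • ω₁ = x := by
        rw [mul_smul, ← e2, inv_smul_smul, e1]
      have e4 : (g : G) * (g' : G)⁻¹ ∈ R := R.mul_mem g.2 (R.inv_mem g'.2)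
      have hyn : zpowers y ≤ normalizer (W : Set G) := zpowers_le.2 (hSN hyS)
      have e5 : (g : G) * (g' : G)⁻¹ ∈ ((W ⊔ zpowers y : Subgroup G) : Set G) := e4
      rw [Subgroup.coe_mul_of_right_le_normalizer_left W (zpowers y) hyn] at e5
      obtain ⟨w, hw, v, hv, e6⟩ := Set.mem_mul.1 e5
      refine ⟨w, hw, ?_⟩
      have e7 : v • ω₁ = ω₁ := by
        have : zpowers y ≤ MulAction.stabilizer G ω₁ := zpowers_le.2 hyω
        exact this hv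
      rw [← e3, ← e6, mul_smul, e7]
    · rintro ⟨w, hw, rfl⟩
      exact hOinv w ((le_sup_left : W ≤ R) hw) ω₁ hω₁
  set Q : Subgroup G := (S : Subgroup G) ⊓ MulAction.stabilizer G ω₁ with hQ
  have hyQ : y ∈ Q := mem_inf.2 ⟨hyS, hyω⟩
  have hWQ : ¬ W ≤ Q := by
    intro hle
    apply hω₁0
    set t := r ω₁ with ht
    have htω : ((t : G) : G ⧸ N) = ω₁ := hr ω₁
    have h2 : ∀ w ∈ W, t⁻¹ * w * t ∈ N := by
      intro w hw
      have h3 : w • ω₁ = ω₁ := (mem_inf.1 (hle hw)).2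
      rw [← htω] at h3
      have h4 : ((w * t : G) : G ⧸ N) = ((t : G) : G ⧸ N) := h3
      have h5 := QuotientGroup.eq.1 h4.symm
      rw [mul_assoc]; exact h5
    -- conjugate W^t into N, p-subgroup
    let Wt : Subgroup N := (W.map (MulAut.conj t⁻¹).toMonoidHom).subgroupOf N
    have hWt : W.map (MulAut.conj t⁻¹).toMonoidHom ≤ N := by
      rintro _ ⟨w, hw, rfl⟩
      have := h2 w hw
      show t⁻¹ * w * t⁻¹⁻¹ ∈ N
      rwa [inv_inv]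
    have hWp : IsPGroup p W := S.isPGroup'.to_le hWS
    have hWtp : IsPGroup p Wt := by
      have h3 : IsPGroup p (W.map (MulAut.conj t⁻¹).toMonoidHom) := hWp.map _
      exact h3.comap_subtype
    obtain ⟨Q', hQ'⟩ := hWtp.exists_le_sylow
    obtain ⟨g, hg⟩ := MulAction.exists_smul_eq N (S.subtype hSN) Q'
    have h3 : W.map (MulAut.conj ((g : G)⁻¹ * t⁻¹)).toMonoidHom ≤ (S : Subgroup G) := by
      rintro _ ⟨w, hw, rfl⟩
      have h4 : (⟨t⁻¹ * w * t, h2 w hw⟩ : N) ∈ (Q' : Subgroup N) := by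
        apply hQ'
        show t⁻¹ * w * t ∈ W.map (MulAut.conj t⁻¹).toMonoidHom
        refine ⟨w, hw, ?_⟩
        show t⁻¹ * w * t⁻¹⁻¹ = t⁻¹ * w * t
        rw [inv_inv]
      rw [← hg] at h4
      have h5 : (⟨t⁻¹ * w * t, h2 w hw⟩ : N) ∈ MulAut.conj g • (S.subtype hSN : Subgroup N) := h4
      rw [Subgroup.mem_pointwise_smul_iff_inv_smul_mem] at h5
      have h6 : (MulAut.conj g)⁻¹ • (⟨t⁻¹ * w * t, h2 w hw⟩ : N) = g⁻¹ * ⟨t⁻¹ * w * t, h2 w hw⟩ * g := by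
        rw [← map_inv]; simp
      rw [h6] at h5
      have h7 : ((g⁻¹ * ⟨t⁻¹ * w * t, h2 w hw⟩ * g : N) : G) ∈ (S : Subgroup G) := h5
      have h8 : ((g⁻¹ * ⟨t⁻¹ * w * t, h2 w hw⟩ * g : N) : G) =
          MulAut.conj ((g : G)⁻¹ * t⁻¹) w := by
        simp [mul_assoc]
      rw [h8] at h7
      exact h7
    have h4 := hW.2 _ h3
    have h5 : (g : G)⁻¹ * t⁻¹ ∈ N := by
      show (g : G)⁻¹ * t⁻¹ ∈ normalizer (W : Set G)
      rw [mem_normalizer_iff]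
      intro w
      constructor
      · intro hw
        rw [← h4]
        exact ⟨w, hw, rfl⟩
      · intro hw
        rw [← h4] at hw
        obtain ⟨w', hw', h6⟩ := hw
        have h7 : w' = w := (MulAut.conj ((g : G)⁻¹ * t⁻¹)).injective h6
        rw [← h7]; exact hw'
    have h6 : t ∈ N := by
      have h7 := N.mul_mem g.2 h5
      rw [mul_inv_cancel_left] at h7
      exact inv_mem_iff.1 h7
    rw [← htω, hω₀, QuotientGroup.eq, mul_one]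
    exact inv_mem h6
  set S₁ : Subgroup G := Q ⊔ W with hS₁
  have hQS₁ : Q ≤ S₁ := le_sup_left
  have hWS₁ : W ≤ S₁ := le_sup_right
  have hS₁S : S₁ ≤ (S : Subgroup G) := sup_le inf_le_left hWS
  have hS₁p : IsPGroup p S₁ := S.isPGroup'.to_le hS₁S
  have hne : Q.subgroupOf S₁ ≠ ⊤ := by
    intro h
    rw [subgroupOf_eq_top] at h
    exact hWQ (hWS₁.trans h)
  obtain ⟨M', hM', hQM'⟩ := H18.exists_coatom_ge hne
  haveI hM'n : M'.Normal := (H1.isNilpotent_iff_coatom_normal.1 hS₁p.isNilpotent) M' hM'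
  have hM'i : M'.index = p := by
    have h2 := H1.index_prime_of_normal_coatom hM'
    obtain ⟨k, hk⟩ := IsPGroup.iff_card.1 hS₁p
    have h3 : M'.index ∣ p ^ k := hk ▸ index_dvd_card M'
    exact (Nat.prime_dvd_prime_iff_eq h2 hp.out).1 (h2.dvd_of_dvd_pow h3)
  set M₁ : Subgroup G := M'.map S₁.subtype with hM₁
  have hM₁S₁ : M₁ ≤ S₁ := by
    rintro _ ⟨m, -, rfl⟩; exact m.2
  have hM₁' : M₁.subgroupOf S₁ = M' := by
    ext s
    rw [mem_subgroupOf]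
    constructor
    · rintro ⟨m, hm, h⟩
      have : m = s := Subtype.ext h
      rw [← this]; exact hm
    · intro h
      exact ⟨s, h, rfl⟩
  have hmem : ∀ s (hs : s ∈ S₁), s ∈ M₁ ↔ (⟨s, hs⟩ : S₁) ∈ M' := by
    intro s hs
    rw [← hM₁', mem_subgroupOf]
  have hQM₁ : Q ≤ M₁ := by
    intro q hq
    rw [hmem q (hQS₁ hq)]
    exact hQM' (mem_subgroupOf.2 hq)
  have hrel : M₁.relIndex S₁ = p := by
    rw [relIndex, hM₁', hM'i]
  have hnorm : S₁ ≤ normalizer (M₁ : Set G) := by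
    intro s hs
    rw [mem_normalizer_iff]
    intro m
    constructor
    · intro hm
      have hmS := hM₁S₁ hm
      have h3 := (hmem m hmS).1 hm
      have h4 := hM'n.conj_mem _ h3 ⟨s, hs⟩
      exact (hmem _ (mul_mem (mul_mem hs hmS) (inv_mem hs))).2 h4
    · intro hm
      have hmS := hM₁S₁ hm
      have h3 := (hmem _ hmS).1 hm
      have h4 := hM'n.conj_mem _ h3 ⟨s, hs⟩⁻¹
      have h5 : ((⟨s, hs⟩⁻¹ * ⟨s * m * s⁻¹, hmS⟩ * ⟨s, hs⟩⁻¹⁻¹ : S₁) : G) = m := by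
        show s⁻¹ * (s * m * s⁻¹) * s⁻¹⁻¹ = m
        group
      have h6 : ((⟨s, hs⟩⁻¹ * ⟨s * m * s⁻¹, hmS⟩ * ⟨s, hs⟩⁻¹⁻¹ : S₁) : G) ∈ M₁ := by
        rw [← hM₁', mem_subgroupOf] at h4
        exact h4
      rwa [h5] at h6
  have hWM₁ : ¬ W ≤ M₁ := by
    intro h
    have h2 : S₁ ≤ M₁ := sup_le hQM₁ h
    have h3 : M' = ⊤ := by
      rw [eq_top_iff]
      rintro ⟨s, hs⟩ -
      exact (hmem s hs).1 (h2 hs)
    exact hM'.1 h3
  obtain ⟨z, hzW, hzM⟩ : ∃ z ∈ W, z ∉ M₁ := by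
    by_contra h
    push Not at h
    exact hWM₁ h
  have hzS₁ : z ∈ S₁ := hWS₁ hzW
  have hsup : S₁ = M₁ ⊔ W :=
    le_antisymm (sup_le_sup_right hQM₁ W) (sup_le hM₁S₁ hWS₁)
  -- cosets
  have hcardq : Nat.card (S₁ ⧸ M') = p := hM'i
  have hz' : ((⟨z, hzS₁⟩ : S₁) : S₁ ⧸ M') ≠ 1 := by
    intro h
    exact hzM ((hmem z hzS₁).2 ((QuotientGroup.eq_one_iff _).1 h))
  have hq1 : ∀ s ∈ S₁, ∃ i < p, (z ^ i)⁻¹ * s ∈ M₁ := by
    intro s hs
    have h2 : ((⟨s, hs⟩ : S₁) : S₁ ⧸ M') ∈ zpowers ((⟨z, hzS₁⟩ : S₁) : S₁ ⧸ M') :=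
      mem_zpowers_of_prime_card hcardq hz'
    have ho : orderOf ((⟨z, hzS₁⟩ : S₁) : S₁ ⧸ M') = p := orderOf_eq_prime (by
      rw [← hcardq]; exact pow_card_eq_one') hz'
    have h3 : ((⟨s, hs⟩ : S₁) : S₁ ⧸ M') ∈ Submonoid.powers ((⟨z, hzS₁⟩ : S₁) : S₁ ⧸ M') := by
      rw [mem_powers_iff_mem_zpowers]; exact h2
    rw [mem_powers_iff_mem_range_orderOf, ho, Finset.mem_image] at h3
    obtain ⟨i, hi, h4⟩ := h3
    refine ⟨i, Finset.mem_range.1 hi, ?_⟩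
    have h5 : (((⟨z, hzS₁⟩ : S₁) ^ i : S₁) : S₁ ⧸ M') = ((⟨s, hs⟩ : S₁) : S₁ ⧸ M') := h4
    have h6 := QuotientGroup.eq.1 h5
    have h7 := (hmem _ (mul_mem (inv_mem (pow_mem hzS₁ i)) hs)).2 (by exact h6)
    exact h7
  have hq2 : ∀ i < p, ∀ j < p, (z ^ i)⁻¹ * z ^ j ∈ M₁ → i = j := by
    intro i hi j hj h
    have ho : orderOf ((⟨z, hzS₁⟩ : S₁) : S₁ ⧸ M') = p := orderOf_eq_prime (by
      rw [← hcardq]; exact pow_card_eq_one') hz'
    have h2 := (hmem _ (mul_mem (inv_mem (pow_mem hzS₁ i)) (pow_mem hzS₁ j))).1 h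
    have h3 : (((⟨z, hzS₁⟩ : S₁) ^ i : S₁) : S₁ ⧸ M') = (((⟨z, hzS₁⟩ : S₁) ^ j : S₁) : S₁ ⧸ M') :=
      QuotientGroup.eq.2 h2
    have h4 : ((⟨z, hzS₁⟩ : S₁) : S₁ ⧸ M') ^ i = ((⟨z, hzS₁⟩ : S₁) : S₁ ⧸ M') ^ j := h3
    exact pow_injOn_Iio_orderOf (by rw [ho]; exact hi) (by rw [ho]; exact hj) h4
  -- the M₁-orbit
  let Δ₀ : Finset (G ⧸ N) := Finset.univ.filter (fun x => ∃ m ∈ M₁, m • ω₁ = x)
  have hΔ₀ : ∀ x, x ∈ Δ₀ ↔ ∃ m ∈ M₁, m • ω₁ = x := by intro x; simp [Δ₀]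
  have hΔinv : ∀ m ∈ M₁, ∀ ω ∈ Δ₀, m • ω ∈ Δ₀ := by
    intro m hm ω hω
    rw [hΔ₀] at hω ⊢
    obtain ⟨m', hm', rfl⟩ := hω
    exact ⟨m * m', mul_mem hm hm', mul_smul m m' ω₁⟩
  have hOun : O = (Finset.range p).biUnion (fun i => Δ₀.image (fun ω => z ^ i • ω)) := by
    ext x
    rw [Finset.mem_biUnion, hOW]
    constructor
    · rintro ⟨w, hw, rfl⟩
      obtain ⟨i, hi, h2⟩ := hq1 w (hWS₁ hw)
      refine ⟨i, Finset.mem_range.2 hi, Finset.mem_image.2 ⟨((z ^ i)⁻¹ * w) • ω₁, ?_, ?_⟩⟩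
      · rw [hΔ₀]; exact ⟨_, h2, rfl⟩
      · rw [← mul_smul, mul_inv_cancel_left]
    · rintro ⟨i, hi, h2⟩
      obtain ⟨ω', hω', rfl⟩ := Finset.mem_image.1 h2
      rw [hΔ₀] at hω'
      obtain ⟨m, hm, rfl⟩ := hω'
      have h3 : z ^ i * m ∈ S₁ := mul_mem (pow_mem hzS₁ i) (hM₁S₁ hm)
      have hQn : Q ≤ normalizer (W : Set G) := inf_le_left.trans hSN
      have e5 : z ^ i * m ∈ ((W ⊔ Q : Subgroup G) : Set G) := by
        rw [sup_comm]; exact h3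
      rw [Subgroup.coe_mul_of_right_le_normalizer_left W Q hQn] at e5
      obtain ⟨w, hw, v, hv, e6⟩ := Set.mem_mul.1 e5
      refine ⟨w, hw, ?_⟩
      have e7 : v • ω₁ = ω₁ := (mem_inf.1 hv).2
      rw [← mul_smul, ← e6, mul_smul, e7]
  refine ⟨y, z, S₁, M₁, fun m => V hr lam Δ₀ m, hS₁S, hWS₁, hM₁S₁, hsup, hrel, hnorm, hQM₁ hyQ, hzW, hzM,
    ?_, hq1, ?_⟩
  · intro m hm m' hm'
    exact V_mul hr lam Δ₀ m m' (hΔinv m' hm')
  · have h2 : V hr lam O y = ∏ i ∈ Finset.range p, V hr lam (Δ₀.image (fun ω => z ^ i • ω)) y := by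
      rw [hOun]
      apply V_union
      intro i hi j hj hij
      rw [Finset.disjoint_left]
      intro x hx hx'
      obtain ⟨_, h3, rfl⟩ := Finset.mem_image.1 hx
      obtain ⟨_, h4, h5⟩ := Finset.mem_image.1 hx'
      rw [hΔ₀] at h3 h4
      obtain ⟨m, hm, rfl⟩ := h3
      obtain ⟨m', hm', rfl⟩ := h4
      apply hij
      apply hq2 i (Finset.mem_range.1 hi) j (Finset.mem_range.1 hj)
      have h6 : (m⁻¹ * (z ^ i)⁻¹ * (z ^ j * m')) • ω₁ = ω₁ := by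
        have h5' : z ^ j • m' • ω₁ = z ^ i • m • ω₁ := h5
        rw [mul_smul, mul_smul (z ^ j), h5', mul_smul, inv_smul_smul, inv_smul_smul]
      have h7 : m⁻¹ * (z ^ i)⁻¹ * (z ^ j * m') ∈ Q := by
        refine mem_inf.2 ⟨hS₁S ?_, h6⟩
        exact mul_mem (mul_mem (inv_mem (hM₁S₁ hm)) (inv_mem (pow_mem hzS₁ i)))
          (mul_mem (pow_mem hzS₁ j) (hM₁S₁ hm'))
      have h8 := mul_mem (mul_mem hm (hQM₁ h7)) (inv_mem hm')
      have h9 : m * (m⁻¹ * (z ^ i)⁻¹ * (z ^ j * m')) * m'⁻¹ = (z ^ i)⁻¹ * z ^ j := by group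
      rwa [h9] at h8
    have h3 : V hr lam O y ≠ 1 := hOprod
    rw [h2] at h3
    have h4 : ∀ i ∈ Finset.range p, V hr lam (Δ₀.image (fun ω => z ^ i • ω)) y =
        V hr lam Δ₀ ((z ^ i)⁻¹ * y * z ^ i) := by
      intro i _
      have h5 : (z ^ i)⁻¹ * y * z ^ i ∈ M₁ := by
        have h6 := (mem_normalizer_iff.1 (inv_mem (hnorm (pow_mem hzS₁ i))) y).1 (hQM₁ hyQ)
        rwa [inv_inv] at h6
      have h6 := V_conj hr lam Δ₀ ((z ^ i)⁻¹ * y * z ^ i) (z ^ i) (hΔinv _ h5)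
      rw [← h6]
      congr 1
      group
    rw [Finset.prod_congr rfl h4] at h3
    exact h3

end Cfsg.Agent.H18.Yo
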