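import Mathlib
import Cfsg.Prelude
import Cfsg.Agent.H18.Yosh3

set_option autoImplicit false
set_option linter.all false

namespace Cfsg.Agent.H18.Yo

open Subgroup Pointwise

theorem sum_succ_aux {p : ℕ} (F : ℕ → ZMod p) : ∀ (q n : ℕ), n = q + 1 →
    ∑ j ∈ Finset.range n, F j = ∑ j ∈ Finset.range q, F j + F q := by
  rintro q _ rfl
  exact Finset.sum_range_succ _ _

theorem sum_succ_aux' {p : ℕ} (F : ℕ → ZMod p) : ∀ (q n : ℕ), n = q + 1 →
    ∑ j ∈ Finset.range n, F j = ∑ j ∈ Finset.range q, F (j + 1) + F 0 := by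
  rintro q _ rfl
  exact Finset.sum_range_succ' _ _

theorem choose_sub_one {p : ℕ} [hp : Fact p.Prime] (k : ℕ) (hk : k < p) :
    (((p - 1).choose k : ℕ) : ZMod p) = (-1) ^ k := by
  induction k with
  | zero => simp
  | succ k ih =>
    have h1 := ih (by omega)
    have h2 : p.choose (k + 1) = (p - 1).choose k + (p - 1).choose (k + 1) := by
      have : p = (p - 1) + 1 := by have := hp.out.one_lt; omega
      conv_lhs => rw [this]
      exact Nat.choose_succ_succ _ _
    have h3 : ((p.choose (k + 1) : ℕ) : ZMod p) = 0 := by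
      rw [ZMod.natCast_eq_zero_iff]
      exact hp.out.dvd_choose_self (by omega) hk
    rw [h2, Nat.cast_add, h1] at h3
    have h4 : (((p - 1).choose (k + 1) : ℕ) : ZMod p) = -(-1) ^ k := (neg_eq_of_add_eq_zero_right h3).symm
    rw [h4, pow_succ]; ring

/-- the iterated differences -/
def D {p : ℕ} (f : ℕ → ZMod p) : ℕ → ℕ → ZMod p
  | 0 => f
  | k + 1 => fun i => D f k (i + 1) - D f k i

theorem D_eq {p : ℕ} (f : ℕ → ZMod p) (k i : ℕ) : D f k i = (fwdDiff (1 : ℕ))^[k] f i := by
  induction k generalizing i with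
  | zero => rfl
  | succ k ih =>
    rw [Function.iterate_succ_apply']
    show D f k (i + 1) - D f k i = _
    rw [ih, ih]; rfl

theorem D_sub_one {p : ℕ} [hp : Fact p.Prime] (f : ℕ → ZMod p) (i : ℕ) :
    D f (p - 1) i = ∑ j ∈ Finset.range p, f (i + j) := by
  rw [D_eq, fwdDiff_iter_eq_sum_shift]
  have hp1 : p - 1 + 1 = p := by have := hp.out.one_lt; omega
  rw [hp1]
  apply Finset.sum_congr rfl
  intro k hk
  rw [Finset.mem_range] at hk
  have h1 : (((-1 : ℤ) ^ (p - 1 - k) * ((p - 1).choose k : ℕ) : ℤ)) • f (i + k • 1) =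
      (((((-1 : ℤ) ^ (p - 1 - k) * ((p - 1).choose k : ℕ) : ℤ)) : ZMod p)) * f (i + k) := by
    rw [zsmul_eq_mul, smul_eq_mul, mul_one]
  rw [h1]
  push_cast
  rw [choose_sub_one k hk, ← pow_add]
  have h2 : p - 1 - k + k = p - 1 := by omega
  rw [h2, ZMod.pow_card_sub_one_eq_one, one_mul]
  exact neg_ne_zero.2 one_ne_zero

theorem D_add {p : ℕ} (f : ℕ → ZMod p) (k j i : ℕ) : D (D f k) j i = D f (k + j) i := by
  induction j generalizing i with
  | zero => rfl
  | succ j ih =>
    show D (D f k) j (i + 1) - D (D f k) j i = D f (k + j) (i + 1) - D f (k + j) i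
    rw [ih, ih]

theorem D_sum {p : ℕ} {ι : Type*} (s : Finset ι) (c : ι → ZMod p) (f : ι → ℕ → ZMod p) (j i : ℕ) :
    D (fun i => ∑ a ∈ s, c a * f a i) j i = ∑ a ∈ s, c a * D (f a) j i := by
  induction j generalizing i with
  | zero => rfl
  | succ j ih =>
    show D (fun i => ∑ a ∈ s, c a * f a i) j (i + 1) - D (fun i => ∑ a ∈ s, c a * f a i) j i = _
    rw [ih, ih, ← Finset.sum_sub_distrib]
    apply Finset.sum_congr rfl
    intro a _
    show _ = c a * (D (f a) j (i + 1) - D (f a) j i)
    ring

theorem D_zero {p : ℕ} (f : ℕ → ZMod p) (hf : ∀ i, f i = 0) (j i : ℕ) : D f j i = 0 := by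
  induction j generalizing i with
  | zero => exact hf i
  | succ j ih => show D f j (i + 1) - D f j i = 0; rw [ih, ih, sub_zero]

theorem D_period {p : ℕ} (f : ℕ → ZMod p) (hf : ∀ i, f (i + p) = f i) (j i : ℕ) :
    D f j (i + p) = D f j i := by
  induction j generalizing i with
  | zero => exact hf i
  | succ j ih =>
    show D f j (i + p + 1) - D f j (i + p) = D f j (i + 1) - D f j i
    rw [ih, show i + p + 1 = (i + 1) + p by ring, ih]

/-- the differences of a periodic function with nonzero sum span -/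
theorem D_span {p : ℕ} [hp : Fact p.Prime] (f : ℕ → ZMod p) (hf : ∀ i, f (i + p) = f i)
    (hs : ∑ j ∈ Finset.range p, f j ≠ 0) (g : Fin p → ZMod p) :
    ∃ e : Fin p → ZMod p, ∀ i : Fin p, g i = ∑ k : Fin p, e k * D f k i := by
  classical
  have hconst : ∀ i, D f (p - 1) i = ∑ j ∈ Finset.range p, f j := by
    intro i
    rw [D_sub_one]
    induction i with
    | zero => simp
    | succ i ih =>
      rw [← ih]
      obtain ⟨q, hq⟩ : ∃ q, p = q + 1 := ⟨p - 1, by have := hp.out.one_lt; omega⟩
      have h1 : ∑ j ∈ Finset.range p, f (i + 1 + j) = ∑ j ∈ Finset.range q, f (i + 1 + j) + f (i + 1 + q) :=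
        sum_succ_aux (fun j => f (i + 1 + j)) q p hq
      have h2 : ∑ j ∈ Finset.range p, f (i + j) = ∑ j ∈ Finset.range q, f (i + (j + 1)) + f (i + 0) :=
        sum_succ_aux' (fun j => f (i + j)) q p hq
      rw [h1, h2]
      have h3 : f (i + 1 + q) = f (i + 0) := by
        rw [add_zero, ← hf i]; congr 1; omega
      rw [h3]
      congr 1
      apply Finset.sum_congr rfl
      intro j _
      congr 1; ring
  have hge : ∀ m, p ≤ m → ∀ i, D f m i = 0 := by
    intro m hm i
    have h0 : ∀ i, D f p i = 0 := by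
      intro i
      obtain ⟨q, hq⟩ : ∃ q, p = q + 1 := ⟨p - 1, by have := hp.out.one_lt; omega⟩
      have h1 : D f (q + 1) i = D f q (i + 1) - D f q i := rfl
      have h2 : q = p - 1 := by omega
      have h3 : D f (q + 1) i = 0 := by
        rw [h1, h2, hconst, hconst, sub_self]
      have h4 : D f p = D f (q + 1) := congrArg (D f) hq
      rw [h4]; exact h3
    obtain ⟨j, rfl⟩ := Nat.exists_eq_add_of_le hm
    rw [← D_add]
    exact D_zero _ h0 j i
  let E : (Fin p → ZMod p) →+ (Fin p → ZMod p) :=
    { toFun := fun e i => ∑ k : Fin p, e k * D f k i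
      map_zero' := by funext i; simp
      map_add' := by
        intro a b
        funext i
        show ∑ k : Fin p, (a k + b k) * D f k i = ∑ k : Fin p, a k * D f k i + ∑ k : Fin p, b k * D f k i
        rw [← Finset.sum_add_distrib]
        apply Finset.sum_congr rfl
        intro k _; ring }
  have hinj : Function.Injective E := by
    rw [injective_iff_map_eq_zero]
    intro e he
    by_contra hne
    have hex : ∃ k, ∃ hk : k < p, e ⟨k, hk⟩ ≠ 0 := by
      by_contra h
      push Not at h
      apply hne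
      funext k
      exact h k k.2
    obtain ⟨hk, hk1⟩ := Nat.find_spec hex
    set k₀ := Nat.find hex with hk₀
    have hmin : ∀ k : Fin p, (k : ℕ) < k₀ → e k = 0 := by
      intro k hk'
      by_contra h
      exact Nat.find_min hex hk' ⟨k.2, h⟩
    -- all values vanish
    let h : ℕ → ZMod p := fun i => ∑ k : Fin p, e k * D f k i
    have hh : ∀ i, h i = 0 := by
      intro i
      have h1 : ∀ n i, h (i + n * p) = h i := by
        intro n
        induction n with
        | zero => intro i; simp
        | succ n ih =>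
          intro i
          have : i + (n + 1) * p = (i + n * p) + p := by ring
          rw [this]
          have h2 : h (i + n * p + p) = h (i + n * p) := by
            show ∑ k : Fin p, e k * D f k (i + n * p + p) = ∑ k : Fin p, e k * D f k (i + n * p)
            apply Finset.sum_congr rfl
            intro k _
            rw [D_period f hf]
          rw [h2, ih]
      have h2 : i = i % p + (i / p) * p := by rw [mul_comm]; exact (Nat.mod_add_div i p).symm
      rw [h2, h1]
      exact congrFun he ⟨i % p, Nat.mod_lt _ hp.out.pos⟩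
    have h1 := D_zero h hh (p - 1 - k₀) 0
    have h2 := D_sum Finset.univ e (fun k : Fin p => D f (k : ℕ)) (p - 1 - k₀) 0
    have h3 : D h (p - 1 - k₀) 0 = ∑ k : Fin p, e k * D (D f k) (p - 1 - k₀) 0 := h2
    rw [h1, Finset.sum_eq_single (⟨k₀, hk⟩ : Fin p)] at h3
    · rw [D_add] at h3
      have h4 : k₀ + (p - 1 - k₀) = p - 1 := by omega
      have h5 : ((⟨k₀, hk⟩ : Fin p) : ℕ) = k₀ := rfl
      rw [h5, h4, hconst] at h3
      exact hk1 ((mul_eq_zero.1 h3.symm).resolve_right hs)
    · intro k _ hk'
      rcases lt_or_gt_of_ne (fun h => hk' (Fin.ext h) : (k : ℕ) ≠ k₀) with h4 | h4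
      · rw [hmin k h4, zero_mul]
      · rw [D_add, hge _ (by omega), mul_zero]
    · intro h; exact absurd (Finset.mem_univ _) h
  have hsurj := Finite.surjective_of_injective hinj
  obtain ⟨e, he⟩ := hsurj g
  exact ⟨e, fun i => (congrFun he i).symm⟩

end Cfsg.Agent.H18.Yo
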