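import Mathlib
import Cfsg.Prelude
import Cfsg.Agent.H18.Yosh4
import Cfsg.Agent.H18.FrattiniP

set_option autoImplicit false
set_option linter.all false

namespace Cfsg.Agent.H18.Yo

open Subgroup Pointwise

variable {G : Type*} [Group G]

/-- the values along the conjugates by powers of `z` -/
def F {p : ℕ} (T : G → Multiplicative (ZMod p)) (z : G) (m : G) (i : ℕ) : ZMod p :=
  Multiplicative.toAdd (T ((z ^ i)⁻¹ * m * z ^ i))

theorem conj_mem' {M : Subgroup G} {z : G} (hz : z ∈ normalizer (M : Set G)) {m : G} (hm : m ∈ M)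
    (i : ℕ) : (z ^ i)⁻¹ * m * z ^ i ∈ M := by
  have h := (mem_normalizer_iff.1 (inv_mem (pow_mem hz i)) m).1 hm
  rw [inv_inv] at h
  exact h

theorem T_one {p : ℕ} {M : Subgroup G} {T : G → Multiplicative (ZMod p)}
    (hT : ∀ m ∈ M, ∀ m' ∈ M, T (m * m') = T m * T m') : T 1 = 1 := by
  have h := hT 1 (one_mem _) 1 (one_mem _)
  rw [mul_one] at h
  exact mul_eq_left.1 h.symm

theorem T_inv {p : ℕ} {M : Subgroup G} {T : G → Multiplicative (ZMod p)}
    (hT : ∀ m ∈ M, ∀ m' ∈ M, T (m * m') = T m * T m') {m : G} (hm : m ∈ M) : T m⁻¹ = (T m)⁻¹ := by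
  have h := hT m⁻¹ (inv_mem hm) m hm
  rw [inv_mul_cancel, T_one hT] at h
  exact eq_inv_of_mul_eq_one_left h.symm

theorem c_mem {M : Subgroup G} {z : G} (hz : z ∈ normalizer (M : Set G)) {m : G} (hm : m ∈ M) :
    m⁻¹ * z⁻¹ * m * z ∈ M := by
  have h := mul_mem (inv_mem hm) (conj_mem' hz hm 1)
  rw [pow_one] at h
  have e : m⁻¹ * z⁻¹ * m * z = m⁻¹ * (z⁻¹ * m * z) := by group
  rw [e]; exact h

theorem F_c {p : ℕ} {M : Subgroup G} {T : G → Multiplicative (ZMod p)} {z : G}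
    (hT : ∀ m ∈ M, ∀ m' ∈ M, T (m * m') = T m * T m') (hz : z ∈ normalizer (M : Set G)) {m : G}
    (hm : m ∈ M) (i : ℕ) : F T z (m⁻¹ * z⁻¹ * m * z) i = F T z m (i + 1) - F T z m i := by
  unfold F
  have e : (z ^ i)⁻¹ * (m⁻¹ * z⁻¹ * m * z) * z ^ i =
      ((z ^ i)⁻¹ * m * z ^ i)⁻¹ * ((z ^ (i + 1))⁻¹ * m * z ^ (i + 1)) := by
    have h : z ^ (i + 1) = z * z ^ i := pow_succ' _ _
    rw [h]; group
  rw [e, hT _ (inv_mem (conj_mem' hz hm i)) _ (conj_mem' hz hm (i + 1)), T_inv hT (conj_mem' hz hm i),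
    toAdd_mul, toAdd_inv]
  ring

theorem F_iter {p : ℕ} {M : Subgroup G} {T : G → Multiplicative (ZMod p)} {z : G}
    (hT : ∀ m ∈ M, ∀ m' ∈ M, T (m * m') = T m * T m') (hz : z ∈ normalizer (M : Set G)) {m : G}
    (hm : m ∈ M) (k : ℕ) : (fun y : G => y⁻¹ * z⁻¹ * y * z)^[k] m ∈ M ∧
      ∀ i, F T z ((fun y : G => y⁻¹ * z⁻¹ * y * z)^[k] m) i = D (F T z m) k i := by
  induction k with
  | zero => exact ⟨hm, fun i => rfl⟩
  | succ k ih =>
    obtain ⟨h1, h2⟩ := ih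
    rw [Function.iterate_succ_apply']
    refine ⟨c_mem hz h1, fun i => ?_⟩
    show F T z (_⁻¹ * z⁻¹ * _ * z) i = D (F T z m) k (i + 1) - D (F T z m) k i
    rw [F_c hT hz h1, h2, h2]

theorem sum_F {p : ℕ} (T : G → Multiplicative (ZMod p)) (z m : G) :
    ∑ i ∈ Finset.range p, F T z m i =
      Multiplicative.toAdd (∏ i ∈ Finset.range p, T ((z ^ i)⁻¹ * m * z ^ i)) := by
  rw [toAdd_prod]; rfl

theorem last_ne {p : ℕ} [hp : Fact p.Prime] {M : Subgroup G} {T : G → Multiplicative (ZMod p)} {z : G}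
    (hT : ∀ m ∈ M, ∀ m' ∈ M, T (m * m') = T m * T m') (hz : z ∈ normalizer (M : Set G)) {m : G}
    (hm : m ∈ M) (hne : ∏ i ∈ Finset.range p, T ((z ^ i)⁻¹ * m * z ^ i) ≠ 1) :
    T ((fun y : G => y⁻¹ * z⁻¹ * y * z)^[p - 1] m) ≠ 1 := by
  intro h
  have h1 := (F_iter hT hz hm (p - 1)).2 0
  rw [D_sub_one] at h1
  have h2 : F T z ((fun y : G => y⁻¹ * z⁻¹ * y * z)^[p - 1] m) 0 = 0 := by
    unfold F
    rw [pow_zero, inv_one, one_mul, mul_one, h]; rfl
  rw [h2] at h1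
  have h3 : ∑ j ∈ Finset.range p, F T z m (0 + j) = ∑ j ∈ Finset.range p, F T z m j := by
    apply Finset.sum_congr rfl
    intro j _
    rw [zero_add]
  rw [h3, sum_F] at h1
  exact hne (Multiplicative.toAdd.injective h1.symm)

/-- the maximal subgroup -/
theorem isCoatom_inter {M W S : Subgroup G} {p : ℕ} (hp : p.Prime) (hMS : M ≤ S) (hWS : W ≤ S)
    (hS : S = M ⊔ W) (hidx : M.relIndex S = p) (hn : S ≤ normalizer (M : Set G)) {z : G} (hzW : z ∈ W)
    (hzM : z ∉ M) : IsCoatom (M.subgroupOf W) := by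
  constructor
  · intro h
    rw [Subgroup.subgroupOf_eq_top] at h
    exact hzM (h hzW)
  · intro B hB
    rw [eq_top_iff]
    intro w _
    obtain ⟨b, hb, hbM⟩ := SetLike.exists_of_lt hB
    have hBW : B.map W.subtype ≤ W := Subgroup.map_subtype_le _
    have h1 : M ⊔ B.map W.subtype ≤ S := sup_le hMS (hBW.trans hWS)
    have h2 : M.relIndex (M ⊔ B.map W.subtype) * (M ⊔ B.map W.subtype).relIndex S = M.relIndex S :=
      Subgroup.relIndex_mul_relIndex _ _ _ le_sup_left h1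
    rw [hidx] at h2
    have h3 : M.relIndex (M ⊔ B.map W.subtype) ≠ 1 := by
      intro h3
      rw [Subgroup.relIndex_eq_one] at h3
      exact hbM (Subgroup.mem_subgroupOf.2 (h3 (le_sup_right (a := M) ⟨b, hb, rfl⟩)))
    have h4 : (M ⊔ B.map W.subtype).relIndex S = 1 := by
      have h5 : M.relIndex (M ⊔ B.map W.subtype) ∣ p := ⟨_, h2.symm⟩
      rcases (Nat.dvd_prime hp).1 h5 with h6 | h6
      · exact absurd h6 h3
      · rw [h6] at h2
        exact Nat.eq_of_mul_eq_mul_left hp.pos (by rw [h2, mul_one])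
    rw [Subgroup.relIndex_eq_one] at h4
    have h5 : (w : G) ∈ M ⊔ B.map W.subtype := h4 (hWS w.2)
    have hBn : B.map W.subtype ≤ normalizer (M : Set G) := (hBW.trans hWS).trans hn
    rw [← SetLike.mem_coe, Subgroup.coe_mul_of_right_le_normalizer_left _ _ hBn] at h5
    obtain ⟨m, hm, b', ⟨b'', hb'', hb3⟩, h6⟩ := Set.mem_mul.1 h5
    have h7 : m = (w : G) * (b'' : G)⁻¹ := by
      rw [← h6, ← hb3]; simp
    have h8 : w * b''⁻¹ ∈ M.subgroupOf W := by
      rw [Subgroup.mem_subgroupOf]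
      show (w : G) * (b'' : G)⁻¹ ∈ M
      rw [← h7]; exact hm
    have h9 := B.mul_mem (hB.le h8) hb''
    rwa [inv_mul_cancel_right] at h9

theorem frat_ker {p : ℕ} [hp : Fact p.Prime] [Finite G] {M W : Subgroup G}
    {T : G → Multiplicative (ZMod p)}
    (hT : ∀ m ∈ M, ∀ m' ∈ M, T (m * m') = T m * T m') {d : G}
    (hd : d ∈ ((frattini ↥(M.subgroupOf W)).map (M.subgroupOf W).subtype).map W.subtype) : T d = 1 := by
  let τ : ↥(M.subgroupOf W) →* Multiplicative (ZMod p) :=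
    { toFun := fun u => T ((u : W) : G)
      map_one' := T_one hT
      map_mul' := fun a b => hT _ (Subgroup.mem_subgroupOf.1 a.2) _ (Subgroup.mem_subgroupOf.1 b.2) }
  obtain ⟨_, ⟨e, he, rfl⟩, rfl⟩ := hd
  have key : frattini ↥(M.subgroupOf W) ≤ τ.ker := by
    refine frattini_le_of_elementary (p := p) _ ?_ ?_
    · exact Abelianization.commutator_subset_ker τ
    · intro y
      rw [MonoidHom.mem_ker, map_pow]
      apply Multiplicative.toAdd.injective
      rw [toAdd_pow, toAdd_one, nsmul_eq_mul, CharP.cast_eq_zero, zero_mul]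
  exact key he

end Cfsg.Agent.H18.Yo
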